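import Cfsg.Agent.DecompMax.UnitFrame

/-!
Stabilisers of orthonormal frames are maximal in special unitary groups of odd dimension at least five,
small fields of even order included.
-/

set_option autoImplicit false
set_option linter.style.haveILetI false
set_option linter.unusedSectionVars false

namespace Cfsg.Agent.SUFive.FrameOdd

open Matrix Cfsg.Geo Module Cfsg.Agent.Classical.U Cfsg.Agent.GeoClasses Cfsg.Agent.ClassicalMax
open Cfsg.Agent.DecompMax
open Cfsg.Agent.DecompMax.UCount Cfsg.Agent.DecompMax.UN Cfsg.Agent.DecompMax.UF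
open scoped MatrixGroups Matrix

universe u

variable {F : Type u} [Field F] {n q : ℕ} (hF : SqField F q)
include hF

theorem two_eq_zero_of_two (hq : q = 2) : (2 : F) = 0 := by
  obtain ⟨p, e, hp, hc, he⟩ := hF.exists_char
  have hp2 : p = 2 := (Nat.prime_dvd_prime_iff_eq hp Nat.prime_two).1
    (by rw [← hq, he]; exact dvd_pow_self p (by rintro rfl; simp at he; omega))
  subst hp2
  exact CharTwo.two_eq_zero

variable {M : Subgroup (UG n F q)}

/-- A non-monomial element gives all transvection centres over four elements. -/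
theorem SUG_le_two_odd (hn : 5 ≤ n) (hodd : Odd n) (hM : ∀ g ∈ SUG n F q, MonU g → g ∈ M) (hq : q = 2)
    {g : UG n F q} (hg : g ∈ M) (hgm : ¬ MonU g) : SUG n F q ≤ M := by
  classical
  haveI : Finite F := hF.1
  haveI : Fintype F := Fintype.ofFinite F
  subst hq
  have h20 := two_eq_zero_of_two hF rfl
  have hN : ∀ a : F, a ≠ 0 → a * a ^ 2 = 1 := fun a ha => by
    have h1 : (a * a ^ 2) ^ 2 = a * a ^ 2 := DecompMax.UF.norm_fixed hF _
    rw [sq] at h1
    exact (mul_eq_right₀ (mul_ne_zero ha (pow_ne_zero 2 ha))).1 h1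
  have hcast : ∀ w : Fin n → F, herm 2 w w = ((supp w).card : F) := fun w => by
    rw [herm_of_supp hF (subset_refl (supp w)), Finset.sum_congr rfl (fun x hx => hN _ (mem_supp.1 hx)),
      Finset.sum_const, nsmul_one]
  have hle : ∀ w : Fin n → F, (supp w).card ≤ n := fun w =>
    (Finset.card_le_univ _).trans (by simp)
  -- centres of weight two are monomial
  have hsupp2 : ∀ v : Fin n → F, herm 2 v v = 0 → (supp v).card = 2 → v ∈ ctr hF M := by
    intro v hv h
    obtain ⟨i, j, hij, hs⟩ := Finset.card_eq_two.1 h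
    refine ⟨hv, fun a ha => hM _ (det_uni hF _) fun x => ?_⟩
    have hv0 : ∀ y, y ≠ i → y ≠ j → v y = 0 := fun y a b => by
      by_contra h'; have := mem_supp.2 h'; rw [hs] at this; simp [a, b] at this
    have hcol : ∀ y, (trv hF ha).1 (sv F x) y = sv F x y + a * v x ^ 2 * v y := fun y => by
      rw [trv_apply, herm_one_single]; simp
    rcases eq_or_ne a 0 with rfl | ha0
    · exact ⟨x, fun y hy => by rw [hcol, show sv F x y = 0 from Pi.single_eq_of_ne hy _]; ring⟩
    have ha1 : a = 1 := by
      have e : a ^ 2 = -a := ha.2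
      rw [sq] at e
      exact mul_right_cancel₀ ha0 (by linear_combination e - a * h20)
    subst ha1
    have hvi : v i ≠ 0 := mem_supp.1 (by rw [hs]; simp)
    have hvj : v j ≠ 0 := mem_supp.1 (by rw [hs]; simp)
    rcases eq_or_ne x i with hxi | hxi
    · refine ⟨j, fun y hy => ?_⟩
      rw [hcol, hxi]
      rcases eq_or_ne y i with hyi | hyi
      · rw [hyi]; simp; linear_combination hN _ hvi + h20
      · rw [hv0 y hyi hy, show sv F i y = 0 from Pi.single_eq_of_ne hyi _]; ring
    rcases eq_or_ne x j with hxj | hxj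
    · refine ⟨i, fun y hy => ?_⟩
      rw [hcol, hxj]
      rcases eq_or_ne y j with hyj | hyj
      · rw [hyj]; simp; linear_combination hN _ hvj + h20
      · rw [hv0 y hy hyj, show sv F j y = 0 from Pi.single_eq_of_ne hyj _]; ring
    · exact ⟨x, fun y hy => by rw [hcol, hv0 x hxi hxj, show sv F x y = 0 from Pi.single_eq_of_ne hy _]; simp⟩
  obtain ⟨a, ha⟩ : ∃ a, 3 ≤ (supp (g.1 (sv F a))).card := by
    by_contra hcon
    push Not at hcon
    refine hgm fun j => ?_
    have hv : ((supp (g.1 (sv F j))).card : F) = 1 := by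
      rw [← hcast, UG_app, herm_sv hF]; simp
    have h1 : (supp (g.1 (sv F j))).card = 1 := by
      have := hcon j
      interval_cases h : (supp (g.1 (sv F j))).card
      · simp at hv
      · rfl
      · exfalso; push_cast at hv; exact one_ne_zero (show (1 : F) = 0 by linear_combination -hv + h20)
    obtain ⟨i, hi⟩ := Finset.card_eq_one.1 h1
    refine ⟨i, fun l hl => by_contra fun h => hl ?_⟩
    have := mem_supp.2 h
    rwa [hi, Finset.mem_singleton] at this
  set y := g.1 (sv F a) with hy
  obtain ⟨c, hca, hU⟩ : ∃ c, c ≠ a ∧ 4 ≤ (supp y ∪ supp (g.1 (sv F c))).card := by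
    by_cases h5 : 4 ≤ (supp y).card
    · haveI : Nontrivial (Fin n) := Fin.nontrivial_iff_two_le.2 (by omega)
      obtain ⟨c, hc⟩ := exists_ne a
      exact ⟨c, hc, h5.trans (Finset.card_le_card Finset.subset_union_left)⟩
    obtain ⟨m, -, hm⟩ := Finset.exists_mem_notMem_of_card_lt_card (s := supp y) (t := Finset.univ)
      (by rw [Finset.card_univ, Fintype.card_fin]; omega)
    rw [mem_supp, not_not] at hm
    obtain ⟨c, hc⟩ : ∃ c, g.1 (sv F c) m ≠ 0 := by
      by_contra hcon
      push Not at hcon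
      have h0 : (g⁻¹ : UG n F 2).1 (sv F m) = 0 := funext fun x => by
        rw [inv_apply_coord hF, hcon x]; simp
      have := congrArg g.1 h0
      rw [app_inv hF, map_zero] at this
      simpa using congrFun this m
    refine ⟨c, fun e => hc (e ▸ hm), ?_⟩
    calc 4 ≤ (insert m (supp y)).card := by
          rw [Finset.card_insert_of_notMem (by rw [mem_supp, not_not]; exact hm)]; omega
      _ ≤ _ := Finset.card_le_card (Finset.insert_subset (Finset.mem_union_right _ (mem_supp.2 hc))
          Finset.subset_union_left)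
  set z := g.1 (sv F c) with hz
  obtain ⟨s₁, s₂, s₃, hs₁, hs₂, hs₃, h12, h13, h23⟩ := Finset.two_lt_card_iff.1
    (show 2 < (Finset.univ.erase (0 : F)).card by
      rw [Finset.card_erase_of_mem (Finset.mem_univ _), Finset.card_univ, card_F hF]; norm_num)
  set S : F → Finset (Fin n) := fun s => supp (y + s • z)
  have hmem : ∀ s t : F, s ≠ t → ∀ x ∈ supp y ∪ supp z, x ∈ S s ∨ x ∈ S t := by
    intro s t hst x hx
    by_contra hcon
    simp only [S, mem_supp, not_or, not_not, Pi.add_apply, Pi.smul_apply, smul_eq_mul] at hcon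
    have hzx : z x = 0 := (mul_eq_zero.1 (show (s - t) * z x = 0 by
      linear_combination hcon.1 - hcon.2)).resolve_left (sub_ne_zero.2 hst)
    have hyx : y x = 0 := by linear_combination hcon.1 - s * hzx
    simp [mem_supp, hzx, hyx] at hx
  obtain ⟨s, hs0, h3⟩ : ∃ s : F, s ≠ 0 ∧ 3 ≤ (S s).card := by
    by_contra hcon
    push Not at hcon
    have e1 := Finset.card_union_add_card_inter (S s₁) (S s₂)
    have e2 : (supp y ∪ supp z).card ≤ (S s₁ ∪ S s₂).card := Finset.card_le_card fun x hx =>
      Finset.mem_union.2 (hmem _ _ h12 x hx)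
    have e3 : (supp y ∪ supp z).card ≤ (S s₁ ∩ S s₂).card + (S s₃).card :=
      (Finset.card_le_card fun x hx => by
        rw [Finset.mem_union, Finset.mem_inter]
        by_cases h : x ∈ S s₃
        · exact Or.inr h
        · exact Or.inl ⟨(hmem _ _ h13 x hx).resolve_right h, (hmem _ _ h23 x hx).resolve_right h⟩).trans
        (Finset.card_union_le _ _)
    simp only [Finset.mem_erase, Finset.mem_univ, and_true] at hs₁ hs₂ hs₃
    have := hcon _ hs₁
    have := hcon _ hs₂
    have := hcon _ hs₃
    omega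
  set e : Fin n → F := sv F a + s • sv F c with he
  have he2 : supp e = {a, c} := by
    ext x
    rw [mem_supp, he, Pi.add_apply, Pi.smul_apply, smul_eq_mul, Finset.mem_insert, Finset.mem_singleton]
    rcases eq_or_ne x a with rfl | hxa
    · simp [Pi.single_eq_of_ne (Ne.symm hca)]
    rcases eq_or_ne x c with rfl | hxc
    · simp [Pi.single_eq_of_ne hca, hs0]
    · simp [Pi.single_eq_of_ne hxa, Pi.single_eq_of_ne hxc, hxa, hxc]
  have hee : herm 2 e e = 0 := by
    rw [hcast, he2, Finset.card_pair (Ne.symm hca)]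
    push_cast
    exact h20
  have hw := ctr_map hF (hsupp2 e hee (by rw [he2, Finset.card_pair (Ne.symm hca)])) hg
  have hwS : supp (g.1 e) = S s := by
    simp only [S, he, map_add, map_smul, ← hy, ← hz]
  set w := g.1 e with hwdef
  have h3' : 3 ≤ (supp w).card := by rw [hwS]; exact h3
  have hev : Even (supp w).card := by
    have h0 := hw.1
    rw [hcast] at h0
    by_contra hodd'
    obtain ⟨j, hj⟩ := Nat.not_even_iff_odd.1 hodd'
    rw [hj] at h0
    push_cast at h0
    exact one_ne_zero (show (1 : F) = 0 by linear_combination h0 - (j : F) * h20)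
  have hlt : (supp w).card < n := lt_of_le_of_ne (hle w) fun e' =>
    Nat.not_even_iff_odd.2 hodd (e' ▸ hev)
  obtain ⟨b, -, hb⟩ := Finset.exists_mem_notMem_of_card_lt_card (s := supp w) (t := Finset.univ)
    (by rw [Finset.card_univ, Fintype.card_fin]; exact hlt)
  rw [mem_supp, not_not] at hb
  have h4 : 4 ≤ (supp w).card := by rcases hev with ⟨j, hj⟩; omega
  obtain ⟨κ, hκ⟩ := exists_norm_one_ne hF
  set ω : F := ((κ : Fˣ) : F)
  have hω0 : ω ≠ 0 := NU.ne_zero κ
  have hω3 : ω ^ 3 = 1 := by have := hN ω hω0; linear_combination this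
  have hω2 : ω ^ 2 ≠ 1 := fun h => hκ (by linear_combination hω3 - ω * h)
  have hω : ω ^ 2 + ω + 1 = 0 := (mul_eq_zero.1 (show (ω - 1) * (ω ^ 2 + ω + 1) = 0 by
    linear_combination hω3)).resolve_left (sub_ne_zero.2 hκ)
  obtain ⟨A, hA, hAc⟩ := Finset.exists_subset_card_eq h4
  obtain ⟨p, hp⟩ := Finset.card_pos.1 (show 0 < A.card by omega)
  have hbA : b ∉ A := fun h => mem_supp.1 (hA h) hb
  set l : Fin n → NU F 2 := fun x => if x = p then κ ^ 2 else if x ∈ A then κ else if x = b then κ else 1
  have hl : ∏ x, l x = 1 := by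
    have hk3 : κ ^ 3 = 1 := Subtype.ext (Units.ext (by simpa using hω3))
    rw [← Finset.prod_subset (Finset.subset_univ (insert b A)) (fun x _ hx => by
        simp only [Finset.mem_insert, not_or] at hx
        simp [l, hx.1, hx.2, show x ≠ p from fun h => hx.2 (h ▸ hp)]),
      Finset.prod_insert hbA, ← Finset.mul_prod_erase _ _ hp,
      Finset.prod_congr rfl (fun x hx => show l x = κ by
        simp [l, Finset.ne_of_mem_erase hx, Finset.mem_of_mem_erase hx]),
      Finset.prod_const, Finset.card_erase_of_mem hp, hAc]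
    have e1 : l b = κ := by simp [l, hbA, show b ≠ p from fun h => hbA (h ▸ hp)]
    have e2 : l p = κ ^ 2 := by simp [l]
    rw [e1, e2, ← pow_add, ← pow_succ', show 2 + (4 - 1) + 1 = 3 * 2 from rfl, pow_mul, hk3, one_pow]
  set u := (dia hF l).1 w with hu
  have hcu : u ∈ ctr hF M := ctr_map hF hw (hM _ (dia_mem_SUG hF hl) (monU_mon hF _ _))
  have hux : ∀ x, u x = ((l x : Fˣ) : F) * w x := fun x => dia_apply hF l w x
  have hsum : w + u = fun x => if x ∈ A then (1 + ((l x : Fˣ) : F)) * w x else 0 := funext fun x => by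
    rw [Pi.add_apply, hux]
    split_ifs with h
    · ring
    · by_cases hxb : x = b
      · rw [hxb, hb]; ring
      · have : l x = 1 := by simp [l, h, hxb, show x ≠ p from fun e' => h (e' ▸ hp)]
        rw [this, OneMemClass.coe_one, Units.val_one]; linear_combination w x * h20
  have hval : herm 2 u w = 1 := by
    have h0 := hw.1
    rw [herm_def] at h0 ⊢
    rw [← sub_zero (∑ x, u x * w x ^ 2), ← h0, ← Finset.sum_sub_distrib,
      ← Finset.sum_subset (Finset.subset_univ A) (fun x _ hx => by
        have e' := congrFun hsum x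
        rw [Pi.add_apply, if_neg hx] at e'
        have e'' : u x = w x := by linear_combination e' - w x * h20
        rw [e'', sub_self]),
      ← Finset.add_sum_erase _ _ hp, Finset.sum_congr rfl (fun x hx => show u x * w x ^ 2 - w x * w x ^ 2 =
        ω - 1 by
        have hx0 := mem_supp.1 (hA (Finset.mem_of_mem_erase hx))
        rw [hux, show l x = κ by simp [l, Finset.ne_of_mem_erase hx, Finset.mem_of_mem_erase hx]]
        linear_combination (ω - 1) * hN _ hx0),
      Finset.sum_const, Finset.card_erase_of_mem hp, hAc, hux, show l p = κ ^ 2 by simp [l]]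
    simp only [SubmonoidClass.coe_pow, Units.val_pow_eq_pow_val, nsmul_eq_mul]
    push_cast
    linear_combination (ω ^ 2 - 1) * hN _ (mem_supp.1 (hA hp)) + hω + (ω - 3) * h20
  have hval' : herm 2 w u = 1 := by rw [← hF.herm_symm u w, hval, one_pow]
  have hwu := ctr_line_add hF hw hcu (by rw [hval']; exact one_ne_zero)
    (by rw [hval', one_pow]; linear_combination h20)
  have hs4 : supp (w + u) = A := by
    ext x
    rw [mem_supp, hsum]
    by_cases hx : x ∈ A
    · refine iff_of_true ?_ hx
      simp only [if_pos hx]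
      refine mul_ne_zero ?_ (mem_supp.1 (hA hx))
      have hne : ((l x : Fˣ) : F) ≠ 1 := by
        simp only [l]
        split_ifs
        · simp only [SubmonoidClass.coe_pow, Units.val_pow_eq_pow_val]; exact hω2
        · exact hκ
      exact fun h => hne (by linear_combination h - h20)
    · exact iff_of_false (by simp [hx]) hx
  exact SUG_le_of_centre hF hM hn hwu (b := b) (by rw [hsum]; exact if_neg hbA) (by rw [hs4]; omega)
    fun _ => by rw [hs4, hAc]

/-- Only monomial elements, fields of even order with a suitable scaling. -/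
theorem eq_mon_even (H : NoFix M) (hn : 5 ≤ n) (h2 : (2 : F) = 0) (hnd : ¬ (q + 1) ∣ n * 3) :
    ∀ g ∈ M, MonU g := by
  classical
  haveI : Finite F := hF.1
  intro g hg
  by_contra hgm
  obtain ⟨μ, hμ⟩ := exists_NU_order hF
  set ω : NU F q := (μ ^ n)⁻¹
  have hω : ω ≠ 1 := fun e => hnd (dvd_mul_of_dvd_left (hμ ▸ orderOf_dvd_of_pow_eq_one (inv_eq_one.1 e)) 3)
  set M' := DecompMax.UF.plus hF M
  have H' : NoFix M' := H.plus hF
  have hr : ∀ i b, rf hF b (ω ^ i) ∈ M' := fun i b => by
    rw [← rf_pow]; exact pow_mem (H.rf_mem_plus hF μ b) i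
  have hr1 : ∀ b, rf hF b ω ∈ M' := fun b => H.rf_mem_plus hF μ b
  have hg' : g ∈ M' := ⟨1, by
    rw [show sc hF (1 : NU F q) * g = g from eq_of_apply_single fun j => by
      rw [Subgroup.coe_mul, LinearEquiv.mul_apply, sc_apply]; simp]
    exact hg⟩
  set k := orderOf ω
  have hk0 : 0 < k := orderOf_pos ω
  have hk1 : k ≠ 1 := fun e => hω (orderOf_eq_one_iff.1 e)
  rcases Nat.eq_two_pow_or_exists_odd_prime_and_dvd k with ⟨e, he⟩ | ⟨l, hl, hld, hlodd⟩
  · exfalso
    obtain ⟨e, rfl⟩ : ∃ e', e = e' + 1 := ⟨e - 1, by rcases e with _ | e <;> simp at he ⊢; omega⟩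
    have h2d : 2 ∣ q + 1 := (Dvd.intro_left (2 ^ e) (by rw [← pow_succ, ← he])).trans
      ((orderOf_dvd_natCard ω).trans (by rw [card_NU hF]))
    obtain ⟨p, f, hp, hc, hf⟩ := hF.exists_char
    haveI := hc
    have hp2 : p = 2 :=
      (Nat.prime_dvd_prime_iff_eq hp Nat.prime_two).1 ((CharP.cast_eq_zero_iff F p 2).1 (by exact_mod_cast h2))
    subst hp2
    have hlt := hF.one_lt
    rcases f with _ | f
    · simp at hf; omega
    · rw [hf, pow_succ] at h2d; omega
  have hl3 : 3 ≤ l := by
    have := hl.two_le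
    rcases hlodd with ⟨j, rfl⟩
    omega
  have ho : orderOf (ω ^ (k / l)) = l := orderOf_pow_orderOf_div hk0.ne' hld
  have hfull := fun {g : UG n F q} (hg : g ∈ M') (hgm : ¬ MonU g) =>
    H'.full_of_rf hF hn hω hr1 hg hgm
  set z : F := ((ω : Fˣ) : F)
  have hz3 : z ^ 3 ≠ 1 := fun h => by
    have h1 : ω ^ 3 = 1 := Subtype.ext (Units.ext (by simpa using h))
    rw [inv_pow, inv_eq_one, ← pow_mul] at h1
    exact hnd (hμ ▸ orderOf_dvd_of_pow_eq_one h1)
  obtain ⟨g', i, b, hg'', hgm'', hne⟩ : ∃ g' i b, g' ∈ M' ∧ ¬ MonU g' ∧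
      g'.1 (sv F i) b * g'.1 (sv F i) b ^ q ≠ 1 := by
    by_contra hcon
    push Not at hcon
    have hz1 : z - 1 ≠ 0 := sub_ne_zero.2 fun e => hω (Subtype.ext (Units.ext e))
    set i₀ : Fin n := ⟨0, by omega⟩
    set i₁ : Fin n := ⟨1, by omega⟩
    have hi : i₁ ≠ i₀ := by simp [i₀, i₁, Fin.ext_iff]
    set v := g.1 (sv F i₀) with hv
    set r := g * rf hF i₀ ω * g⁻¹
    have hrv : ∀ w, r.1 w = w + ((z - 1) * herm q w v) • v := fun w => conj_rf_apply hF g i₀ ω w
    have hrm : ¬ MonU r := fun hm => by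
      have h3 := hm.supp_le_two hF hrv (v := v) (by
        rw [hv, UG_app, herm_sv hF]; simpa using hz1)
      rw [show supp v = Finset.univ from Finset.eq_univ_of_forall fun x => mem_supp.2 (hfull hg' hgm i₀ x),
        Finset.card_univ, Fintype.card_fin] at h3
      omega
    have h := hcon r i₀ i₁ (mul_mem (mul_mem hg' (hr1 i₀)) (inv_mem hg')) hrm
    rw [hrv, Pi.add_apply, show sv F i₀ i₁ = 0 from Pi.single_eq_of_ne hi _, zero_add,
      Pi.smul_apply, smul_eq_mul, herm_one_single, mul_pow, mul_pow, hF.pow_pow, hF.sub_pow, one_pow] at h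
    have hR : (z - 1) * (z ^ q - 1) = 1 := by
      linear_combination h - (z - 1) * (z ^ q - 1) *
        ((v i₁ * v i₁ ^ q) * hcon g i₀ i₀ hg' hgm + hcon g i₀ i₁ hg' hgm)
    have h3 : z ^ 2 - z + 1 = 0 := by
      linear_combination -z * hR + (z - 1) * NU.mul_pow_eq ω
    exact hz3 (by linear_combination (z + 1) * h3 - h2)
  exact H'.false_of_odd_rf_of_ne (by omega) hfull hl hl3 ho (hr _) hg'' hgm'' hne

/-- Stabilisers of orthonormal frames are maximal in dimension seven. -/
theorem suGL_frame_maximal_seven {D : Fin 7 → Submodule F (Fin 7 → F)}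
    (hD : IsNondegenerateMDecomposition (Cfsg.hermForm 7 F q) 1 D) :
    IsMaximalIn (suGL 7 F q) (decompositionStabilizer D ⊓ suGL 7 F q) := by
  have hlt := hF.one_lt
  obtain ⟨p, e, hp, hch, he⟩ := hF.exists_char
  have hnd7 : ¬ (q + 1) ∣ 7 := fun hd => by
    rcases (Nat.dvd_prime (by norm_num : Nat.Prime 7)).1 hd with h | h
    · omega
    · have h6 : p ^ e = 6 := by omega
      rcases e with _ | e
      · simp at h6
      · have h' : p ∣ 2 * 3 := ⟨p ^ e, by rw [← pow_succ', h6]⟩
        rcases (hp.dvd_mul).1 h' with h'' | h''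
        · rw [(Nat.prime_dvd_prime_iff_eq hp Nat.prime_two).1 h''] at h6
          rcases e with _ | _ | e <;> simp [pow_succ] at h6 <;> omega
        · rw [(Nat.prime_dvd_prime_iff_eq hp Nat.prime_three).1 h''] at h6
          rcases e with _ | e <;> simp [pow_succ] at h6 <;> omega
  by_cases hodd : Odd q
  · exact frame_maximal_of_case hF (Or.inr ⟨by norm_num, Or.inl ⟨hnd7, Or.inl hodd⟩⟩) hD
  have h2 : (2 : F) = 0 := by
    haveI := hch
    have hpq : Even (p ^ e) := he ▸ Nat.not_odd_iff_even.1 hodd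
    have hp2 : p = 2 := (Nat.Prime.even_iff hp).1 (Nat.even_pow.1 hpq).1
    subst hp2
    exact CharTwo.two_eq_zero
  refine frame_maximal_of_gen hF (by norm_num) (fun M hmono g hg hgm => ?_) hD
  by_cases hq2 : q = 2
  · exact SUG_le_two_odd hF (by norm_num) (by decide) hmono hq2 hg hgm
  have hq3 : 3 ≤ q := by omega
  have hnd : ¬ (q + 1) ∣ 7 * 3 := fun hd => by
    have hm : q + 1 ≤ 21 := Nat.le_of_dvd (by norm_num) hd
    have hq' : q = 6 ∨ q = 20 := by
      have hq20 : q ≤ 20 := by omega
      clear he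
      interval_cases q <;> first | omega | (exfalso; norm_num at hd)
    rcases hq' with rfl | rfl
    · exact hnd7 (by norm_num)
    · have h5 : p ∣ 20 := by rw [he]; exact dvd_pow_self p (by rintro rfl; simp at he)
      haveI := hch
      have hp2 : p = 2 :=
        (Nat.prime_dvd_prime_iff_eq hp Nat.prime_two).1 ((CharP.cast_eq_zero_iff F p 2).1 (by exact_mod_cast h2))
      subst hp2
      rcases e with _ | _ | _ | _ | _ | e <;> simp [pow_succ] at he <;> omega
  by_cases hN : ∀ g ∈ M, ∀ k, ∀ s : F, g.1 (sv F k) = s • sv F k → MonU g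
  · exact absurd (eq_mon_even hF (NoFix.mk hmono hN) (by norm_num) h2 hnd g hg) hgm
  push Not at hN
  obtain ⟨g₂, hg₂, k, s, hs, hm⟩ := hN
  obtain ⟨w, hw, hwb, h2', h4⟩ := exists_ctr_of_fix hF (Or.inl (by norm_num)) hmono hg₂ hm hs
  exact SUG_le_of_centre hF hmono (by norm_num) hw hwb h2' h4

end Cfsg.Agent.SUFive.FrameOdd
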