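import Cfsg.Agent.DecompMax.UnitFrame

/-!
Stabilisers of orthonormal frames are maximal in the five-dimensional special unitary groups.
-/

set_option autoImplicit false
set_option linter.style.haveILetI false
set_option linter.unusedSectionVars false

namespace Cfsg.Agent.SUFive

open Matrix Cfsg.Geo Module Cfsg.Agent.Classical.U Cfsg.Agent.GeoClasses Cfsg.Agent.ClassicalMax
open Cfsg.Agent.DecompMax
open Cfsg.Agent.DecompMax.UCount Cfsg.Agent.DecompMax.UN Cfsg.Agent.DecompMax.UF
open scoped MatrixGroups Matrix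

universe u

variable {F : Type u} [Field F] {q : ℕ} (hF : SqField F q)
include hF

theorem two_eq_zero_of_four (hq : q = 2 ∨ q = 4) : (2 : F) = 0 := by
  obtain ⟨p, e, hp, hc, he⟩ := hF.exists_char
  have hdvd : p ∣ 2 := hp.dvd_of_dvd_pow (show p ∣ 2 ^ 2 by
    have hpq : p ∣ q := by
      rw [he]; refine dvd_pow_self p ?_
      rintro rfl
      rcases hq with rfl | rfl <;> simp at he
    rcases hq with rfl | rfl
    · exact hpq.trans ⟨2, rfl⟩
    · exact hpq)
  rw [(Nat.prime_dvd_prime_iff_eq hp (by norm_num)).1 hdvd] at hc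
  exact_mod_cast CharP.cast_eq_zero F 2

variable {M : Subgroup (UG 5 F q)}

/-- A non-monomial element gives all transvection centres over four elements. -/
theorem SUG_le_two (hM : ∀ g ∈ SUG 5 F q, MonU g → g ∈ M) (hq : q = 2) {g : UG 5 F q} (hg : g ∈ M)
    (hgm : ¬ MonU g) : SUG 5 F q ≤ M := by
  classical
  haveI : Finite F := hF.1
  haveI : Fintype F := Fintype.ofFinite F
  subst hq
  have h20 := two_eq_zero_of_four hF (Or.inl rfl)
  have hN : ∀ a : F, a ≠ 0 → a * a ^ 2 = 1 := fun a ha => by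
    have h1 : (a * a ^ 2) ^ 2 = a * a ^ 2 := DecompMax.UF.norm_fixed hF _
    rw [sq] at h1
    exact (mul_eq_right₀ (mul_ne_zero ha (pow_ne_zero 2 ha))).1 h1
  have hcast : ∀ w : Fin 5 → F, herm 2 w w = ((supp w).card : F) := fun w => by
    rw [herm_of_supp hF (subset_refl (supp w)), Finset.sum_congr rfl (fun x hx => hN _ (mem_supp.1 hx)),
      Finset.sum_const, nsmul_one]
  have hle5 : ∀ w : Fin 5 → F, (supp w).card ≤ 5 := fun w =>
    (Finset.card_le_univ _).trans (by simp)
  -- centres of weight two are monomial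
  have hsupp2 : ∀ v : Fin 5 → F, herm 2 v v = 0 → (supp v).card = 2 → v ∈ ctr hF M := by
    intro v hv h
    obtain ⟨i, j, hij, hs⟩ := Finset.card_eq_two.1 h
    refine ⟨hv, fun a ha => hM _ (det_uni hF _) fun x => ?_⟩
    have hv0 : ∀ y, y ≠ i → y ≠ j → v y = 0 := fun y a b => by
      by_contra h'; have := mem_supp.2 h'; rw [hs] at this; simp [a, b] at this
    have hcol : ∀ y, (trv hF ha).1 (sv F x) y = sv F x y + a * v x ^ 2 * v y := fun y => by
      rw [trv_apply, herm_one_single]; simp
    rcases eq_or_ne a 0 with rfl | ha0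
    · exact ⟨x, fun y hy => by rw [hcol, show sv F x y = 0 from Pi.single_eq_of_ne hy _]; ring⟩
    have ha1 : a = 1 := by
      have e : a ^ 2 = -a := ha.2
      rw [sq] at e
      exact mul_right_cancel₀ ha0 (by linear_combination e - a * h20)
    subst ha1
    have hvi : v i ≠ 0 := mem_supp.1 (by rw [hs]; simp)
    have hvj : v j ≠ 0 := mem_supp.1 (by rw [hs]; simp)
    rcases eq_or_ne x i with hxi | hxi
    · refine ⟨j, fun y hy => ?_⟩
      rw [hcol, hxi]
      rcases eq_or_ne y i with hyi | hyi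
      · rw [hyi]; simp; linear_combination hN _ hvi + h20
      · rw [hv0 y hyi hy, show sv F i y = 0 from Pi.single_eq_of_ne hyi _]; ring
    rcases eq_or_ne x j with hxj | hxj
    · refine ⟨i, fun y hy => ?_⟩
      rw [hcol, hxj]
      rcases eq_or_ne y j with hyj | hyj
      · rw [hyj]; simp; linear_combination hN _ hvj + h20
      · rw [hv0 y hy hyj, show sv F j y = 0 from Pi.single_eq_of_ne hyj _]; ring
    · exact ⟨x, fun y hy => by rw [hcol, hv0 x hxi hxj, show sv F x y = 0 from Pi.single_eq_of_ne hy _]; simp⟩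
  obtain ⟨a, ha⟩ : ∃ a, 3 ≤ (supp (g.1 (sv F a))).card := by
    by_contra hcon
    push Not at hcon
    refine hgm fun j => ?_
    have hv : ((supp (g.1 (sv F j))).card : F) = 1 := by
      rw [← hcast, UG_app, herm_sv hF]; simp
    have h1 : (supp (g.1 (sv F j))).card = 1 := by
      have := hcon j
      interval_cases h : (supp (g.1 (sv F j))).card
      · simp at hv
      · rfl
      · exfalso; push_cast at hv; exact one_ne_zero (show (1 : F) = 0 by linear_combination -hv + h20)
    obtain ⟨i, hi⟩ := Finset.card_eq_one.1 h1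
    refine ⟨i, fun l hl => by_contra fun h => hl ?_⟩
    have := mem_supp.2 h
    rwa [hi, Finset.mem_singleton] at this
  set y := g.1 (sv F a) with hy
  obtain ⟨c, hca, hU⟩ : ∃ c, c ≠ a ∧ 4 ≤ (supp y ∪ supp (g.1 (sv F c))).card := by
    by_cases h5 : 4 ≤ (supp y).card
    · obtain ⟨c, hc⟩ := exists_ne a
      exact ⟨c, hc, h5.trans (Finset.card_le_card Finset.subset_union_left)⟩
    obtain ⟨m, -, hm⟩ := Finset.exists_mem_notMem_of_card_lt_card (s := supp y) (t := Finset.univ)
      (by rw [Finset.card_univ, Fintype.card_fin]; omega)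
    rw [mem_supp, not_not] at hm
    obtain ⟨c, hc⟩ : ∃ c, g.1 (sv F c) m ≠ 0 := by
      by_contra hcon
      push Not at hcon
      have h0 : (g⁻¹ : UG 5 F 2).1 (sv F m) = 0 := funext fun x => by
        rw [inv_apply_coord hF, hcon x]; simp
      have := congrArg g.1 h0
      rw [app_inv hF, map_zero] at this
      simpa using congrFun this m
    refine ⟨c, fun e => hc (e ▸ hm), ?_⟩
    calc 4 ≤ (insert m (supp y)).card := by
          rw [Finset.card_insert_of_notMem (by rw [mem_supp, not_not]; exact hm)]; omega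
      _ ≤ _ := Finset.card_le_card (Finset.insert_subset (Finset.mem_union_right _ (mem_supp.2 hc))
          Finset.subset_union_left)
  set z := g.1 (sv F c) with hz
  obtain ⟨s₁, s₂, s₃, hs₁, hs₂, hs₃, h12, h13, h23⟩ := Finset.two_lt_card_iff.1
    (show 2 < (Finset.univ.erase (0 : F)).card by
      rw [Finset.card_erase_of_mem (Finset.mem_univ _), Finset.card_univ, card_F hF]; norm_num)
  set S : F → Finset (Fin 5) := fun s => supp (y + s • z)
  have hmem : ∀ s t : F, s ≠ t → ∀ x ∈ supp y ∪ supp z, x ∈ S s ∨ x ∈ S t := by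
    intro s t hst x hx
    by_contra hcon
    simp only [S, mem_supp, not_or, not_not, Pi.add_apply, Pi.smul_apply, smul_eq_mul] at hcon
    have hzx : z x = 0 := (mul_eq_zero.1 (show (s - t) * z x = 0 by
      linear_combination hcon.1 - hcon.2)).resolve_left (sub_ne_zero.2 hst)
    have hyx : y x = 0 := by linear_combination hcon.1 - s * hzx
    simp [mem_supp, hzx, hyx] at hx
  obtain ⟨s, hs0, h3⟩ : ∃ s : F, s ≠ 0 ∧ 3 ≤ (S s).card := by
    by_contra hcon
    push Not at hcon
    have e1 := Finset.card_union_add_card_inter (S s₁) (S s₂)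
    have e2 : (supp y ∪ supp z).card ≤ (S s₁ ∪ S s₂).card := Finset.card_le_card fun x hx =>
      Finset.mem_union.2 (hmem _ _ h12 x hx)
    have e3 : (supp y ∪ supp z).card ≤ (S s₁ ∩ S s₂).card + (S s₃).card :=
      (Finset.card_le_card fun x hx => by
        rw [Finset.mem_union, Finset.mem_inter]
        by_cases h : x ∈ S s₃
        · exact Or.inr h
        · exact Or.inl ⟨(hmem _ _ h13 x hx).resolve_right h, (hmem _ _ h23 x hx).resolve_right h⟩).trans
        (Finset.card_union_le _ _)
    simp only [Finset.mem_erase, Finset.mem_univ, and_true] at hs₁ hs₂ hs₃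
    have := hcon _ hs₁
    have := hcon _ hs₂
    have := hcon _ hs₃
    omega
  set e : Fin 5 → F := sv F a + s • sv F c with he
  have he2 : supp e = {a, c} := by
    ext x
    rw [mem_supp, he, Pi.add_apply, Pi.smul_apply, smul_eq_mul, Finset.mem_insert, Finset.mem_singleton]
    rcases eq_or_ne x a with rfl | hxa
    · simp [Pi.single_eq_of_ne (Ne.symm hca)]
    rcases eq_or_ne x c with rfl | hxc
    · simp [Pi.single_eq_of_ne hca, hs0]
    · simp [Pi.single_eq_of_ne hxa, Pi.single_eq_of_ne hxc, hxa, hxc]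
  have hee : herm 2 e e = 0 := by
    rw [hcast, he2, Finset.card_pair (Ne.symm hca)]
    push_cast
    exact h20
  have hw := ctr_map hF (hsupp2 e hee (by rw [he2, Finset.card_pair (Ne.symm hca)])) hg
  have hwS : supp (g.1 e) = S s := by
    simp only [S, he, map_add, map_smul, ← hy, ← hz]
  have h4 : (supp (g.1 e)).card = 4 := by
    have h0 := hw.1
    rw [hcast] at h0
    have := hle5 (g.1 e)
    have h3' : 3 ≤ (supp (g.1 e)).card := by rw [hwS]; exact h3
    interval_cases h : (supp (g.1 e)).card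
    · exfalso; push_cast at h0; exact one_ne_zero (show (1 : F) = 0 by linear_combination h0 - h20)
    · rfl
    · exfalso; push_cast at h0; exact one_ne_zero (show (1 : F) = 0 by linear_combination h0 - 2 * h20)
  obtain ⟨b, -, hb⟩ := Finset.exists_mem_notMem_of_card_lt_card (s := supp (g.1 e)) (t := Finset.univ)
    (by rw [h4]; simp)
  rw [mem_supp, not_not] at hb
  exact SUG_le_of_centre hF hM le_rfl hw hb (by omega) fun _ => h4

variable (H : NoFix M)
include H

set_option maxHeartbeats 600000 in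
/-- The field with sixteen elements. -/
theorem false_five_four (hq : q = 4) {g : UG 5 F q} (hg : g ∈ M) (hgm : ¬ MonU g) : False := by
  classical
  haveI : Finite F := hF.1
  haveI : Fintype F := Fintype.ofFinite F
  subst hq
  have h2 := two_eq_zero_of_four hF (Or.inr rfl)
  obtain ⟨w, hw3, hc, hwM⟩ := H.exists_centre hF hg hgm (by norm_num) h2
  have hfix : ∀ {w : Fin 5 → F} (hc : TrvCond 4 w 1), 3 ≤ (supp w).card → trv hF hc ∈ M → ∀ r, w r ≠ 0 :=
    fun {w} hc h3 hM r e => not_monU_trv hF one_ne_zero hc h3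
      (H.nofix _ hM r 1 (by rw [trv_apply, herm_one_single, e, zero_pow hF.q_ne_zero]; simp))
  have hw0 := hfix hc hw3 hwM
  set N : Fin 5 → F := fun i => w i * w i ^ 4
  have hNsum : ∑ i, N i = 0 := hc.1
  have hN3 : ∀ i, N i ^ 3 = 1 := fun i =>
    (hF.fixed_iff (mul_ne_zero (hw0 i) (pow_ne_zero _ (hw0 i)))).1 (DecompMax.UF.norm_fixed hF _)
  have hN2 : ∀ i, N i ≠ 1 → N i * N i + N i + 1 = 0 := fun i hi =>
    (mul_eq_zero.1 (show (N i - 1) * (N i * N i + N i + 1) = 0 by linear_combination hN3 i)).resolve_left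
      (sub_ne_zero.2 hi)
  -- three different norms sum to zero
  have hdist : ∀ i j k, N i ≠ N j → N i ≠ N k → N j ≠ N k → N i + N j + N k = 0 := by
    intro i j k hij hik hjk
    have e1 : N i * N i + N i * N j + N j * N j = 0 := (mul_eq_zero.1 (show (N i - N j) *
      (N i * N i + N i * N j + N j * N j) = 0 by linear_combination hN3 i - hN3 j)).resolve_left
        (sub_ne_zero.2 hij)
    have e2 : N i * N i + N i * N k + N k * N k = 0 := (mul_eq_zero.1 (show (N i - N k) *
      (N i * N i + N i * N k + N k * N k) = 0 by linear_combination hN3 i - hN3 k)).resolve_left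
        (sub_ne_zero.2 hik)
    exact (mul_eq_zero.1 (show (N j - N k) * (N i + N j + N k) = 0 by
      linear_combination e1 - e2)).resolve_left (sub_ne_zero.2 hjk)
  obtain ⟨e, he⟩ : ∃ e, N e ≠ 1 := by
    by_contra hcon
    push Not at hcon
    rw [Finset.sum_congr rfl (fun i _ => hcon i), Finset.sum_const, Finset.card_univ, Fintype.card_fin,
      nsmul_one] at hNsum
    push_cast at hNsum
    exact one_ne_zero (show (1 : F) = 0 by linear_combination hNsum - 2 * h2)
  obtain ⟨a, ha⟩ : ∃ a, N a = 1 := by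
    by_contra hcon
    push Not at hcon
    have hcube : ∑ i, (N i * N i + N i + 1) = 0 := Finset.sum_eq_zero fun i _ => hN2 i (hcon i)
    have hsq : ∑ i, N i * N i = 0 := by
      obtain ⟨p, f, hp, hch, -⟩ := hF.exists_char
      have hp2 : p = 2 :=
        (Nat.prime_dvd_prime_iff_eq hp Nat.prime_two).1 ((@CharP.cast_eq_zero_iff F _ p hch 2).1 (by exact_mod_cast h2))
      subst hp2
      haveI := hch
      rw [← Finset.sum_congr rfl (fun i _ => sq (N i)), ← CharTwo.sum_sq, hNsum, zero_pow two_ne_zero]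
    rw [Finset.sum_add_distrib, Finset.sum_add_distrib, hsq, hNsum, Finset.sum_const, Finset.card_univ,
      Fintype.card_fin, nsmul_one] at hcube
    push_cast at hcube
    exact one_ne_zero (show (1 : F) = 0 by linear_combination hcube - 2 * h2)
  obtain ⟨c, d, r, hcd, hcr, hdr, hN, hca, hce, hda, hde, hra, hre⟩ : ∃ c d r, c ≠ d ∧ c ≠ r ∧ d ≠ r ∧
      N c = N d ∧ c ≠ a ∧ c ≠ e ∧ d ≠ a ∧ d ≠ e ∧ r ≠ a ∧ r ≠ e := by
    have hae : a ≠ e := fun h => he (h ▸ ha)
    obtain ⟨i, j, k, hij, hik, hjk, hR⟩ := Finset.card_eq_three.1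
      (show ((Finset.univ.erase a).erase e).card = 3 by
        rw [Finset.card_erase_of_mem (Finset.mem_erase.2 ⟨hae.symm, Finset.mem_univ _⟩),
          Finset.card_erase_of_mem (Finset.mem_univ _), Finset.card_univ, Fintype.card_fin])
    have hm : ∀ x ∈ ({i, j, k} : Finset (Fin 5)), x ≠ a ∧ x ≠ e := fun x hx => by
      rw [← hR] at hx; simp only [Finset.mem_erase] at hx; exact ⟨hx.2.1, hx.1⟩
    obtain ⟨hia, hie⟩ := hm i (by simp)
    obtain ⟨hja, hje⟩ := hm j (by simp)
    obtain ⟨hka, hke⟩ := hm k (by simp)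
    by_cases h1 : N i = N j
    · exact ⟨i, j, k, hij, hik, hjk, h1, hia, hie, hja, hje, hka, hke⟩
    by_cases h2' : N i = N k
    · exact ⟨i, k, j, hik, hij, hjk.symm, h2', hia, hie, hka, hke, hja, hje⟩
    by_cases h3 : N j = N k
    · exact ⟨j, k, i, hjk, hij.symm, hik.symm, h3, hja, hje, hka, hke, hia, hie⟩
    exfalso
    have h := hdist i j k h1 h2' h3
    rw [← Finset.add_sum_erase _ _ (Finset.mem_univ a),
      ← Finset.add_sum_erase _ _ (Finset.mem_erase.2 ⟨hae.symm, Finset.mem_univ _⟩), hR,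
      Finset.sum_insert (by simp [hij, hik]), Finset.sum_pair hjk, ha] at hNsum
    exact he (by linear_combination hNsum - h - h2)
  -- a generator matching the norm
  obtain ⟨μ, hμ⟩ := exists_NU_order hF
  obtain ⟨κ, hκ, hκN⟩ : ∃ κ : NU F 4, orderOf κ = 5 ∧
      N e = ((κ : Fˣ) : F) ^ 2 + ((κ : Fˣ) : F) ^ 3 := by
    set k : F := ((μ : Fˣ) : F)
    have h5' : k ^ 5 = 1 := by
      have := congrArg (fun x : NU F 4 => ((x : Fˣ) : F)) (hμ ▸ pow_orderOf_eq_one μ)
      simpa using this
    have hk1 : k ≠ 1 := fun h => by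
      rw [show μ = 1 from Subtype.ext (Units.ext h), orderOf_one] at hμ; omega
    have hcyc : k ^ 4 + k ^ 3 + k ^ 2 + k + 1 = 0 :=
      (mul_eq_zero.1 (show (k - 1) * (k ^ 4 + k ^ 3 + k ^ 2 + k + 1) = 0 by
        linear_combination h5')).resolve_left (sub_ne_zero.2 hk1)
    have : (N e - (k + k ^ 4)) * (N e - (k ^ 2 + k ^ 3)) = 0 := by
      linear_combination hN2 e he - (N e - 1) * hcyc + (k + k ^ 2) * h5' - h2
    rcases mul_eq_zero.1 this with h | h
    · refine ⟨μ ^ 2, ?_, ?_⟩
      · rw [orderOf_pow, hμ]; norm_num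
      · simp only [SubmonoidClass.coe_pow, Units.val_pow_eq_pow_val]
        linear_combination h - k * h5'
    · exact ⟨μ, hμ, sub_eq_zero.1 h⟩
  set k : F := ((κ : Fˣ) : F)
  have hk5 : k ^ 5 = 1 := by
    have := congrArg (fun x : NU F 4 => ((x : Fˣ) : F)) (hκ ▸ pow_orderOf_eq_one κ)
    simpa using this
  have hk1 : k ≠ 1 := fun h => by
    rw [show κ = 1 from Subtype.ext (Units.ext h), orderOf_one] at hκ; omega
  have hk2 : k ^ 2 ≠ 1 := fun h => hk1 (by linear_combination hk5 - k * (k ^ 2 + 1) * h)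
  have hcyc : k ^ 4 + k ^ 3 + k ^ 2 + k + 1 = 0 :=
    (mul_eq_zero.1 (show (k - 1) * (k ^ 4 + k ^ 3 + k ^ 2 + k + 1) = 0 by
      linear_combination hk5)).resolve_left (sub_ne_zero.2 hk1)
  -- the conjugate centre with one zero
  set E : Fin 4 → Fin 5 := ![a, c, d, e]
  have hEinj : Function.Injective E := by
    have hae : a ≠ e := fun h => he (h ▸ ha)
    intro i j hij
    fin_cases i <;> fin_cases j <;> first | rfl | (exfalso; simp only [E] at hij; dsimp at hij)
    all_goals first | exact hca hij | exact hca hij.symm | exact hda hij | exact hda hij.symm |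
      exact hae hij | exact hae hij.symm | exact hcd hij | exact hcd hij.symm | exact hce hij |
      exact hce hij.symm | exact hde hij | exact hde hij.symm
  set y : Fin 4 → NU F 4 := ![κ, κ, κ, κ ^ 2]
  set x := Function.extend E y 1
  obtain ⟨hp, hs⟩ := extend_data hEinj y N
  have hprod : ∏ j, y j = 1 := by
    rw [Fin.prod_univ_four]
    simp only [y, Matrix.cons_val_zero, Matrix.cons_val_one, Matrix.cons_val]
    rw [show κ * κ * κ * κ ^ 2 = κ ^ 5 by simp [pow_succ, mul_assoc], ← hκ, pow_orderOf_eq_one]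
  have hdM : dia hF x ∈ M := mem_dia_of_prod hF H (hp.trans hprod)
  set z := (trv hF hc).1 ((dia hF x).1 w)
  have hzc : TrvCond 4 z 1 := ⟨by rw [UG_app, UG_app]; exact hc.1, hc.2⟩
  have hzM : trv hF hzc ∈ M := by
    convert mul_mem (mul_mem (mul_mem hwM hdM) hwM) (inv_mem (mul_mem hwM hdM)) using 1
    refine Subtype.ext (LinearEquiv.ext fun v => ?_)
    set p := trv hF hc * dia hF x
    have hz' : z = p.1 w := rfl
    rw [Subgroup.coe_mul, Subgroup.coe_mul, LinearEquiv.mul_apply, LinearEquiv.mul_apply,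
      trv_apply, trv_apply, map_add, map_smul, app_inv hF, hz',
      ← UG_app p ((p⁻¹ : UG 5 F 4).1 v) w, app_inv hF]
  have hS : herm 4 ((dia hF x).1 w) w = 1 := by
    have hsum : ∑ j, N (E j) * ((((y j : NU F 4) : Fˣ) : F) - 1) = 1 := by
      rw [Fin.sum_univ_four]
      simp only [E, y, Matrix.cons_val_zero, Matrix.cons_val_one, Matrix.cons_val,
        SubmonoidClass.coe_pow, Units.val_pow_eq_pow_val]
      linear_combination (k - 1) * ha + (k - 1) * hN + (k ^ 2 - 1) * hκN + hk5 + hcyc +
        (N d * (k - 1) - k ^ 3 - k ^ 2 - 1) * h2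
    rw [herm_def, ← hsum, ← hs, ← sub_eq_zero]
    rw [← Finset.sum_sub_distrib, ← hNsum]
    refine Finset.sum_congr rfl fun i _ => ?_
    rw [dia_apply]; ring
  have hzi : ∀ i, z i = ((((x i : NU F 4) : Fˣ) : F) + 1) * w i := fun i => by
    simp only [z]
    rw [trv_apply, hS, Pi.add_apply, dia_apply, Pi.smul_apply, smul_eq_mul]; ring
  refine hfix hzc ?_ hzM r ?_
  · have hne : ∀ j, E j ∈ supp z := fun j => by
      rw [mem_supp, hzi, show x (E j) = y j from hEinj.extend_apply y 1 j]
      refine mul_ne_zero ?_ (hw0 _)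
      fin_cases j <;> simp [y] <;> intro h <;>
        first | exact hk1 (by linear_combination h - h2) | exact hk2 (by linear_combination h - h2)
    have := Finset.card_le_card (show Finset.univ.image E ⊆ supp z from
      fun i hi => by obtain ⟨j, -, rfl⟩ := Finset.mem_image.1 hi; exact hne j)
    rw [Finset.card_image_of_injective _ hEinj, Finset.card_univ, Fintype.card_fin] at this
    omega
  · rw [hzi, show x r = 1 from Function.extend_apply' y (1 : Fin 5 → NU F 4) r (fun ⟨j, hj⟩ => by
      fin_cases j <;> simp [E] at hj <;>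
        first | exact hra hj.symm | exact hcr hj | exact hdr hj | exact hre hj.symm)]
    refine mul_eq_zero_of_left ?_ _
    simp only [OneMemClass.coe_one, Units.val_one]
    linear_combination h2

/-- Only monomial elements, once the field has more than four elements. -/
theorem eq_mon_five (hq : 3 ≤ q) : ∀ g ∈ M, MonU g := by
  classical
  haveI : Finite F := hF.1
  intro g hg
  by_contra hgm
  by_cases h4 : q = 4
  · exact false_five_four hF H h4 hg hgm
  obtain ⟨μ, hμ⟩ := exists_NU_order hF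
  set ω : NU F q := (μ ^ 5)⁻¹
  have hω : ω ≠ 1 := fun e => by
    have hd : q + 1 ∣ 5 := hμ ▸ orderOf_dvd_of_pow_eq_one (inv_eq_one.1 e)
    rcases (Nat.dvd_prime (by norm_num : Nat.Prime 5)).1 hd with h | h <;> omega
  set M' := DecompMax.UF.plus hF M
  have H' : NoFix M' := H.plus hF
  have hr : ∀ i b, rf hF b (ω ^ i) ∈ M' := fun i b => by
    rw [← rf_pow]; exact pow_mem (H.rf_mem_plus hF μ b) i
  have hr1 : ∀ b, rf hF b ω ∈ M' := fun b => H.rf_mem_plus hF μ b
  have hg' : g ∈ M' := ⟨1, by
    rw [show sc hF (1 : NU F q) * g = g from eq_of_apply_single fun j => by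
      rw [Subgroup.coe_mul, LinearEquiv.mul_apply, sc_apply]; simp]
    exact hg⟩
  set k := orderOf ω
  have hk0 : 0 < k := orderOf_pos ω
  have hk1 : k ≠ 1 := fun e => hω (orderOf_eq_one_iff.1 e)
  rcases Nat.eq_two_pow_or_exists_odd_prime_and_dvd k with ⟨e, he⟩ | ⟨l, hl, hld, hlodd⟩
  · obtain ⟨e, rfl⟩ : ∃ e', e = e' + 1 := ⟨e - 1, by rcases e with _ | e <;> simp at he ⊢; omega⟩
    set ν := ω ^ (2 ^ e)
    have hν2 : ν ^ 2 = 1 := by rw [← pow_mul, ← pow_succ, ← he, pow_orderOf_eq_one]
    have hν1 : ν ≠ 1 := fun h => by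
      have := Nat.le_of_dvd (by positivity) (orderOf_dvd_of_pow_eq_one h)
      rw [show orderOf ω = k from rfl, he, pow_succ] at this
      have := Nat.one_le_two_pow (n := e)
      omega
    have hνv : ((ν : Fˣ) : F) = -1 := by
      have h : (((ν : Fˣ) : F) - 1) * (((ν : Fˣ) : F) + 1) = 0 := by
        have := congrArg (fun x : NU F q => ((x : Fˣ) : F)) hν2
        simp only [SubmonoidClass.coe_pow, Units.val_pow_eq_pow_val, OneMemClass.coe_one, Units.val_one] at this
        linear_combination this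
      exact eq_neg_of_add_eq_zero_left ((mul_eq_zero.1 h).resolve_left
        (sub_ne_zero.2 fun e => hν1 (Subtype.ext (Units.ext e))))
    have h2 : (2 : F) ≠ 0 := fun h2 => hν1 (Subtype.ext (Units.ext (by
      rw [hνv]; simp only [OneMemClass.coe_one, Units.val_one]; linear_combination -h2)))
    refine H'.false_of_neg hF le_rfl h2 (fun b => ?_) hg' hgm
    rw [show NU.negOne hF = ν from Subtype.ext (Units.ext hνv.symm)]
    exact hr _ b
  have hl3 : 3 ≤ l := by
    have := hl.two_le
    rcases hlodd with ⟨j, rfl⟩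
    omega
  have ho : orderOf (ω ^ (k / l)) = l := orderOf_pow_orderOf_div hk0.ne' hld
  have hfull := fun {g : UG 5 F q} (hg : g ∈ M') (hgm : ¬ MonU g) =>
    H'.full_of_rf hF le_rfl hω hr1 hg hgm
  by_cases h2 : (2 : F) = 0
  swap
  · exact H'.false_of_odd_rf_of_full (by norm_num) hfull (Or.inl h2) hl hl3 ho (hr _) hg' hgm
  -- even order: the order of the scaling is not three
  set z : F := ((ω : Fˣ) : F)
  have hz3 : z ^ 3 ≠ 1 := fun h => by
    have h1 : ω ^ 3 = 1 := Subtype.ext (Units.ext (by simpa using h))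
    rw [inv_pow, inv_eq_one, ← pow_mul] at h1
    have hd : q + 1 ∣ 15 := hμ ▸ orderOf_dvd_of_pow_eq_one h1
    obtain ⟨p, f, hp, hc, hf⟩ := hF.exists_char
    haveI := hc
    have hp2 : p = 2 :=
      (Nat.prime_dvd_prime_iff_eq hp Nat.prime_two).1 ((CharP.cast_eq_zero_iff F p 2).1 (by exact_mod_cast h2))
    subst hp2
    have h15 : q ≤ 14 := by have := Nat.le_of_dvd (by norm_num) hd; omega
    have : f < 4 := by
      by_contra hf4
      have := Nat.pow_le_pow_right (show 0 < 2 by norm_num) (not_lt.1 hf4)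
      omega
    interval_cases f <;> norm_num at hf <;> subst hf <;> simp_all
  obtain ⟨g', i, b, hg'', hgm'', hne⟩ : ∃ g' i b, g' ∈ M' ∧ ¬ MonU g' ∧
      g'.1 (sv F i) b * g'.1 (sv F i) b ^ q ≠ 1 := by
    by_contra hcon
    push Not at hcon
    have hz1 : z - 1 ≠ 0 := sub_ne_zero.2 fun e => hω (Subtype.ext (Units.ext e))
    set v := g.1 (sv F 0) with hv
    set r := g * rf hF 0 ω * g⁻¹
    have hrv : ∀ w, r.1 w = w + ((z - 1) * herm q w v) • v := fun w => conj_rf_apply hF g 0 ω w
    have hrm : ¬ MonU r := fun hm => by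
      have h3 := hm.supp_le_two hF hrv (v := v) (by
        rw [hv, UG_app, herm_sv hF]; simpa using hz1)
      rw [show supp v = Finset.univ from Finset.eq_univ_of_forall fun x => mem_supp.2 (hfull hg' hgm 0 x),
        Finset.card_univ, Fintype.card_fin] at h3
      omega
    have h := hcon r 0 1 (mul_mem (mul_mem hg' (hr1 0)) (inv_mem hg')) hrm
    rw [hrv, Pi.add_apply, show sv F (0 : Fin 5) 1 = 0 from Pi.single_eq_of_ne (by decide) _, zero_add,
      Pi.smul_apply, smul_eq_mul, herm_one_single, mul_pow, mul_pow, hF.pow_pow, hF.sub_pow, one_pow] at h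
    have hR : (z - 1) * (z ^ q - 1) = 1 := by
      linear_combination h - (z - 1) * (z ^ q - 1) *
        ((v 1 * v 1 ^ q) * hcon g 0 0 hg' hgm + hcon g 0 1 hg' hgm)
    have h3 : z ^ 2 - z + 1 = 0 := by
      linear_combination -z * hR + (z - 1) * NU.mul_pow_eq ω
    exact hz3 (by linear_combination (z + 1) * h3 - h2)
  exact H'.false_of_odd_rf_of_ne (by norm_num) hfull hl hl3 ho (hr _) hg'' hgm'' hne

omit H

/-- Stabilisers of orthonormal frames are maximal. -/
theorem suGL_frame_maximal {D : Fin 5 → Submodule F (Fin 5 → F)}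
    (hD : IsNondegenerateMDecomposition (Cfsg.hermForm 5 F q) 1 D) :
    IsMaximalIn (suGL 5 F q) (decompositionStabilizer D ⊓ suGL 5 F q) := by
  refine frame_maximal_of_gen hF le_rfl (fun M hmono g hg hgm => ?_) hD
  by_cases hq2 : q = 2
  · exact SUG_le_two hF hmono hq2 hg hgm
  have hq3 : 3 ≤ q := by have := hF.one_lt; omega
  by_cases hN : ∀ g ∈ M, ∀ k, ∀ s : F, g.1 (sv F k) = s • sv F k → MonU g
  · exact absurd (eq_mon_five hF (NoFix.mk hmono hN) hq3 g hg) hgm
  push Not at hN
  obtain ⟨g₂, hg₂, k, s, hs, hm⟩ := hN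
  obtain ⟨w, hw, hwb, h2, h4⟩ := exists_ctr_of_fix hF (Or.inr ⟨by norm_num, hq3⟩) hmono hg₂ hm hs
  exact SUG_le_of_centre hF hmono le_rfl hw hwb h2 h4

end Cfsg.Agent.SUFive
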