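import Cfsg.Agent.GeoClasses.UnitParabolic
import Cfsg.Agent.GeoClasses.UnitSubfield

/-!
The parabolic and odd-degree subfield clauses of the list for `SU_5(q)`.
-/

set_option autoImplicit false

namespace Cfsg.Agent.SUFive

/-- Clause (1) of the list for `SU_5(q)`. -/
theorem suGL_singular_maximal_five {F : Type*} [Field F] [Fintype F] (q : ℕ)
    (hF : Fintype.card F = q ^ 2) :
    (∀ W : Submodule F (Fin 5 → F), W ≠ ⊥ → Cfsg.Geo.IsTotallySingularFor (Cfsg.hermForm 5 F q) W → Cfsg.Geo.IsMaximalIn (Cfsg.GU 5 F q ⊓ Cfsg.Geo.specialLinear (Fin 5) F) (Cfsg.Geo.subspaceStabilizer W ⊓ (Cfsg.GU 5 F q ⊓ Cfsg.Geo.specialLinear (Fin 5) F))) :=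
  fun _ h0 hW => GeoClasses.suGL_singular_maximal (Classical.U.sqField_of_fintype hF)
    (by norm_num) h0 hW

/-- Clause (5) of the list for `SU_5(q)`. -/
theorem suGL_oddSubfield_maximal_five {F : Type*} [Field F] [Fintype F] (q : ℕ)
    (hF : Fintype.card F = q ^ 2) :
    (∀ (F₀ : Subfield F) (r : ℕ) (P : Matrix.GeneralLinearGroup (Fin 5) F), r.Prime → Odd r → Fintype.card F = Nat.card F₀ ^ r → Cfsg.Geo.IsFormRationalStructure (Cfsg.hermForm 5 F q) F₀ 1 P → Cfsg.Geo.IsMaximalIn (Cfsg.GU 5 F q ⊓ Cfsg.Geo.specialLinear (Fin 5) F) (Cfsg.Geo.subfieldSubgroup F₀ P ⊓ (Cfsg.GU 5 F q ⊓ Cfsg.Geo.specialLinear (Fin 5) F))) :=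
  fun _ _ _ hr ho hc hP => GeoClasses.suGL_oddSubfield_maximal
    (Classical.U.sqField_of_fintype hF) (by norm_num) hr ho hc hP

end Cfsg.Agent.SUFive
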