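import Cfsg.Agent.GeoClasses.UnitRealSubfield

/-!
The subfield groups of orthogonal type are maximal in `SU_5(q)` for odd `q`.

An element of an overgroup either yields a unipotent element outside the structure at the image of
a rational singular point, or sends every such point to a point orthogonal to its conjugate; in
the second case the two symmetric forms are proportional, so the element respects the structure.
-/

set_option autoImplicit false
set_option linter.unusedSectionVars false

namespace Cfsg.Agent.SUFive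

open Matrix Cfsg.Geo Cfsg.Agent.Classical.U Cfsg.Agent.ClassicalMax Cfsg.Agent.GeoClasses Module
open Cfsg.Agent.GeoClasses.RatStr
open Cfsg.Agent.Forms (hperp mem_hperp finrank_hperp hperp_hperp herm_comm_zero)
open scoped MatrixGroups Matrix

universe u

variable {F : Type u} [Field F] {n q : ℕ} {ε : F} {bar : (Fin n → F) → (Fin n → F)}
  (hF : SqField F q) (hb : RatStr q ε bar) {M : Subgroup (UG n F q)}
include hF hb

omit hb in
/-- The centre of a commuting unipotent element is orthogonal to its conjugate. -/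
lemma herm_bar_centre {P X : Fin n → F} {a : F} (hc : UniCond q P X a)
    (hcomm : BarComm bar (uni hF hc)) (hX : X ∉ F ∙ P) : herm q P (bar P) = 0 := by
  have hfix : (uni hF hc).1 P = P := by
    rw [uni_apply, hc.1, herm_comm_zero hF hc.2.1]; simp
  have h := hcomm P
  rw [hfix, uni_apply] at h
  by_contra hne
  have hne' : herm q (bar P) P ≠ 0 := fun h0 => hne (herm_comm_zero hF h0)
  apply hX
  have hmem : herm q (bar P) P • X ∈ F ∙ P :=
    Submodule.mem_span_singleton.2 ⟨-(a * herm q (bar P) P - herm q (bar P) X), by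
      rw [neg_smul, neg_eq_iff_add_eq_zero, add_comm]
      rw [add_assoc, left_eq_add] at h
      exact h⟩
  rwa [Submodule.smul_mem_iff _ hne'] at hmem

/-- Rational singular images orthogonal to their conjugates force the structure to be respected. -/
lemma semi_of_singular (hn : 5 ≤ n) (hε : ε = 1) (h2 : (2 : F) ≠ 0) (g : UG n F q)
    (h0 : ∀ p, bar p = p → herm q p p = 0 → herm q (g.1 p) (bar (g.1 p)) = 0) :
    ∃ μ : F, ∀ w, bar (g.1 w) = μ • g.1 (bar w) := by
  set B : (Fin n → F) → (Fin n → F) → F := fun x y => herm q (g.1 x) (bar (g.1 y)) with hB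
  have addl : ∀ x x' y, B (x + x') y = B x y + B x' y := fun x x' y => by
    simp only [hB, map_add, herm_add_left]
  have addr : ∀ x y y', B x (y + y') = B x y + B x y' := fun x y y' => by
    simp only [hB, map_add, hb.add, hF.herm_add_right]
  have smull : ∀ (c : F) x y, B (c • x) y = c * B x y := fun c x y => by
    simp only [hB, map_smul, herm_smul_left]
  have smulr : ∀ (c : F) x y, B x (c • y) = c * B x y := fun c x y => by
    simp only [hB, map_smul, hb.smul, herm_smul_right, hF.pow_pow]
  have symm : ∀ x y, B x y = B y x := fun x y => by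
    show herm q (g.1 x) (bar (g.1 y)) = herm q (g.1 y) (bar (g.1 x))
    rw [← hF.herm_symm (bar (g.1 x)) (g.1 y), herm_bar_left hF hb, hε, one_mul, hF.pow_pow]
  have hsing : ∀ z, bar z = z → herm q z z = 0 → B z z = 0 := h0
  have hself : ∀ {z w : Fin n → F}, bar z = z → bar w = w → herm q w z = herm q z w :=
    fun {z w} hz hw => by
      rw [← hF.herm_symm z w, herm_fix hF hb hz hw, hε, one_mul]
  have horth : ∀ z w, bar z = z → herm q z z = 0 → bar w = w → herm q w w = 0 →
      herm q z w = 0 → B z w = 0 := by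
    intro z w hz hzz hw hww hzw
    have h := hsing (z + w) (by rw [hb.add, hz, hw]) (by
      simp only [herm_add_left, hF.herm_add_right, hzz, hww, hzw, herm_comm_zero hF hzw, add_zero])
    rw [addl, addr, addr, hsing z hz hzz, hsing w hw hww, symm w z, zero_add, add_zero,
      ← two_mul] at h
    exact (mul_eq_zero.1 h).resolve_left h2
  obtain ⟨p, -, hp, hp0, hpp⟩ := exists_fix_isotropic hF hb (S := ⊤) (fun _ _ => trivial)
    (by rw [finrank_top, Module.finrank_fin_fun]; omega)
  obtain ⟨f, hf, hff, hfp⟩ := exists_fix_partner_top hF hb hp hpp hp0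
  set lam := B f p / herm q f p with hlam
  set T := hperp q (Submodule.span F ({p, f} : Set (Fin n → F))) with hT
  have hTs : IsBarStable bar T := stable_pair hF hb hp hf
  have hTdim : 3 ≤ finrank F T := by
    have := finrank_span_pair_le hF hb p f
    rw [hT, finrank_hperp hF]
    omega
  obtain ⟨e, heT, he, he0, hee⟩ := exists_fix_isotropic hF hb hTs hTdim
  have heT' := (mem_hperp_pair hF).1 heT
  obtain ⟨y, hyT, hye⟩ : ∃ y ∈ T, herm q y e ≠ 0 := by
    obtain ⟨w, hw⟩ : ∃ w, herm q w e ≠ 0 := by
      by_contra hc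
      push Not at hc
      exact he0 (hF.eq_zero_of_herm e fun w => herm_comm_zero hF (hc w))
    have hpf : herm q p f ≠ 0 := fun h => hfp (herm_comm_zero hF h)
    refine ⟨w - (herm q w p / herm q f p) • f - (herm q w f / herm q p f) • p,
      (mem_hperp_pair hF).2 ⟨?_, ?_⟩, ?_⟩
    · rw [herm_sub_left, herm_sub_left, herm_smul_left, herm_smul_left, hpp,
        div_mul_cancel₀ _ hfp]; ring
    · rw [herm_sub_left, herm_sub_left, herm_smul_left, herm_smul_left, hff,
        div_mul_cancel₀ _ hpf]; ring
    · rw [herm_sub_left, herm_sub_left, herm_smul_left, herm_smul_left,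
        herm_comm_zero hF heT'.1, herm_comm_zero hF heT'.2]
      simpa using hw
  obtain ⟨e', he'T, he', hee', he'e⟩ := exists_fix_partner hF hb hTs heT he hee ⟨y, hyT, hye⟩
  set G : Set (Fin n → F) := {z | bar z = z ∧ herm q z z = 0 ∧ (z ∈ T ∨ z = p ∨ z = f)} with hG
  have htop : ∀ w, w ∈ Submodule.span F G := by
    intro w
    have hpf : herm q p f ≠ 0 := fun h => hfp (herm_comm_zero hF h)
    set α := herm q w p / herm q f p with hα
    set β := herm q w f / herm q p f with hβ
    have hm : w - α • f - β • p ∈ T := (mem_hperp_pair hF).2 ⟨by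
      rw [herm_sub_left, herm_sub_left, herm_smul_left, herm_smul_left, hpp, hα,
        div_mul_cancel₀ _ hfp]; ring, by
      rw [herm_sub_left, herm_sub_left, herm_smul_left, herm_smul_left, hff, hβ,
        div_mul_cancel₀ _ hpf]; ring⟩
    have h1 : w - α • f - β • p ∈ Submodule.span F G :=
      ((le_span_fix_isotropic hF hb hTs heT he'T he he' hee hee' he'e).trans
        (Submodule.span_mono (t := G) fun z hz => ⟨hz.2.1, hz.2.2.1, Or.inl hz.1⟩)) hm
    have h2' := add_mem (add_mem h1 (Submodule.smul_mem _ β (Submodule.subset_span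
      (show p ∈ G from ⟨hp, hpp, Or.inr (Or.inl rfl)⟩))))
      (Submodule.smul_mem _ α (Submodule.subset_span
      (show f ∈ G from ⟨hf, hff, Or.inr (Or.inr rfl)⟩)))
    simpa [sub_add_cancel] using h2'
  have hgen : ∀ z ∈ G, ∀ w ∈ G, B z w = lam * herm q z w := by
    have hTT : ∀ z w, bar z = z → herm q z z = 0 → z ∈ T → bar w = w → herm q w w = 0 →
        w ∈ T → B z w = lam * herm q z w := by
      intro z w hz hzz hzT hw hww hwT
      have hz' := (mem_hperp_pair hF).1 hzT
      have hw' := (mem_hperp_pair hF).1 hwT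
      set c := herm q f p with hc
      set a := -herm q z w / c with ha
      have haq : a ^ q = a := by
        rw [ha, div_pow, hF.neg_pow, herm_fix hF hb hz hw, hc, herm_fix hF hb hf hp, hε, one_mul,
          one_mul]
      have hzw' : herm q w z = herm q z w := hself hz hw
      have hpfc : herm q p f = c := hself hf hp
      have hzero := hsing (f + (z + w) + a • p)
        (by rw [hb.add, hb.add, hb.add, hb.smul, hf, hz, hw, hp, haq]) (by
          simp only [herm_add_left, hF.herm_add_right, herm_smul_left, herm_smul_right, haq, hpp,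
            hff, hzz, hww, hz'.1, hz'.2, hw'.1, hw'.2, herm_comm_zero hF hz'.1,
            herm_comm_zero hF hz'.2, herm_comm_zero hF hw'.1, herm_comm_zero hF hw'.2, hzw',
            hpfc, ← hc]
          rw [ha]
          field_simp
          ring)
      have o1 := horth z p hz hzz hp hpp hz'.1
      have o2 := horth z f hz hzz hf hff hz'.2
      have o3 := horth w p hw hww hp hpp hw'.1
      have o4 := horth w f hw hww hf hff hw'.2
      simp only [addl, addr, smull, smulr, hsing f hf hff, hsing p hp hpp, hsing z hz hzz,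
        hsing w hw hww, o1, o2, o3, o4, symm f z, symm f w, symm p z, symm p w, symm w z,
        symm p f, add_zero, zero_add, mul_zero] at hzero
      have h3 : (2 : F) * (B z w + a * B f p) = 0 := by linear_combination hzero
      have h4 := (mul_eq_zero.1 h3).resolve_left h2
      rw [hlam]
      rw [ha] at h4
      field_simp at h4 ⊢
      linear_combination h4
    have hTp : ∀ z, bar z = z → herm q z z = 0 → z ∈ T →
        B z p = lam * herm q z p ∧ B z f = lam * herm q z f := fun z hz hzz hzT => by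
      have hz' := (mem_hperp_pair hF).1 hzT
      exact ⟨by rw [horth z p hz hzz hp hpp hz'.1, hz'.1, mul_zero],
        by rw [horth z f hz hzz hf hff hz'.2, hz'.2, mul_zero]⟩
    have hfp' : B f p = lam * herm q f p := by rw [hlam, div_mul_cancel₀ _ hfp]
    rintro z ⟨hz, hzz, hzc⟩ w ⟨hw, hww, hwc⟩
    have hsw : B w z = lam * herm q w z → B z w = lam * herm q z w := fun h => by
      rw [symm, h, hself hz hw]
    rcases hzc with hzT | rfl | rfl <;> rcases hwc with hwT | rfl | rfl
    · exact hTT z w hz hzz hzT hw hww hwT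
    · exact (hTp z hz hzz hzT).1
    · exact (hTp z hz hzz hzT).2
    · exact hsw (hTp w hw hww hwT).1
    · rw [hsing _ hz hzz, hzz, mul_zero]
    · exact hsw hfp'
    · exact hsw (hTp w hw hww hwT).2
    · exact hfp'
    · rw [hsing _ hz hzz, hzz, mul_zero]
  have hall : ∀ x y, B x y = lam * herm q x (bar y) := by
    have h1 : ∀ w ∈ G, ∀ x, B x w = lam * herm q x w := by
      intro w hw x
      have hx := htop x
      induction hx using Submodule.span_induction with
      | mem z hz => exact hgen z hz w hw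
      | zero => rw [show (0 : Fin n → F) = (0 : F) • (0 : Fin n → F) by simp, smull,
          herm_smul_left]; ring
      | add a b _ _ ha hb' => rw [addl, ha, hb', herm_add_left, mul_add]
      | smul c a _ ha => rw [smull, ha, herm_smul_left]; ring
    intro x y
    have hy := htop y
    induction hy using Submodule.span_induction with
    | mem z hz => rw [hz.1]; exact h1 z hz x
    | zero => rw [show (0 : Fin n → F) = (0 : F) • (0 : Fin n → F) by simp, smulr, hb.smul,
        herm_smul_right, hF.pow_pow]; ring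
    | add a b _ _ ha hb' => rw [addr, ha, hb', hb.add, hF.herm_add_right, mul_add]
    | smul c a _ ha => rw [smulr, ha, hb.smul, herm_smul_right, hF.pow_pow]; ring
  refine ⟨lam ^ q, fun w => sub_eq_zero.1 (hF.eq_zero_of_herm _ fun v => ?_)⟩
  have h := hall (g.1.symm v) w
  rw [hB] at h
  simp only [LinearEquiv.apply_symm_apply] at h
  have h' : herm q v (g.1 (bar w)) = herm q (g.1.symm v) (bar w) := by
    conv_lhs => rw [← g.1.apply_symm_apply v, UG_app]
  apply herm_comm_zero hF
  rw [hF.herm_sub_right, herm_smul_right, hF.pow_pow, h, h', sub_self]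

/-- Overgroups of the centraliser of the involution, in dimension five and more. -/
theorem SUG_le_of_ratStr_five (hn : 5 ≤ n) (hε1 : ε = 1) (h2' : (2 : F) ≠ 0)
    (hK : ∀ g ∈ SUG n F q, BarComm bar g → g ∈ M)
    (hne : ∃ g ∈ M, ∀ μ : F, ∃ w, bar (g.1 w) ≠ μ • g.1 (bar w)) : SUG n F q ≤ M := by
  suffices h : ∃ p : Fin n → F, bar p = p ∧ p ≠ 0 ∧ ∃ hpp : herm q p p = 0,
      ∃ x ∈ uniParams hF hpp M, bar x - ε • x ∉ F ∙ p by
    obtain ⟨p, hp, hp0, hpp, x, hx, hnew⟩ := h
    obtain ⟨e, he, hee, hep, -, hnep⟩ := exists_fix_orth hF hb (by omega) hp hpp hp0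
    obtain ⟨w, hwp, hwe⟩ := exists_perp_not_orth hF hnep
    have hcen : p ∈ uniCentres hF M := mem_uniCentres_of_params hF hpp hep hwp hwe
      fun v hv => params_eq_perp hF hb hK (by omega) hpp hp hx hnew hv
    obtain ⟨f, hf, hff, hfp⟩ := exists_fix_partner_top hF hb hp hpp hp0
    have hpf : herm q p f ≠ 0 := fun h => hfp (herm_comm_zero hF h)
    obtain ⟨y, b, hyp, hyf, hy, hbq, hby, hb0⟩ : ∃ (y : Fin n → F) (b : F),
        herm q y p = 0 ∧ herm q y f = 0 ∧ bar y = ε • y ∧ b ^ q = ε * b ∧
        b + b ^ q + herm q y y = 0 ∧ b ≠ 0 := by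
      rcases hb.sign with ⟨hε, h2⟩ | hε
      · obtain ⟨y₁, hy₁, y₂, hy₂, hb₁, hb₂, h12⟩ := exists_twist_pair hF hb
          (stable_pair hF hb hp hf) (exists_not_orth_perp hF (by
            have := finrank_span_pair_le hF hb p f
            omega))
        rw [mem_hperp_pair hF] at hy₁ hy₂
        obtain ⟨y, hyp, hyf, hy, hyy⟩ : ∃ y, herm q y p = 0 ∧ herm q y f = 0 ∧ bar y = ε • y ∧
            herm q y y ≠ 0 := by
          by_contra hc
          push Not at hc
          have h11 := hc y₁ hy₁.1 hy₁.2 hb₁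
          have h22 := hc y₂ hy₂.1 hy₂.2 hb₂
          have h3 := hc (y₁ + y₂) (by rw [herm_add_left, hy₁.1, hy₂.1, add_zero])
            (by rw [herm_add_left, hy₁.2, hy₂.2, add_zero]) (by rw [hb.add, hb₁, hb₂, smul_add])
          have h21 : herm q y₁ y₂ = herm q y₂ y₁ := by
            rw [← hF.herm_symm, herm_twist hF hb hb₂ hb₁, hε, one_mul]
          simp only [herm_add_left, hF.herm_add_right, h11, h22, h21, zero_add, add_zero,
            ← two_mul] at h3
          exact h12 ((mul_eq_zero.1 h3).resolve_left h2)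
        obtain ⟨b, hbq, hby⟩ := hb.lift y hy
        refine ⟨y, b, hyp, hyf, hy, hbq, hby, fun h0 => hyy ?_⟩
        rw [h0, zero_pow hF.q_ne_zero] at hby
        linear_combination hby
      · obtain ⟨d, hd0, hd⟩ := hF.exists_skew
        exact ⟨0, d, herm_zero_left _, herm_zero_left _, by rw [map_zero' hF hb, smul_zero],
          by rw [hd, hε]; ring, by rw [hd, herm_zero_left]; ring, hd0⟩
    have hc : UniCond q f y b := ⟨hff, hyf, hby⟩
    refine SUG_le_of_uniCentre_pair hF (by omega) hcen
      (map_mem_uniCentres hF hcen (uni_mem hF hb hK hf hc hy hbq)) fun h => ?_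
    rw [uni_apply, hF.herm_add_right, hF.herm_add_right, herm_smul_right, herm_smul_right, hpp,
      herm_comm_zero hF hyp, hF.sub_pow, mul_pow] at h
    simp [hF.q_ne_zero, hb0, hpf, hfp, pow_eq_zero_iff] at h
  obtain ⟨g, hgM, hg⟩ := hne
  -- a conjugate of a rational element which is not rational, fixing a rational isotropic vector
  obtain ⟨P', X', a', hcond, huM, huK, p, hp, hp0, hpp, hpP, hpX⟩ : ∃ (P' X' : Fin n → F) (a' : F)
      (h : UniCond q P' X' a'), uni hF h ∈ M ∧ ¬ BarComm bar (uni hF h) ∧
        ∃ p, bar p = p ∧ p ≠ 0 ∧ herm q p p = 0 ∧ herm q p P' = 0 ∧ herm q p X' = 0 := by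
    by_contra hc
    obtain ⟨μ, hμ⟩ := semi_of_singular hF hb hn hε1 h2' g fun p hp hpp => by
      classical
      rcases eq_or_ne p 0 with rfl | hp0
      · rw [map_zero, herm_zero_left]
      obtain ⟨p', hp'S, hp', hp'0, hp'p'⟩ := exists_fix_isotropic hF hb
        (S := hperp q (Submodule.span F ({g.1 p, bar (g.1 p)} : Set (Fin n → F))))
        (stable_hperp hF hb (stable_span hF hb fun x hx => Submodule.subset_span (by
          rcases hx with rfl | rfl <;> simp [hb.invol])))
        (by
          have := finrank_span_pair_le hF hb (g.1 p) (bar (g.1 p))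
          rw [finrank_hperp hF]
          omega)
      set v := g.1.symm p' with hv
      have hgv : g.1 v = p' := g.1.apply_symm_apply p'
      have hpv : herm q p v = 0 := by
        rw [← UG_app g p v, hgv]
        exact herm_comm_zero hF (hp'S _ (Submodule.subset_span (by simp)))
      set S := hperp q (Submodule.span F ({p, v, bar v} : Set (Fin n → F))) with hS
      have hdim : 2 ≤ finrank F S := by
        have h3 := finrank_span_finset_le_card (R := F) ({p, v, bar v} : Finset (Fin n → F))
        simp only [Finset.coe_insert, Finset.coe_singleton] at h3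
        have h3' : finrank F (Submodule.span F ({p, v, bar v} : Set (Fin n → F))) ≤ 3 :=
          h3.trans Finset.card_le_three
        rw [hS, finrank_hperp hF]
        omega
      obtain ⟨x, hxS, hxb, hxp⟩ := exists_fix_not_mem hF hb (S := S)
        (stable_hperp hF hb (stable_span hF hb fun x hx => Submodule.subset_span (by
          rcases hx with rfl | rfl | rfl <;> simp [hb.invol, hp])))
        (N := F ∙ p) fun h => by
          have := Submodule.finrank_mono h
          rw [finrank_span_singleton hp0] at this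
          omega
      have hxb' : bar x = ε • x := by rw [hxb, hε1, one_smul]
      obtain ⟨a, ha, ha'⟩ := hb.lift x hxb'
      have hpx : UniCond q p x a := ⟨hpp, hxS p (Submodule.subset_span (by simp)), ha'⟩
      have hmem := mul_mem (mul_mem hgM (uni_mem hF hb hK hp hpx hxb' ha)) (inv_mem hgM)
      rw [uni_conj] at hmem
      have hgpx : UniCond q (g.1 p) (g.1 x) a := ⟨by rw [UG_app]; exact hpx.1,
        by rw [UG_app]; exact hpx.2.1, by rw [UG_app]; exact hpx.2.2⟩
      by_cases hcomm : BarComm bar (uni hF hgpx)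
      · refine herm_bar_centre hF hgpx hcomm fun h => hxp ?_
        obtain ⟨c, hc'⟩ := Submodule.mem_span_singleton.1 h
        rw [← map_smul] at hc'
        exact Submodule.mem_span_singleton.2 ⟨c, g.1.injective hc'⟩
      refine absurd ⟨_, _, _, hgpx, hmem, hcomm, p', hp', hp'0, hp'p', ?_, ?_⟩ hc
      · rw [← hgv, UG_app, herm_comm_zero hF hpv]
      · rw [← hgv, UG_app]
        exact herm_comm_zero hF (hxS v (Submodule.subset_span (by simp)))
    obtain ⟨w, hw⟩ := hg μ
    exact hw (hμ w)
  set u := uni hF hcond with hu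
  have hup : u.1 p = p := by rw [hu, uni_apply, hpP, hpX]; simp
  by_contra hcon
  have hold : ∀ q' : Fin n → F, bar q' = q' → q' ≠ 0 → ∀ (hq' : herm q q' q' = 0),
      ∀ x ∈ uniParams hF hq' M, bar x - ε • x ∈ F ∙ q' := fun q' h1 h2 h3 x hx => by
    by_contra h
    exact hcon ⟨q', h1, h2, h3, x, hx, h⟩
  obtain ⟨f, hf, hff, hfp⟩ := exists_fix_partner_top hF hb hp hpp hp0
  obtain ⟨x, a, hz, hzf⟩ := exists_uni_map hF hb hpp hff
    (show herm q (u.1 f) (u.1 f) = 0 by rw [UG_app, hff]) hfp
    (show herm q (u.1 f) p = herm q f p by conv_lhs => rw [← hup, UG_app])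
  set z := uni hF hz with hzdef
  have hzp : z.1 p = p := by
    rw [hzdef, uni_apply, hpp, herm_comm_zero hF hz.2.1]; simp
  set k := z⁻¹ * u with hk
  have hkz : ∀ v, z.1 (k.1 v) = u.1 v := fun v => by
    show z.1 (z.1.symm (u.1 v)) = _
    rw [LinearEquiv.apply_symm_apply]
  have hkp : k.1 p = p := z.1.injective (by rw [hkz, hup, hzp])
  have hkf : k.1 f = f := z.1.injective (by rw [hkz, hzf])
  have hkK : BarComm bar k := barComm_of_pair hF hb hp hf hpp hff hfp hkp hkf fun y hyp hyf hy => by
    have hkyp : herm q (k.1 y) p = 0 := by rw [← hkp, UG_app, hyp]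
    have hkyf : herm q (k.1 y) f = 0 := by rw [← hkf, UG_app, hyf]
    have hmem := hold p hp hp0 hpp _
      (map_mem_uniParams hF hpp (twist_mem hF hb hK hpp hp hyp hy) huM hup)
    rw [← hkz, hzdef, uni_apply, hkyp, zero_smul, add_zero, mul_zero, zero_sub, hb.add, hb.smul,
      hp] at hmem
    obtain ⟨r, hr⟩ := Submodule.mem_span_singleton.1 hmem
    set s := -herm q (k.1 y) x
    have h5 : bar (k.1 y) - ε • k.1 y = (r - s ^ q + ε * s) • p := by
      rw [add_smul, sub_smul, hr]
      module
    have h6 := congrArg (fun v => herm q v f) h5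
    simp only [herm_sub_left, herm_smul_left, herm_bar_left hF hb, hf, hkyf,
      zero_pow hF.q_ne_zero, mul_zero, sub_zero] at h6
    rw [(mul_eq_zero.1 h6.symm).resolve_right fun h => hfp (herm_comm_zero hF h), zero_smul,
      sub_eq_zero] at h5
    exact h5
  have hkM : k ∈ M := hK k (mul_mem (inv_mem (det_uni hF hz)) (det_uni hF hcond)) hkK
  have hzM : z ∈ M := by
    have := mul_mem huM (inv_mem hkM)
    rwa [hk, _root_.mul_inv_rev, inv_inv, mul_inv_cancel_left] at this
  have hznot : ¬ BarComm bar z := fun h => huK fun w => by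
    rw [← hkz, ← hkz, h, hkK]
  obtain ⟨s, hs⟩ := Submodule.mem_span_singleton.1 (hold p hp hp0 hpp x ⟨a, hz, hzM⟩)
  -- correct `x` to a rational vector
  have hsq : s ^ q = -(ε * s) := by
    have h7 := congrArg bar hs
    rw [hb.smul, hp, map_sub' hF hb, hb.invol, hb.smul, eps_pow hF hb] at h7
    refine smul_left_injective F hp0 ?_
    show (s ^ q) • p = (-(ε * s)) • p
    rw [h7, neg_smul, mul_smul, hs, smul_sub, smul_smul, eps_sq hF hb, one_smul]
    abel
  obtain ⟨t, ht⟩ := hF.exists_trace (c := 1) (one_pow q)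
  set r := ε * t * s with hr
  set x' := x + r • p with hx'
  have hx'b : bar x' = ε • x' := by
    rw [hx', hb.add, hb.smul, hp, smul_add, smul_smul,
      show bar x = ε • x + s • p by rw [hs]; abel, add_assoc, ← add_smul]
    congr 2
    rw [hr, mul_pow, mul_pow, hsq, eps_pow hF hb]
    linear_combination -s * ht + (-t ^ q * s - t * s) * eps_sq hF hb
  obtain ⟨a₀, ha₀, ha₀'⟩ := hb.lift x' hx'b
  have hc' : UniCond q p x' a₀ := ⟨hpp, by
    rw [hx', herm_add_left, herm_smul_left, hz.2.1, hpp]; ring, ha₀'⟩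
  have hkappa := uni_mem hF hb hK hp hc' hx'b ha₀
  set δ := a - r + r ^ q - a₀ with hδ
  have hxp' : herm q p x = 0 := herm_comm_zero hF hz.2.1
  have hxx : herm q x' x' = herm q x x := by
    simp only [hx', herm_add_left, hF.herm_add_right, herm_smul_left, herm_smul_right, hpp,
      hz.2.1, hxp']
    ring
  have hδq : δ ^ q = -δ := by
    rw [hδ, hF.sub_pow, hF.add_pow, hF.sub_pow, hF.pow_pow]
    linear_combination hz.2.2 - ha₀' + hxx
  have ht' : TrvCond q p δ := trvCond_mk hpp hδq
  have hprod : trv hF ht' * uni hF hc' = z := by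
    refine Subtype.ext (LinearEquiv.ext fun w => ?_)
    rw [Subgroup.coe_mul, LinearEquiv.mul_apply, trv_apply, uni_apply, hzdef, uni_apply]
    simp only [hδ, hx', herm_add_left, hF.herm_add_right, herm_smul_left, herm_smul_right, hpp,
      hz.2.1]
    match_scalars <;> ring
  have htM : trv hF ht' ∈ M := by
    rw [← eq_mul_inv_iff_mul_eq] at hprod
    rw [hprod]
    exact mul_mem hzM (inv_mem hkappa)
  have htnot : ¬ BarComm bar (trv hF ht') := fun h => hznot fun w => by
    rw [← hprod, Subgroup.coe_mul, LinearEquiv.mul_apply, LinearEquiv.mul_apply, h,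
      uni_barComm hF hb hp hc' hx'b ha₀]
  rcases hb.sign with ⟨hε, h2⟩ | hε
  swap
  · exact htnot (uni_barComm hF hb hp _ (by rw [map_zero' hF hb, smul_zero])
      (by rw [hδq, hε, neg_one_mul]))
  have hδ0 : δ ≠ 0 := fun h => htnot (fun w => by
    rw [trv_apply, trv_apply, h]; simp)
  obtain ⟨p₁, hp₁, hp₁₁, hp₁p, hp₁0, hnp₁⟩ := exists_fix_orth hF hb (by omega) hp hpp hp0
  have hnp : p ∉ F ∙ p₁ := fun h => hnp₁ (by
    obtain ⟨c, hc⟩ := Submodule.mem_span_singleton.1 h
    have hc0 : c ≠ 0 := fun h0 => hp0 (by rw [← hc, h0, zero_smul])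
    exact Submodule.mem_span_singleton.2 ⟨c⁻¹, by rw [← hc, inv_smul_smul₀ hc0]⟩)
  obtain ⟨w, hwp₁, hwp⟩ := exists_perp_not_orth hF hnp
  obtain ⟨y, hyS, hy, hyp⟩ := exists_fix_ne hF hb (stable_single hF hb hp₁) (hermL q p)
    ⟨w, mem_hperp_single.2 hwp₁, hwp⟩
  change herm q y p ≠ 0 at hyp
  have hy' : bar y = ε • y := by rw [hy, hε, one_smul]
  have hfix₁ : (trv hF ht').1 p₁ = p₁ := by rw [trv_apply, hp₁p]; simp
  have hmem := hold p₁ hp₁ hp₁0 hp₁₁ _ (map_mem_uniParams hF hp₁₁
    (twist_mem hF hb hK hp₁₁ hp₁ (mem_hperp_single.1 hyS) hy') htM hfix₁)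
  rw [trv_apply, hb.add, hb.smul, hp, hy', mul_pow, hδq, herm_fix hF hb hy hp, hε] at hmem
  have h8 : (2 * δ * herm q y p) • p ∈ F ∙ p₁ := by
    convert neg_mem hmem using 1
    module
  have hne : (2 : F) * δ * herm q y p ≠ 0 := mul_ne_zero (mul_ne_zero h2 hδ0) hyp
  rw [Submodule.smul_mem_iff _ hne] at h8
  exact hnp h8


omit hb in
theorem real_maximal [Fintype F] (hq : Odd q) {F₀ : Subfield F} {P : GL (Fin 5) F}
    (hcard : Fintype.card F = Nat.card F₀ ^ 2)
    (hP : IsFormRationalStructure (Cfsg.hermForm 5 F q) F₀ 1 P) :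
    IsMaximalIn (suGL 5 F q) (subfieldSubgroup F₀ P ⊓ suGL 5 F q) := by
  have h2 : (2 : F) ≠ 0 := by
    rw [two_ne_zero_iff_odd_card, ← Nat.card_eq_fintype_card, hF.2]
    exact hq.pow
  have hcard' : Nat.card F = Nat.card F₀ ^ 2 := by rw [Nat.card_eq_fintype_card, hcard]
  have hb := ratStr_orth hF hcard' h2 hP
  have hperf := suGL_commutator hF (n := 5) (by omega) (by omega)
  refine ⟨lt_of_le_not_ge inf_le_right fun hle =>
    suGL_not_le_subfieldSubgroup hF (by omega) hperf (MaxSub.subfield_ne_top Nat.prime_two hcard) P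
      (hle.trans inf_le_left), fun M hM hMK => ?_⟩
  by_cases hsemi : ∀ g ∈ M.comap (ugToGL 5 F q),
      ∃ μ : F, ∀ w, ratBar q P (g.1 w) = μ • g.1 (ratBar q P w)
  · refine Or.inl (le_antisymm (le_inf (fun g hg => ?_) hMK) hM)
    obtain ⟨k, -, rfl⟩ := exists_ugToGL_eq (hMK hg)
    obtain ⟨μ, hμ⟩ := hsemi k hg
    exact mem_subfieldSubgroup_of_semiComm hF hcard' hμ
  refine Or.inr (le_antisymm hMK ?_)
  push Not at hsemi
  have hS : SUG 5 F q ≤ M.comap (ugToGL 5 F q) :=
    SUG_le_of_ratStr_five hF hb le_rfl rfl h2 (fun g hg hgc => hM ⟨mem_subfieldSubgroup_of_semiComm hF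
      hcard' (μ := 1) fun w => by rw [one_smul]; exact hgc w, ugToGL_mem_suGL hg⟩) hsemi
  intro g hg
  obtain ⟨k, hk, rfl⟩ := exists_ugToGL_eq hg
  exact hS hk

omit hF hb in
/-- Clause (6) of the list for `SU_5(q)`. -/
theorem suGL_orthSubfield_maximal_five {F : Type*} [Field F] [Fintype F] (q : ℕ)
    (hF : Fintype.card F = q ^ 2) :
    (Odd q → ∀ (F₀ : Subfield F) (P : Matrix.GeneralLinearGroup (Fin 5) F), Fintype.card F = Nat.card F₀ ^ 2 → Cfsg.Geo.IsFormRationalStructure (Cfsg.hermForm 5 F q) F₀ 1 P → Cfsg.Geo.IsMaximalIn (Cfsg.GU 5 F q ⊓ Cfsg.Geo.specialLinear (Fin 5) F) (Cfsg.Geo.subfieldSubgroup F₀ P ⊓ (Cfsg.GU 5 F q ⊓ Cfsg.Geo.specialLinear (Fin 5) F))) :=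
  fun hq _ _ hc hP =>
    real_maximal ⟨inferInstance, by rw [Nat.card_eq_fintype_card, hF]⟩ hq hc hP

end Cfsg.Agent.SUFive
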