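import Mathlib
import Cfsg.Prelude.Def_GeometricClasses

/-!
The standard group `5^{1+2}` in `GL₅(F)` and elements of its normaliser, in any characteristic
other than five (the layers `Basic`, `Normal`, `Blocks` of `MaxSub.CSixFive`, there for odd characteristic).
-/

set_option autoImplicit false
set_option linter.unusedSectionVars false
set_option linter.style.haveILetI false

namespace Cfsg.Agent.SUFive.Symp

open Matrix
open scoped MatrixGroups Fin.CommRing Fin.NatCast

/-- A primitive fifth root of unity, away from characteristic five. -/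
structure Root5 (F : Type*) [Field F] where
  ω : F
  pow_five : ω ^ 5 = 1
  ne_one : ω ≠ 1
  five : (5 : F) ≠ 0

variable {F : Type*} [Field F]

section IntMat

/-- An integer matrix read in `F`. -/
abbrev zM (M : Matrix (Fin 5) (Fin 5) ℤ) : Matrix (Fin 5) (Fin 5) F := (Int.castRingHom F).mapMatrix M

/-- An invertible integer matrix read in `GL₅(F)`. -/
def zG (F : Type*) [Field F] (M N : Matrix (Fin 5) (Fin 5) ℤ) (h : M * N = 1) (h' : N * M = 1) :
    GL (Fin 5) F where
  val := zM M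
  inv := zM N
  val_inv := by rw [zM, zM, ← map_mul, h, map_one]
  inv_val := by rw [zM, zM, ← map_mul, h', map_one]

def aZ : Matrix (Fin 5) (Fin 5) ℤ := of fun i j => if i = j + 1 then 1 else 0
def aZ' : Matrix (Fin 5) (Fin 5) ℤ := of fun i j => if j = i + 1 then 1 else 0
def jZ : Matrix (Fin 5) (Fin 5) ℤ := of fun i j => if i = -j then 1 else 0
def sZ : Matrix (Fin 5) (Fin 5) ℤ := of fun i j => if i = 2 * j then -1 else 0
def sZ' : Matrix (Fin 5) (Fin 5) ℤ := of fun i j => if i = 3 * j then -1 else 0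

/-- The translation `e_k ↦ e_{k+1}`. -/
def gA : GL (Fin 5) F := zG F aZ aZ' (by decide +kernel) (by decide +kernel)
/-- The parity `e_k ↦ e_{-k}`. -/
def gJ : GL (Fin 5) F := zG F jZ jZ (by decide +kernel) (by decide +kernel)
/-- The map `e_k ↦ -e_{2k}`. -/
def gS : GL (Fin 5) F := zG F sZ sZ' (by decide +kernel) (by decide +kernel)

theorem det_zM {M : Matrix (Fin 5) (Fin 5) ℤ} (h : M.det = 1) : (zM M : Matrix (Fin 5) (Fin 5) F).det = 1 := by
  rw [zM, ← RingHom.map_det, h, map_one]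

theorem det_gA : Matrix.det ((gA : GL (Fin 5) F) : Matrix (Fin 5) (Fin 5) F) = 1 := det_zM (by decide +kernel)
theorem det_gJ : Matrix.det ((gJ : GL (Fin 5) F) : Matrix (Fin 5) (Fin 5) F) = 1 := det_zM (by decide +kernel)
theorem det_gS : Matrix.det ((gS : GL (Fin 5) F) : Matrix (Fin 5) (Fin 5) F) = 1 := det_zM (by decide +kernel)

theorem gJ_sq : (gJ : GL (Fin 5) F) * gJ = 1 := Units.ext (gJ : GL (Fin 5) F).val_inv

theorem zG_comm {M N M' N' : Matrix (Fin 5) (Fin 5) ℤ} {h : M * N = 1} {h' : N * M = 1}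
    {k : M' * N' = 1} {k' : N' * M' = 1} (e : M * M' = M' * M) :
    zG F M N h h' * zG F M' N' k k' = zG F M' N' k k' * zG F M N h h' :=
  Units.ext (show zM M * zM M' = zM M' * zM M by rw [zM, zM, ← map_mul, e, map_mul])

theorem val_gA (i j : Fin 5) :
    ((gA : GL (Fin 5) F) : Matrix (Fin 5) (Fin 5) F) i j = if i = j + 1 then 1 else 0 := by
  show (zM aZ : Matrix (Fin 5) (Fin 5) F) i j = _
  simp only [zM, RingHom.mapMatrix_apply, Matrix.map_apply, aZ, Matrix.of_apply]
  split_ifs <;> simp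

theorem val_gJ (i j : Fin 5) :
    ((gJ : GL (Fin 5) F) : Matrix (Fin 5) (Fin 5) F) i j = if i = -j then 1 else 0 := by
  show (zM jZ : Matrix (Fin 5) (Fin 5) F) i j = _
  simp only [zM, RingHom.mapMatrix_apply, Matrix.map_apply, jZ, Matrix.of_apply]
  split_ifs <;> simp

theorem val_gS (i j : Fin 5) :
    ((gS : GL (Fin 5) F) : Matrix (Fin 5) (Fin 5) F) i j = if i = 2 * j then -1 else 0 := by
  show (zM sZ : Matrix (Fin 5) (Fin 5) F) i j = _
  simp only [zM, RingHom.mapMatrix_apply, Matrix.map_apply, sZ, Matrix.of_apply]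
  split_ifs <;> simp

theorem gA_mul_apply (g : Matrix (Fin 5) (Fin 5) F) (i j : Fin 5) :
    (((gA : GL (Fin 5) F) : Matrix (Fin 5) (Fin 5) F) * g) i j = g (i - 1) j := by
  rw [Matrix.mul_apply, Finset.sum_eq_single (i - 1)]
  · rw [val_gA, if_pos (sub_add_cancel i 1).symm, one_mul]
  · intro b _ hb; rw [val_gA, if_neg (fun h => hb (by rw [h, add_sub_cancel_right])), zero_mul]
  · intro h; exact absurd (Finset.mem_univ _) h

theorem mul_gA_apply (g : Matrix (Fin 5) (Fin 5) F) (i j : Fin 5) :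
    (g * ((gA : GL (Fin 5) F) : Matrix (Fin 5) (Fin 5) F)) i j = g i (j + 1) := by
  rw [Matrix.mul_apply, Finset.sum_eq_single (j + 1)]
  · rw [val_gA, if_pos rfl, mul_one]
  · intro b _ hb; rw [val_gA, if_neg hb, mul_zero]
  · intro h; exact absurd (Finset.mem_univ _) h

theorem gJ_mul_apply (g : Matrix (Fin 5) (Fin 5) F) (i j : Fin 5) :
    (((gJ : GL (Fin 5) F) : Matrix (Fin 5) (Fin 5) F) * g) i j = g (-i) j := by
  rw [Matrix.mul_apply, Finset.sum_eq_single (-i)]
  · rw [val_gJ, if_pos (neg_neg i).symm, one_mul]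
  · intro b _ hb; rw [val_gJ, if_neg (fun h => hb (by rw [h, neg_neg])), zero_mul]
  · intro h; exact absurd (Finset.mem_univ _) h

theorem mul_gJ_apply (g : Matrix (Fin 5) (Fin 5) F) (i j : Fin 5) :
    (g * ((gJ : GL (Fin 5) F) : Matrix (Fin 5) (Fin 5) F)) i j = g i (-j) := by
  rw [Matrix.mul_apply, Finset.sum_eq_single (-j)]
  · rw [val_gJ, if_pos rfl, mul_one]
  · intro b _ hb; rw [val_gJ, if_neg hb, mul_zero]
  · intro h; exact absurd (Finset.mem_univ _) h

theorem commute_gJ_iff {g : GL (Fin 5) F} : Commute g gJ ↔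
    ∀ i j, (g : Matrix (Fin 5) (Fin 5) F) (-i) (-j) = (g : Matrix (Fin 5) (Fin 5) F) i j := by
  constructor
  · intro h i j
    have h' := congrArg (fun x : GL (Fin 5) F => (x : Matrix (Fin 5) (Fin 5) F) i (-j)) h.eq
    simp only [Units.val_mul, mul_gJ_apply, gJ_mul_apply, neg_neg] at h'
    exact h'.symm
  · intro h
    refine Units.ext (Matrix.ext fun i j => ?_)
    simp only [Units.val_mul, mul_gJ_apply, gJ_mul_apply]
    rw [← h (-i) j, neg_neg]

end IntMat

namespace Root5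

variable (R : Root5 F)

theorem ne_zero : R.ω ≠ 0 := fun h => by simpa [h] using R.pow_five

theorem geom : 1 + R.ω + R.ω ^ 2 + R.ω ^ 3 + R.ω ^ 4 = 0 := by
  have h : (R.ω - 1) * (1 + R.ω + R.ω ^ 2 + R.ω ^ 3 + R.ω ^ 4) = 0 := by
    linear_combination R.pow_five
  exact (mul_eq_zero.1 h).resolve_left (sub_ne_zero.2 R.ne_one)

/-- The additive character `k ↦ ω^k`. -/
def e (k : Fin 5) : F := R.ω ^ (k : ℕ)

theorem pow_mod (n : ℕ) : R.ω ^ n = R.ω ^ (n % 5) := by
  conv_lhs => rw [← Nat.div_add_mod n 5, pow_add, pow_mul, R.pow_five, one_pow, one_mul]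

theorem e_add (a b : Fin 5) : R.e (a + b) = R.e a * R.e b := by
  rw [e, e, e, ← pow_add, R.pow_mod ((a : ℕ) + b), Fin.val_add]

theorem e_zero : R.e 0 = 1 := pow_zero _
theorem e_one : R.e 1 = R.ω := pow_one _
theorem e_ne (a : Fin 5) : R.e a ≠ 0 := pow_ne_zero _ R.ne_zero

theorem e_mul_neg (a : Fin 5) : R.e a * R.e (-a) = 1 := by rw [← e_add, add_neg_cancel, e_zero]

theorem pow_e (a : Fin 5) : R.e a ^ 5 = 1 := by
  rw [e, ← pow_mul, mul_comm, pow_mul, R.pow_five, one_pow]

theorem orderOf_ω : orderOf R.ω = 5 := by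
  haveI : Fact (Nat.Prime 5) := ⟨by norm_num⟩
  exact orderOf_eq_prime R.pow_five R.ne_one

theorem e_inj {a b : Fin 5} (h : R.e a = R.e b) : a = b := by
  refine Fin.ext (pow_injOn_Iio_orderOf ?_ ?_ h)
  · rw [Set.mem_Iio, R.orderOf_ω]; exact a.2
  · rw [Set.mem_Iio, R.orderOf_ω]; exact b.2

theorem e_eq_one {a : Fin 5} : R.e a = 1 ↔ a = 0 := by
  refine ⟨fun h => R.e_inj (h.trans R.e_zero.symm), ?_⟩
  rintro rfl; exact R.e_zero

theorem e_mul (n : ℕ) (a : Fin 5) : R.e a ^ n = R.e ((n : Fin 5) * a) := by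
  induction n with
  | zero => simp [e_zero]
  | succ n ih => rw [pow_succ, ih, ← e_add, Nat.cast_succ, add_mul, one_mul]

theorem e_sum {c : Fin 5} (hc : c ≠ 0) : ∑ k : Fin 5, R.e (c * k) = 0 := by
  have h : ∑ k : Fin 5, R.e k = 0 := by
    simpa [Fin.sum_univ_five, e] using R.geom
  have hb : Function.Bijective (fun k : Fin 5 => c * k) := by
    revert c; decide
  rw [hb.sum_comp (fun k => R.e k), h]

theorem exists_e {a : F} (h : a ^ 5 = 1) : ∃ k, a = R.e k := by
  have hne : NeZero (5 : ℕ) := ⟨by norm_num⟩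
  obtain ⟨i, hi, rfl⟩ :=
    ((IsPrimitiveRoot.iff_orderOf (ζ := R.ω)).2 R.orderOf_ω).eq_pow_of_pow_eq_one h
  exact ⟨⟨i, hi⟩, rfl⟩

/-- A diagonal matrix with entries fifth roots of unity. -/
def dG (f : Fin 5 → Fin 5) : GL (Fin 5) F where
  val := diagonal fun i => R.e (f i)
  inv := diagonal fun i => R.e (-f i)
  val_inv := by simp [diagonal_mul_diagonal, e_mul_neg]
  inv_val := by simp [diagonal_mul_diagonal, mul_comm, e_mul_neg]

theorem val_dG (f : Fin 5 → Fin 5) :
    (R.dG f : Matrix (Fin 5) (Fin 5) F) = diagonal fun i => R.e (f i) := rfl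

theorem val_dG_inv (f : Fin 5 → Fin 5) :
    (((R.dG f)⁻¹ : GL (Fin 5) F) : Matrix (Fin 5) (Fin 5) F) = diagonal fun i => R.e (-f i) := rfl

theorem det_dG (f : Fin 5 → Fin 5) (h : ∑ i, f i = 0) :
    Matrix.det (R.dG f : Matrix (Fin 5) (Fin 5) F) = 1 := by
  rw [val_dG, det_diagonal]
  have : ∀ s : Finset (Fin 5), ∏ i ∈ s, R.e (f i) = R.e (∑ i ∈ s, f i) := by
    intro s
    induction s using Finset.induction_on with
    | empty => simp [e_zero]
    | insert a s ha ih => rw [Finset.prod_insert ha, Finset.sum_insert ha, ih, e_add]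
  rw [this, h, e_zero]

/-- `e_k ↦ ω^k e_k`. -/
def gX : GL (Fin 5) F := R.dG fun i => i
/-- `e_k ↦ ω^{k²} e_k`. -/
def gT : GL (Fin 5) F := R.dG fun i => i * i
/-- The scalar `ω`. -/
def gZ : GL (Fin 5) F := R.dG fun _ => 1

theorem det_gX : Matrix.det (R.gX : Matrix (Fin 5) (Fin 5) F) = 1 := R.det_dG _ (by decide)
theorem det_gT : Matrix.det (R.gT : Matrix (Fin 5) (Fin 5) F) = 1 := R.det_dG _ (by decide)
theorem det_gZ : Matrix.det (R.gZ : Matrix (Fin 5) (Fin 5) F) = 1 := R.det_dG _ (by decide)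

theorem val_gZ : (R.gZ : Matrix (Fin 5) (Fin 5) F) = R.ω • 1 := by
  rw [gZ, val_dG, smul_one_eq_diagonal]; simp [e_one]

theorem commute_dG_iff {g : GL (Fin 5) F} {f : Fin 5 → Fin 5} : Commute g (R.dG f) ↔
    ∀ i j, f i ≠ f j → (g : Matrix (Fin 5) (Fin 5) F) i j = 0 := by
  constructor
  · intro h i j hij
    have h' := congrArg (fun x : GL (Fin 5) F => (x : Matrix (Fin 5) (Fin 5) F) i j) h.eq
    simp only [Units.val_mul, val_dG, mul_diagonal, diagonal_mul] at h'
    by_contra h0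
    exact hij (R.e_inj (mul_left_cancel₀ h0 (h'.trans (mul_comm _ _)))).symm
  · intro h
    refine Units.ext (Matrix.ext fun i j => ?_)
    simp only [Units.val_mul, val_dG, mul_diagonal, diagonal_mul]
    by_cases hij : f i = f j
    · rw [hij, mul_comm]
    · rw [h i j hij, zero_mul, mul_zero]

theorem commute_gT_gJ : Commute R.gT gJ := by
  refine commute_gJ_iff.2 fun i j => ?_
  simp [gT, val_dG, diagonal_apply, neg_inj, neg_mul_neg]

theorem commute_gT_gX : Commute R.gT R.gX :=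
  R.commute_dG_iff.2 fun i j h => by
    rw [gT, val_dG, diagonal_apply, if_neg]
    exact fun e => h (by rw [e])

/-- The circulant `(ω^{(i-j)²})`. -/
def qM : Matrix (Fin 5) (Fin 5) F := of fun i j => R.e ((i - j) * (i - j))

def qM' : Matrix (Fin 5) (Fin 5) F := of fun i j => (5 : F)⁻¹ * R.e (-((i - j) * (i - j)))

theorem qM_mul : R.qM * R.qM' = 1 := by
  ext i k
  rw [mul_apply]
  have h : ∀ j, R.qM i j * R.qM' j k =
      (5 : F)⁻¹ * (R.e (i * i - k * k) * R.e ((2 * k - 2 * i) * j)) := by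
    intro j
    simp only [qM, qM', of_apply]
    rw [mul_left_comm, ← e_add, ← e_add]
    congr 2
    revert i j k; decide
  simp only [h, ← Finset.mul_sum]
  by_cases hik : i = k
  · subst hik
    simp [e_zero, R.five]
  · rw [R.e_sum, mul_zero, mul_zero, one_apply_ne hik]
    exact fun hz => hik ((by decide : ∀ i k : Fin 5, 2 * k - 2 * i = 0 → i = k) i k hz)

/-- The circulant as an element of `GL₅`. -/
def gQ : GL (Fin 5) F where
  val := R.qM
  inv := R.qM'
  val_inv := R.qM_mul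
  inv_val := mul_eq_one_comm.1 R.qM_mul

/-- An element of the normaliser, of determinant one, moving `e₀`. -/
def gU : GL (Fin 5) F := R.gT * R.gQ * R.gT⁻¹ * R.gQ⁻¹

theorem det_gU : Matrix.det (R.gU : Matrix (Fin 5) (Fin 5) F) = 1 := by
  have h : Matrix.GeneralLinearGroup.det R.gU = 1 := by
    simp only [gU, map_mul, map_inv]
    rw [mul_right_comm (Matrix.GeneralLinearGroup.det R.gT), mul_inv_cancel, one_mul, mul_inv_cancel]
  simpa using congrArg Units.val h

theorem commute_gQ_gJ : Commute R.gQ gJ := by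
  refine commute_gJ_iff.2 fun i j => ?_
  show R.qM (-i) (-j) = R.qM i j
  simp only [qM, of_apply]
  congr 1
  ring

theorem commute_gU_gJ : Commute R.gU gJ :=
  ((R.commute_gT_gJ.mul_left R.commute_gQ_gJ).mul_left R.commute_gT_gJ.inv_left).mul_left
    R.commute_gQ_gJ.inv_left

/-! ### the group -/

/-- The elements `ω^c X^a A^b`. -/
def el (c a b : Fin 5) : GL (Fin 5) F :=
  R.dG (fun i => c + a * i) * gA ^ (b : ℕ)

theorem pow_gA_apply (n : ℕ) (i j : Fin 5) :
    (((gA : GL (Fin 5) F) ^ n : GL (Fin 5) F) : Matrix (Fin 5) (Fin 5) F) i j =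
      if i = j + (n : Fin 5) then 1 else 0 := by
  induction n generalizing i with
  | zero => simp [Matrix.one_apply]
  | succ n ih =>
    rw [pow_succ', Units.val_mul, gA_mul_apply, ih, Nat.cast_succ]
    congr 1
    rw [sub_eq_iff_eq_add, add_assoc]

theorem el_apply (c a b i j : Fin 5) :
    (R.el c a b : Matrix (Fin 5) (Fin 5) F) i j = if i = j + b then R.e (c + a * i) else 0 := by
  rw [el, Units.val_mul, val_dG, diagonal_mul, pow_gA_apply, Fin.cast_val_eq_self]
  split_ifs <;> simp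

theorem el_mul (c a b c' a' b' : Fin 5) :
    R.el c a b * R.el c' a' b' = R.el (c + c' - a' * b) (a + a') (b + b') := by
  refine Units.ext (Matrix.ext fun i j => ?_)
  rw [Units.val_mul, mul_apply, Finset.sum_eq_single (i - b)]
  · simp only [el_apply, sub_add_cancel, if_true]
    by_cases h : i - b = j + b'
    · rw [if_pos h, if_pos (by linear_combination h), ← e_add]
      congr 1; linear_combination a' * (sub_eq_iff_eq_add.1 h) - a' * (sub_eq_iff_eq_add.1 h)
    · rw [if_neg h, if_neg (fun h' => h (by linear_combination h')), mul_zero]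
  · intro k _ hk
    rw [el_apply, if_neg (fun h => hk (by linear_combination -h)), zero_mul]
  · intro h; exact absurd (Finset.mem_univ _) h

theorem el_zero : R.el 0 0 0 = 1 := by
  refine Units.ext (Matrix.ext fun i j => ?_)
  simp [el_apply, Matrix.one_apply, e_zero]

/-- The standard `5^{1+2}`. -/
def Rs : Subgroup (GL (Fin 5) F) where
  carrier := {g | ∃ c a b, g = R.el c a b}
  one_mem' := ⟨0, 0, 0, R.el_zero.symm⟩
  mul_mem' := by
    rintro _ _ ⟨c, a, b, rfl⟩ ⟨c', a', b', rfl⟩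
    exact ⟨_, _, _, R.el_mul c a b c' a' b'⟩
  inv_mem' := by
    rintro _ ⟨c, a, b, rfl⟩
    refine ⟨-c - a * b, -a, -b, inv_eq_of_mul_eq_one_right ?_⟩
    rw [el_mul, ← el_zero]
    congr 1 <;> ring

theorem mem_Rs {g : GL (Fin 5) F} : g ∈ R.Rs ↔ ∃ c a b, g = R.el c a b := Iff.rfl

theorem gX_eq : R.gX = R.el 0 1 0 := by simp [el, gX]
theorem gA_eq : (gA : GL (Fin 5) F) = R.el 0 0 1 := by
  refine Units.ext (Matrix.ext fun i j => ?_)
  simp [el_apply, val_gA, e_zero]
theorem gZ_eq : R.gZ = R.el 1 0 0 := by simp [el, gZ]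

theorem gX_mem : R.gX ∈ R.Rs := ⟨_, _, _, R.gX_eq⟩
theorem gA_mem : gA ∈ R.Rs := ⟨_, _, _, R.gA_eq⟩
theorem el_mem (c a b : Fin 5) : R.el c a b ∈ R.Rs := ⟨_, _, _, rfl⟩

end Root5

end Cfsg.Agent.SUFive.Symp
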