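import Cfsg.Agent.SUFive.SympKernel

/-!
The centraliser of `J` in a proper overgroup, odd characteristic: its only involution is `J` and
its odd normal subgroups consist of scalars.
-/

set_option autoImplicit false
set_option linter.unusedSectionVars false
set_option linter.style.haveILetI false

namespace Cfsg.Agent.SUFive.Symp

open Matrix Cfsg.Geo Cfsg.Agent.Classical.U
open scoped MatrixGroups Fin.CommRing Fin.NatCast

universe u

variable {F : Type u} [Field F] {q : ℕ}

def qZ : Matrix (Fin 5) (Fin 5) ℤ :=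
  !![-1, 0, 0, 0, 0; 0, 1, 0, 0, 0; 0, 0, 0, 1, 0; 0, 0, 1, 0, 0; 0, 0, 0, 0, 1]

def dqZ : Matrix (Fin 5) (Fin 5) ℤ := diagonal ![-1, -1, 1, 1, 1]

/-- A signed transposition. -/
def gV : GL (Fin 5) F := zG F qZ qZ (by decide +kernel) (by decide +kernel)

theorem val_gV : ((gV : GL (Fin 5) F) : Matrix (Fin 5) (Fin 5) F) = zM qZ := rfl

theorem gV_cube : (((gV : GL (Fin 5) F) * (gA * gV * gA ^ 4)) ^ 3 : GL (Fin 5) F).val =
    diagonal ![-1, -1, 1, 1, 1] := by
  have h : (((gV : GL (Fin 5) F) * (gA * gV * gA ^ 4)) ^ 3 : GL (Fin 5) F).val = zM dqZ := by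
    simp only [Units.val_mul, Units.val_pow_eq_pow_val]
    show (zM qZ * (zM aZ * zM qZ * zM aZ ^ 4)) ^ 3 = (zM dqZ : Matrix (Fin 5) (Fin 5) F)
    simp only [zM, ← map_mul, ← map_pow]
    exact congrArg _ (by decide +kernel)
  rw [h]
  ext i j
  fin_cases i <;> fin_cases j <;> simp [zM, dqZ]

namespace URoot5

variable (R : URoot5 F q)

theorem gH_pow_five : R.gH ^ 5 = 1 := by
  have hT : R.gT ^ 5 = (1 : GL (Fin 5) F) := by
    refine Units.ext ?_
    rw [Units.val_pow_eq_pow_val, Root5.gT, R.val_dG, diagonal_pow, Units.val_one, ← diagonal_one]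
    congr 1; funext i; simp [R.pow_e]
  rw [gH, conj_pow, hT, mul_one, mul_inv_cancel]

theorem rM_hJ_ne (i j : Fin 2) : (rM R.hJ : Matrix (Fin 2) (Fin 2) F) i j ≠ 0 := by
  have key : ∀ a b : Fin 5, a ≠ b → R.s⁻¹ * R.e a - R.s⁻¹ * R.e b ≠ 0 := fun a b h => by
    rw [← mul_sub]
    exact mul_ne_zero (inv_ne_zero R.s_ne) (sub_ne_zero.2 fun e => h (R.e_inj e))
  rw [val_rM]
  show matM (R.gH : Matrix (Fin 5) (Fin 5) F) i j ≠ 0
  fin_cases i <;> fin_cases j <;> simp only [matM, R.val_gH] <;>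
    exact key _ _ (by decide)

end URoot5

theorem jJ_sq : (⟨gJ, gJ_mem_CJ⟩ : CJ F) * ⟨gJ, gJ_mem_CJ⟩ = 1 := Subtype.ext gJ_sq

/-- A unitary involution of determinant minus one is conjugate in `SU₂` to `diag(1, -1)`. -/
theorem exists_diagonalise (hF : SqField F q) (h2 : (2 : F) ≠ 0) {A : GL (Fin 2) F}
    (hA : A ∈ Cfsg.GU 2 F q) (hAA : A * A = 1)
    (hns : ¬ ∃ k : F, (A : Matrix (Fin 2) (Fin 2) F) = k • 1) :
    (A : Matrix (Fin 2) (Fin 2) F).det = -1 ∧ ∃ Q ∈ ClassicalMax.suGL 2 F q,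
      (A : Matrix (Fin 2) (Fin 2) F) * (Q : Matrix (Fin 2) (Fin 2) F) =
        (Q : Matrix (Fin 2) (Fin 2) F) * !![1, 0; 0, -1] := by
  set M := (A : Matrix (Fin 2) (Fin 2) F) with hM
  have hMM : M * M = 1 := by rw [hM, ← Units.val_mul, hAA, Units.val_one]
  have hsym : M.map (Forms.sqConj hF) = Mᵀ := by
    have h := (Elusive25.mem_GU_iff_gram hF A).1 hA
    rw [← hM] at h
    have h' : Mᵀ * Mᵀ = 1 := by rw [← transpose_mul, hMM, transpose_one]
    calc M.map (Forms.sqConj hF) = (Mᵀ * Mᵀ) * M.map (Forms.sqConj hF) := by rw [h', one_mul]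
      _ = Mᵀ := by rw [mul_assoc, h, mul_one]
  have s00 := congrFun (congrFun hsym 0) 0
  have s01 := congrFun (congrFun hsym 0) 1
  have s10 := congrFun (congrFun hsym 1) 0
  simp only [map_apply, transpose_apply, Forms.sqConj_apply] at s00 s01 s10
  have e00 := congrFun (congrFun hMM 0) 0
  have e01 := congrFun (congrFun hMM 0) 1
  have e10 := congrFun (congrFun hMM 1) 0
  have e11 := congrFun (congrFun hMM 1) 1
  simp [Matrix.mul_apply, Fin.sum_univ_two] at e00 e01 e10 e11
  have htr : M 1 1 = -M 0 0 := by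
    by_contra hne
    have ht : M 0 0 + M 1 1 ≠ 0 := fun e => hne (eq_neg_of_add_eq_zero_right e)
    have b0 : M 0 1 = 0 := (mul_eq_zero.1 (show M 0 1 * (M 0 0 + M 1 1) = 0 by
      linear_combination e01)).resolve_right ht
    have c0 : M 1 0 = 0 := (mul_eq_zero.1 (show M 1 0 * (M 0 0 + M 1 1) = 0 by
      linear_combination e10)).resolve_right ht
    rw [b0, zero_mul, add_zero] at e00
    rw [c0, zero_mul, zero_add] at e11
    refine hns ⟨M 0 0, ?_⟩
    have : M 1 1 = M 0 0 := by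
      rcases mul_self_eq_one_iff.1 e00 with e | e <;>
        rcases mul_self_eq_one_iff.1 e11 with e' | e' <;>
          first
            | exact e'.trans e.symm
            | exact absurd (by simp [e, e']) hne
    ext i j; fin_cases i <;> fin_cases j <;> simp [b0, c0, this]
  refine ⟨by rw [det_fin_two, htr]; linear_combination -e00, ?_⟩
  by_cases ha : M 0 0 = -1
  · have hbc : M 0 1 * M 1 0 = 0 := by rw [ha] at e00; linear_combination e00
    have b0 : M 0 1 = 0 := by
      rw [← s01] at hbc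
      rcases mul_eq_zero.1 hbc with e | e
      · exact e
      · exact eq_zero_of_pow_eq_zero e
    have c0 : M 1 0 = 0 := by rw [← s01, b0, zero_pow hF.q_ne_zero]
    obtain ⟨Q, hQ⟩ : IsUnit (!![0, -1; 1, 0] : Matrix (Fin 2) (Fin 2) F) := by
      rw [Matrix.isUnit_iff_isUnit_det, det_fin_two_of]; simp
    refine ⟨Q, ⟨mem_GU_two hF fun a b => ?_, GeoClasses.mem_specialLinear_iff.2 (by
      rw [hQ, det_fin_two_of]; ring)⟩, ?_⟩
    · rw [hQ]
      fin_cases a <;> fin_cases b <;> simp [hF.q_ne_zero, hF.neg_pow]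
    · rw [hQ]
      ext i j; fin_cases i <;> fin_cases j <;>
        simp [Matrix.mul_apply, Fin.sum_univ_two, ha, b0, c0, htr]
  · have hn : (2 : F) + 2 * M 0 0 ≠ 0 := fun e => ha (mul_left_cancel₀ h2 (by linear_combination e))
    obtain ⟨r, hr⟩ := hF.exists_norm (c := ((2 : F) + 2 * M 0 0)⁻¹) (by
      rw [inv_pow, hF.add_pow, mul_pow, q_map_two hF, s00])
    have hr' : r * r ^ q = ((2 : F) + 2 * M 0 0)⁻¹ := by rw [← pow_succ']; exact hr
    have hone : r * r ^ q * ((1 + M 0 0) * (1 + M 0 0) + M 0 1 * M 1 0) = 1 := by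
      rw [hr', show (1 + M 0 0) * (1 + M 0 0) + M 0 1 * M 1 0 = 2 + 2 * M 0 0 by
        linear_combination e00, inv_mul_cancel₀ hn]
    have hdet : Matrix.det (!![r * (1 + M 0 0), -(M 0 1 * r ^ q); r * M 1 0, (1 + M 0 0) * r ^ q] :
        Matrix (Fin 2) (Fin 2) F) = 1 := by
      rw [det_fin_two_of]; linear_combination hone
    obtain ⟨Q, hQ⟩ : IsUnit (!![r * (1 + M 0 0), -(M 0 1 * r ^ q); r * M 1 0, (1 + M 0 0) * r ^ q] :
        Matrix (Fin 2) (Fin 2) F) := by
      rw [Matrix.isUnit_iff_isUnit_det, hdet]; exact isUnit_one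
    refine ⟨Q, ⟨mem_GU_two hF fun a b => ?_,
      GeoClasses.mem_specialLinear_iff.2 (by rw [hQ, hdet])⟩, ?_⟩
    · rw [hQ]
      fin_cases a <;> fin_cases b <;>
        simp [mul_pow, hF.pow_pow, hF.neg_pow, hF.add_pow, s00, s01, s10]
      · linear_combination hone
      · ring
      · ring
      · linear_combination hone
    · rw [hQ]
      ext i j
      fin_cases i <;> fin_cases j <;> simp [Matrix.mul_apply, Fin.sum_univ_two, htr]
      · linear_combination r * e00
      · ring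
      · ring
      · linear_combination (-(r ^ q)) * e00

variable [Finite F] {p : ℕ} {R : URoot5 F q} {M : Subgroup (GL (Fin 5) F)}

namespace Proper

variable (P : Proper p R M)
include P

theorem eq_one_of_rM {t : CJ F} (ht : (t : GL (Fin 5) F) ∈ M) (h : rM t = 1) : t = 1 :=
  Subgroup.mem_bot.1 (P.kerM_eq_bot ▸ mem_kerM.2 ⟨ht, h⟩)

theorem commute_of_rM {n t : CJ F} (hn : (n : GL (Fin 5) F) ∈ M) (ht : (t : GL (Fin 5) F) ∈ M)
    (h : rM n * rM t = rM t * rM n) : n * t = t * n := by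
  have h1 := Subgroup.mem_bot.1 (P.kerM_eq_bot ▸ P.commutator_mem_kerM hn ht h)
  rwa [mul_inv_eq_one, mul_inv_eq_iff_eq_mul] at h1

/-- Scalar on the `-1`-space means scalar on both eigenspaces. -/
theorem scalar_shape {n : CJ F} (hn : (n : GL (Fin 5) F) ∈ M) {k : F}
    (hk : (rM n : Matrix (Fin 2) (Fin 2) F) = k • 1) :
    ∃ δ : F, (rP n : Matrix (Fin 3) (Fin 3) F) = δ • 1 ∧ (δ = k ∨ δ = -k) ∧
      δ * (k * δ) * (k * δ) = 1 := by
  have hc : ∀ t : CJ F, (t : GL (Fin 5) F) ∈ M → n * t = t * n := fun t ht =>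
    P.commute_of_rM hn ht (Units.ext (by rw [Units.val_mul, Units.val_mul, hk]; simp))
  obtain ⟨δ, γ, ε, hd, hγ, hε, hdet⟩ :=
    P.shape hn (congrArg Subtype.val (hc R.tJ P.con.hT)) hk
  have h := congrArg (fun x : CJ F => ((rP x : GL (Fin 3) F) : Matrix (Fin 3) (Fin 3) F))
    (hc R.hJ P.con.hH)
  simp only [map_mul, Units.val_mul, hd] at h
  have e1 := congrFun (congrFun h 0) 1
  have e2 := congrFun (congrFun h 0) 2
  rw [diagonal_mul, mul_diagonal] at e1 e2
  simp at e1 e2
  have hγ' : γ = δ := mul_left_cancel₀ (R.rP_hJ_ne P.two 0 1) (by linear_combination -e1)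
  have hε' : ε = δ := mul_left_cancel₀ (R.rP_hJ_ne P.two 0 2) (by linear_combination -e2)
  rw [hγ'] at hd hγ hdet
  rw [hε'] at hd hdet
  refine ⟨δ, ?_, hγ, hdet⟩
  rw [hd, smul_one_eq_diagonal]
  congr 1; funext i; fin_cases i <;> rfl

/-- A diagonal element has entries fifth roots of unity. -/
theorem diag_pow_five {d : GL (Fin 5) F} (hd : d ∈ M) {v : Fin 5 → F}
    (hv : (d : Matrix (Fin 5) (Fin 5) F) = diagonal v) (i : Fin 5) : v i ^ 5 = 1 := by
  set k : ℕ := ((-i : Fin 5) : ℕ)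
  set d' := gA ^ k * d * (gA ^ k)⁻¹ with hd'
  have hd'v : (d' : Matrix (Fin 5) (Fin 5) F) = diagonal fun a => v (a + i) := by
    ext a b
    rw [hd', gA_pow_conj_apply, hv, Fin.cast_val_eq_self, sub_neg_eq_add, sub_neg_eq_add,
      diagonal_apply, diagonal_apply]
    simp only [add_left_inj]
  set b := d' * (gJ * d' * gJ⁻¹) with hb
  have hbv : (b : Matrix (Fin 5) (Fin 5) F) = diagonal fun a => v (a + i) * v (-a + i) := by
    have hJd : ((gJ * d' * gJ⁻¹ : GL (Fin 5) F) : Matrix (Fin 5) (Fin 5) F) =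
        diagonal fun a => v (-a + i) := by
      ext a c
      have h := congrArg (fun x : GL (Fin 5) F => (x : Matrix (Fin 5) (Fin 5) F) a (-c))
        (inv_mul_cancel_right (gJ * d' : GL (Fin 5) F) gJ)
      simp only [Units.val_mul, mul_gJ_apply, gJ_mul_apply, neg_neg, hd'v] at h
      rw [Units.val_mul, Units.val_mul, hd'v, h, diagonal_apply, diagonal_apply]
      simp only [neg_inj]
    rw [hb, Units.val_mul, hd'v, hJd, diagonal_mul_diagonal]
  set e := b * (gS * b * gS⁻¹) with he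
  set w : Fin 5 → F := fun a => v (a + i) * v (-a + i) with hw
  have hev : (e : Matrix (Fin 5) (Fin 5) F) = diagonal fun a => w a * w (3 * a) := by
    rw [he, Units.val_mul, hbv]
    ext a c
    rw [diagonal_mul, gS_conj_apply, hbv, diagonal_apply, diagonal_apply]
    by_cases h : a = c
    · rw [if_pos h, if_pos (by rw [h])]
    · rw [if_neg h, if_neg fun e => h ((by decide : ∀ a c : Fin 5, 3 * a = 3 * c → a = c) a c e),
        mul_zero]
  have heM : e ∈ M := by
    have hd'M := P.gA_conj_mem hd k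
    have hbM : b ∈ M := mul_mem hd'M (mul_mem (mul_mem P.con.hJ hd'M) (inv_mem P.con.hJ))
    exact mul_mem hbM (P.gS_conj_mem hbM)
  have heJ : e ∈ CJ F := mem_CJ.2 (commute_gJ_iff.2 fun a c => by
    rw [hev, diagonal_apply, diagonal_apply]
    simp only [neg_inj]
    refine if_congr Iff.rfl ?_ rfl
    simp only [hw, mul_neg, neg_neg]
    ring)
  have w4 : w 4 = w 1 := by
    simp only [hw, show (-4 : Fin 5) = 1 from rfl, show (-1 : Fin 5) = 4 from rfl]; ring
  have w3 : w 3 = w 2 := by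
    simp only [hw, show (-3 : Fin 5) = 2 from rfl, show (-2 : Fin 5) = 3 from rfl]; ring
  have hk : (rM (⟨e, heJ⟩ : CJ F) : Matrix (Fin 2) (Fin 2) F) = (w 1 * w 3) • 1 := by
    rw [val_rM, show ((⟨e, heJ⟩ : CJ F) : GL (Fin 5) F) = e from rfl, hev]
    ext a c
    fin_cases a <;> fin_cases c <;>
      simp [matM, diagonal, show (3 : Fin 5) * 2 = 1 from rfl, w3, w4, mul_comm]
  obtain ⟨δ, hP, -, -⟩ := P.scalar_shape (n := ⟨e, heJ⟩) heM hk
  rw [val_rP, show ((⟨e, heJ⟩ : CJ F) : GL (Fin 5) F) = e from rfl, hev] at hP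
  have p0 := congrFun (congrFun hP 0) 0
  have p1 := congrFun (congrFun hP 1) 1
  simp [matP, diagonal, show (3 : Fin 5) * 0 = 0 from rfl] at p0 p1
  have hdet := P.con.det_eq hd
  rw [hv, det_diagonal] at hdet
  have hperm : (∏ a, v a) = ∏ a, v (a + i) :=
    (Fintype.prod_equiv (Equiv.addRight i) _ _ fun _ => rfl).symm
  rw [hperm, Fin.prod_univ_five] at hdet
  have h00 : w 0 * w 0 = w 1 * w 3 := by rw [p0, p1]
  simp only [hw, neg_zero, zero_add, show (-1 : Fin 5) = 4 from rfl,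
    show (-3 : Fin 5) = 2 from rfl] at h00
  simp only [zero_add] at hdet
  linear_combination (v i) * h00 + hdet

theorem neg_one_pow_five_ne : (-1 : F) ^ 5 ≠ 1 := fun h => P.two (by
  rw [(show Odd 5 by decide).neg_one_pow] at h; linear_combination -h)

/-- An element trivial on the `+1`-space is trivial on both when the other is covered. -/
theorem false_of_rP (hb : Covers q ((M.subgroupOf (CJ F)).map rM)) {u : CJ F}
    (hu : (u : GL (Fin 5) F) ∈ M) (hP : (rP u : Matrix (Fin 3) (Fin 3) F) = (-1 : F) • 1)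
    (hM : (rM u : Matrix (Fin 2) (Fin 2) F) = !![1, 0; 0, -1]) : False := by
  let N : Subgroup (GL (Fin 2) F) :=
    (M.subgroupOf (CJ F) ⊓ (rP (F := F)).ker).map rM ⊓ ClassicalMax.suGL 2 F q
  set c := u * R.hJ * u⁻¹ * R.hJ⁻¹ with hc
  have hcM : (c : GL (Fin 5) F) ∈ M :=
    mul_mem (mul_mem (mul_mem hu P.con.hH) (inv_mem hu)) (inv_mem P.con.hH)
  have hcP : rP c = 1 := by
    have hcm : rP u * rP R.hJ = rP R.hJ * rP u :=
      Units.ext (by rw [Units.val_mul, Units.val_mul, hP]; simp)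
    simp only [hc, map_mul, map_inv]
    rw [hcm, mul_assoc, mul_assoc, mul_inv_cancel_left, mul_inv_cancel]
  have hcN : rM c ∈ N := by
    refine ⟨⟨c, ⟨hcM, hcP⟩, rfl⟩, rM_mem_GU R.sq P.two c (P.mem_GU hcM), ?_⟩
    show Matrix.GeneralLinearGroup.det (rM c) = 1
    simp only [hc, map_mul, map_inv]
    rw [mul_right_comm (Matrix.GeneralLinearGroup.det (rM u)), mul_inv_cancel, one_mul,
      mul_inv_cancel]
  have hns : ¬ ∃ a : F, (rM c : Matrix (Fin 2) (Fin 2) F) = a • 1 := by
    rintro ⟨a, ha⟩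
    have h := congrArg Units.val (show rM u * rM R.hJ = rM c * (rM R.hJ * rM u) by
      simp only [hc, map_mul, map_inv]; group)
    rw [Units.val_mul, Units.val_mul, Units.val_mul, ha, hM, smul_mul_assoc, one_mul] at h
    have e00 := congrFun (congrFun h 0) 0
    have e01 := congrFun (congrFun h 0) 1
    simp [Matrix.mul_apply, Matrix.vecMul, dotProduct, Fin.sum_univ_two] at e00 e01
    have a1 : a = 1 := mul_right_cancel₀ (R.rM_hJ_ne 0 0) (by linear_combination -e00)
    rw [a1, one_mul] at e01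
    exact R.rM_hJ_ne 0 1 ((mul_eq_zero.1 (show (2 : F) * _ = 0 by
      linear_combination e01)).resolve_left P.two)
  have hall := suGL_two_le_of_normalised R.sq P.four_le (N := N) inf_le_right
    (fun S hS A hA => by
      obtain ⟨⟨a, ha, rfl⟩, hAsu⟩ := hA
      refine ⟨?_, ClassicalMax.suGL_conj_mem hS.1 hAsu⟩
      obtain ⟨k, hk, -, ⟨t, ht, rfl⟩, e⟩ := hb S hS
      obtain ⟨ha1, ha2⟩ := Subgroup.mem_inf.1 ha
      refine ⟨t * a * t⁻¹, Subgroup.mem_inf.2 ⟨Subgroup.mul_mem _ (Subgroup.mul_mem _ ht ha1)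
        (Subgroup.inv_mem _ ht), (MonoidHom.normal_ker rP).conj_mem a ha2 t⟩, ?_⟩
      rw [map_mul, map_mul, map_inv, mul_inv_eq_iff_eq_mul]
      refine Units.ext ?_
      simp only [Units.val_mul, e, smul_mul_assoc, mul_smul_comm, mul_assoc, Units.inv_mul,
        mul_one])
    ⟨rM c, hcN, hns⟩
  obtain ⟨⟨m, ⟨hmM, hmP⟩, hme⟩, -⟩ := hall R.r1_xT_suGL
  have hmT : Commute (m : GL (Fin 5) F) R.gT := by
    refine congrArg Subtype.val (show m * R.tJ = R.tJ * m from ?_)
    refine eq_of_blocks P.two ?_ ?_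
    · rw [map_mul, map_mul, hme]
      refine Units.ext ?_
      rw [Units.val_mul, Units.val_mul, R.r1_xT, R.rM_tJ]
    · rw [map_mul, map_mul, MonoidHom.mem_ker.1 hmP, one_mul, mul_one]
  obtain ⟨-, -, -, -, a44, a41, -, -, -, -, -, -⟩ := CJ_eqs m.2
  have h1 := congrArg (fun g : GL (Fin 2) F => (g : Matrix (Fin 2) (Fin 2) F) 0 0) hme
  have h2 := congrArg (fun g : GL (Fin 3) F => (g : Matrix (Fin 3) (Fin 3) F) 1 1)
    (MonoidHom.mem_ker.1 hmP)
  rw [R.r1_xT] at h1
  simp [val_rM, val_rP, matM, matP, Subgroup.subtype_apply] at h1 h2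
  rcases mul_eq_zero.1 (P.mul_eq_zero_one (show (m : GL (Fin 5) F) ∈ M from hmM) hmT (mem_CJ.1 m.2)) with e | e
  · have : R.e 1 ^ 5 = (-1 : F) ^ 5 := by congr 1; linear_combination 2 * e - h1 - h2
    rw [R.pow_e] at this
    exact P.neg_one_pow_five_ne this.symm
  · have : R.e 1 = 1 := by linear_combination -2 * e - h1 + h2
    exact absurd (R.e_eq_one.1 this) (by decide)

theorem image_le : (M.subgroupOf (CJ F)).map rM ≤ Cfsg.GU 2 F q := by
  rintro _ ⟨t, ht, rfl⟩
  exact rM_mem_GU R.sq P.two t (P.mem_GU ht)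

theorem image_cases : Nonempty (((M.subgroupOf (CJ F)).map rM).map ProjGenLinGroup.mk ≃*
    alternatingGroup (Fin 5)) ∨ Covers q ((M.subgroupOf (CJ F)).map rM) := by
  rcases plane_cases R.sq P.hp P.hc P.hq P.two R.pow_five R.ne_one P.image_le
      (x := rM R.tJ) ⟨R.tJ, P.con.hT, rfl⟩ (by rw [R.rM_tJ, R.e_one]; rfl) with hm | h
  · rcases hm _ ⟨R.hJ, P.con.hH, rfl⟩ with ⟨e, -⟩ | ⟨e, -⟩
    · exact absurd e (R.rM_hJ_ne 0 0)
    · exact absurd e (R.rM_hJ_ne 0 1)
  · exact h

/-- The only involution of `C_M(J)` is `J`. -/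
theorem involution_eq {u : GL (Fin 5) F} (hu : u ∈ M) (hJ : Commute u gJ) (h2 : u * u = 1) :
    u = 1 ∨ u = gJ := by
  classical
  let U : CJ F := ⟨u, mem_CJ.2 hJ⟩
  have hUU : U * U = 1 := Subtype.ext h2
  have hAA : rM U * rM U = 1 := by rw [← map_mul, hUU, map_one]
  let jJ : CJ F := ⟨gJ, gJ_mem_CJ⟩
  by_cases hns : ∃ k : F, (rM U : Matrix (Fin 2) (Fin 2) F) = k • 1
  · obtain ⟨k, hk⟩ := hns
    have h := congrArg (fun g : GL (Fin 2) F => (g : Matrix (Fin 2) (Fin 2) F) 0 0) hAA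
    rw [Units.val_mul, hk] at h
    simp at h
    rcases mul_self_eq_one_iff.1 h with rfl | rfl
    · left
      exact congrArg Subtype.val (P.eq_one_of_rM (t := U) hu (Units.ext (by rw [hk, one_smul, Units.val_one])))
    · right
      have h1 := P.eq_one_of_rM (t := U * jJ) (mul_mem hu P.con.hJ) (Units.ext (by
        rw [map_mul, Units.val_mul, hk, rM_gJ, Units.val_neg, Units.val_one]; simp))
      have h1' := congrArg Subtype.val h1
      calc u = u * gJ * gJ := by rw [mul_assoc, gJ_sq, mul_one]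
        _ = gJ := by rw [show u * gJ = 1 from h1', one_mul]
  exfalso
  obtain ⟨hdet, Q, hQ, hAQ⟩ :=
    exists_diagonalise R.sq P.two (rM_mem_GU R.sq P.two U (P.mem_GU hu)) hAA hns
  rcases P.image_cases with hf | hb
  · obtain ⟨f⟩ := hf
    set T := M.subgroupOf (CJ F) with hT
    set H' := (T.map rM).map ProjGenLinGroup.mk
    let π : T →* H' := ((ProjGenLinGroup.mk.comp rM).comp T.subtype).codRestrict H'
      fun t => ⟨_, ⟨t.1, t.2, rfl⟩, rfl⟩
    let x : T := ⟨R.tJ, P.con.hT⟩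
    let y : T := ⟨R.hJ, P.con.hH⟩
    haveI : Fact (Nat.Prime 5) := ⟨by norm_num⟩
    have ord : ∀ z : T, (rM z.1) ^ 5 = 1 → (¬ ∃ c : F, (rM z.1 : Matrix (Fin 2) (Fin 2) F) = c • 1) →
        orderOf (π z) = 5 := by
      intro z h5 hne
      refine orderOf_eq_prime ?_ fun h => ?_
      · refine Subtype.ext ?_
        rw [SubgroupClass.coe_pow]
        show ProjGenLinGroup.mk (rM z.1) ^ 5 = 1
        rw [← map_pow, h5, map_one]
      · obtain ⟨c, -, hc⟩ := mk_eq_one_smul (A := rM z.1) (congrArg Subtype.val h)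
        exact hne ⟨c, hc⟩
    have hx5 : rM R.tJ ^ 5 = 1 := by
      refine Units.ext ?_
      rw [Units.val_pow_eq_pow_val, R.rM_tJ, show !![R.e 1, 0; 0, R.e 4] = diagonal ![R.e 1, R.e 4]
        by ext i j; fin_cases i <;> fin_cases j <;> simp, diagonal_pow, Units.val_one, ← diagonal_one]
      congr 1; funext i; fin_cases i <;> simp [R.pow_e]
    have hy5 : rM R.hJ ^ 5 = 1 := by
      rw [← map_pow, show R.hJ ^ 5 = 1 from Subtype.ext (by rw [SubgroupClass.coe_pow]; exact R.gH_pow_five),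
        map_one]
    have hox := ord x hx5 (by
      rintro ⟨c, hc⟩
      rw [show rM x.1 = rM R.tJ from rfl, R.rM_tJ] at hc
      have h0 := congrFun (congrFun hc 0) 0
      have h1 := congrFun (congrFun hc 1) 1
      simp at h0 h1
      exact absurd (R.e_inj (h0.trans h1.symm)) (by decide))
    have hoy := ord y hy5 (by
      rintro ⟨c, hc⟩
      have h := congrFun (congrFun hc 0) 1
      simp at h
      exact R.rM_hJ_ne 0 1 h)
    have hxy : π x * π y ≠ π y * π x := by
      intro h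
      have h' := congrArg Subtype.val h
      obtain ⟨c, -, hc⟩ := mk_smul_of_eq (A := rM R.hJ * rM R.tJ) (B := rM R.tJ * rM R.hJ) (by
        rw [map_mul, map_mul]; exact h'.symm)
      rw [Units.val_mul, Units.val_mul] at hc
      exact R.rM_hJ_ne 0 1 (diag_of_comm R.rM_tJ (R.e_sq_ne (by decide)) hc).1
    have htop : (Subgroup.closure {x, y}).map π = ⊤ := by
      apply Subgroup.map_injective (f := f.toMonoidHom) f.injective
      rw [Subgroup.map_map, MonoidHom.map_closure, Set.image_pair,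
        Subgroup.map_top_of_surjective _ f.surjective]
      exact MaxSub.CSixFive.Plane.a5_closure ((f.orderOf_eq _).trans hox) ((f.orderOf_eq _).trans hoy)
        (fun h => hxy (f.injective (by rw [map_mul, map_mul]; exact h)))
    let D : Subgroup T :=
      (((powMonoidHom 5).comp (Matrix.GeneralLinearGroup.det.comp rM)).comp T.subtype).ker
    have hD : Subgroup.closure {x, y} ≤ D := by
      rw [Subgroup.closure_le]
      rintro z (rfl | rfl) <;> rw [SetLike.mem_coe, MonoidHom.mem_ker] <;>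
        simp only [MonoidHom.comp_apply, powMonoidHom_apply, Subgroup.coe_subtype]
      · rw [← map_pow, show rM x.1 ^ 5 = 1 from hx5, map_one]
      · rw [← map_pow, show rM y.1 ^ 5 = 1 from hy5, map_one]
    obtain ⟨w, hw, hwe⟩ : π ⟨U, hu⟩ ∈ (Subgroup.closure {x, y}).map π := by
      rw [htop]; exact Subgroup.mem_top _
    set n := w⁻¹ * ⟨U, hu⟩ with hn
    obtain ⟨k, -, hk⟩ := mk_eq_one_smul (A := rM n.1) (congrArg Subtype.val (show π n = 1 by
      rw [hn, map_mul, map_inv, hwe, inv_mul_cancel]))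
    obtain ⟨δ, -, hδ, hd1⟩ :=
      P.scalar_shape (n := n.1) (show ((n.1 : CJ F) : GL (Fin 5) F) ∈ M from n.2) hk
    have hn10 : (k * k) ^ 5 = 1 := by
      rcases hδ with e | e <;> rw [e] at hd1
      · linear_combination (k ^ 5 + 1) * hd1
      · linear_combination (1 - k ^ 5) * hd1
    have hwD := MonoidHom.mem_ker.1 (hD hw)
    simp only [MonoidHom.comp_apply, powMonoidHom_apply, Subgroup.coe_subtype] at hwD
    have hU : rM U = rM w.1 * rM n.1 := by
      rw [← map_mul]; congr 1; rw [hn]; simp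
    have e := congrArg (fun g : GL (Fin 2) F => (Matrix.GeneralLinearGroup.det g) ^ 5) hU
    simp only [map_mul, mul_pow, hwD, one_mul] at e
    have e' := congrArg Units.val e
    rw [Units.val_pow_eq_pow_val, Units.val_pow_eq_pow_val,
      Matrix.GeneralLinearGroup.val_det_apply, Matrix.GeneralLinearGroup.val_det_apply, hdet, hk,
      det_smul, det_one, Fintype.card_fin, mul_one, sq, hn10] at e'
    exact P.neg_one_pow_five_ne e'
  · obtain ⟨c, hc, -, ⟨t, ht, rfl⟩, hte⟩ := hb Q hQ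
    set V := t⁻¹ * U * t with hV
    have hVM : (V : GL (Fin 5) F) ∈ M := mul_mem (mul_mem (inv_mem ht) hu) ht
    have hVV : V * V = 1 := by
      rw [hV, show t⁻¹ * U * t * (t⁻¹ * U * t) = t⁻¹ * (U * U) * t by group, hUU, mul_one,
        inv_mul_cancel]
    have hVr : (rM V : Matrix (Fin 2) (Fin 2) F) = !![1, 0; 0, -1] := by
      have h1 : rM U * rM t = rM t * rM V := by simp only [hV, map_mul, map_inv]; group
      have h1' := congrArg Units.val h1
      rw [Units.val_mul, Units.val_mul, hte, mul_smul_comm, hAQ, smul_mul_assoc] at h1'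
      exact (Units.mul_right_inj Q).1 (smul_right_injective _ hc h1').symm
    have hVT : Commute (V : GL (Fin 5) F) R.gT := by
      refine congrArg Subtype.val (P.commute_of_rM (t := R.tJ) hVM P.con.hT (Units.ext ?_))
      rw [Units.val_mul, Units.val_mul, hVr, R.rM_tJ]
      ext i j; fin_cases i <;> fin_cases j <;> simp [Matrix.mul_apply]
    obtain ⟨-, -, -, -, a44, a41, -, -, -, -, a32, a33⟩ := CJ_eqs V.2
    have hm := R.CT_eqs (R.mem_CT.2 hVT)
    obtain ⟨b1, b2, b3, b4, b5, b6, b7, b8, b9, b10, b11, b12, b13, b14, b15, b16⟩ := hm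
    have c1 := congrFun (congrFun hVr 0) 0
    have c2 := congrFun (congrFun hVr 1) 1
    simp [val_rM, matM] at c1 c2
    have hdV := P.con.det_eq hVM
    rw [det_CT _ (R.mem_CT.2 hVT), a44, a41, a32, a33] at hdV
    set G := ((V : GL (Fin 5) F) : Matrix (Fin 5) (Fin 5) F) with hG
    have hfull : G = !![G 0 0, 0, 0, 0, 0; 0, G 1 1, 0, 0, G 1 4; 0, 0, G 2 2, G 2 3, 0;
        0, 0, G 2 3, G 2 2, 0; 0, G 1 4, 0, 0, G 1 1] := by
      ext i j
      fin_cases i <;> fin_cases j <;>
        simp [G, a44, a41, a32, a33, b1, b2, b3, b4, b5, b6, b7, b8, b9, b10, b11, b12, b13, b14, b15, b16]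
    rcases mul_eq_zero.1 (P.mul_eq_zero_one hVM hVT (mem_CJ.1 V.2)) with e | e <;>
      rcases mul_eq_zero.1 (P.mul_eq_zero_two hVM hVT (mem_CJ.1 V.2)) with f | f <;>
      rw [← hG] at e f
    · -- both swapped: times `J` it is diagonal
      have e' : G 1 4 = -1 := by linear_combination e - c1
      have f' : G 2 3 = 1 := by linear_combination f - c2
      have hd : (((V : GL (Fin 5) F) * gJ : GL (Fin 5) F) : Matrix (Fin 5) (Fin 5) F) =
          diagonal ![G 0 0, -1, 1, 1, -1] := by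
        rw [Units.val_mul, ← hG, hfull, e, e', f, f']
        ext i j
        rw [mul_gJ_apply]
        fin_cases i <;> fin_cases j <;>
          simp [neg_one_five, neg_two_five, neg_three_five, neg_four_five]
      exact P.neg_one_pow_five_ne (P.diag_pow_five (mul_mem hVM P.con.hJ) hd 1)
    · -- minus a transposition: scalar on the `+1`-space
      have e' : G 1 4 = -1 := by linear_combination e - c1
      have f' : G 2 2 = -1 := by linear_combination c2 + f
      have g0 : G 0 0 = -1 := by rw [e, e', f, f'] at hdV; linear_combination -hdV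
      refine P.false_of_rP hb hVM ?_ hVr
      rw [val_rP, ← hG, hfull, e, e', f, f', g0]
      ext i j; fin_cases i <;> fin_cases j <;> simp [matP]
    · have e' : G 1 1 = 1 := by linear_combination c1 + e
      have f' : G 2 3 = 1 := by linear_combination f - c2
      have g0 : G 0 0 = -1 := by rw [e, e', f, f'] at hdV; linear_combination -hdV
      have hVg : (V : GL (Fin 5) F) = gV := by
        refine Units.ext ?_
        rw [← hG, hfull, e, e', f, f', g0, val_gV]
        ext i j; fin_cases i <;> fin_cases j <;> simp [zM, qZ]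
      have hgV : (gV : GL (Fin 5) F) ∈ M := hVg ▸ hVM
      exact P.neg_one_pow_five_ne (P.diag_pow_five (pow_mem (mul_mem hgV
        (mul_mem (mul_mem P.con.hA hgV) (pow_mem P.con.hA 4))) 3) gV_cube 0)
    · have e' : G 1 1 = 1 := by linear_combination c1 + e
      have f' : G 2 2 = -1 := by linear_combination c2 + f
      have hd : ((V : GL (Fin 5) F) : Matrix (Fin 5) (Fin 5) F) = diagonal ![G 0 0, 1, -1, -1, 1] := by
        rw [← hG, hfull, e, e', f, f']
        ext i j; fin_cases i <;> fin_cases j <;> simp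
      exact P.neg_one_pow_five_ne (P.diag_pow_five hVM hd 2)

/-- Odd normal subgroups of `C_M(J)` consist of scalars. -/
theorem odd_normal_scalar {N : Subgroup (GL (Fin 5) F)} (hN : N ≤ M ⊓ CJ F)
    (hn : ∀ g ∈ M, g ∈ CJ F → ∀ n ∈ N, g * n * g⁻¹ ∈ N) (hodd : Odd (Nat.card N))
    {n : GL (Fin 5) F} (hnN : n ∈ N) : ∃ c : F, (n : Matrix (Fin 5) (Fin 5) F) = c • 1 := by
  classical
  obtain ⟨hnM, hnJ⟩ := hN hnN
  let U : CJ F := ⟨n, hnJ⟩
  set T := M.subgroupOf (CJ F) with hT
  let N' : Subgroup (CJ F) := N.subgroupOf (CJ F)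
  by_cases hns : ∃ k : F, (rM U : Matrix (Fin 2) (Fin 2) F) = k • 1
  · obtain ⟨k, hk⟩ := hns
    obtain ⟨δ, hδ, hor, hd1⟩ := P.scalar_shape (n := U) hnM hk
    rcases hor with rfl | rfl
    · refine ⟨δ, ?_⟩
      have hc0 : δ ≠ 0 := fun e => by simp [e] at hd1
      let z : GL (Fin 5) F := Units.map (Matrix.scalar (Fin 5)).toMonoidHom (Units.mk0 δ hc0)
      have hz : (z : Matrix (Fin 5) (Fin 5) F) = δ • 1 := by
        show Matrix.scalar (Fin 5) δ = _
        rw [Matrix.scalar_apply, smul_one_eq_diagonal]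
      have hzJ : z ∈ CJ F := mem_CJ.2 (Units.ext (by rw [Units.val_mul, Units.val_mul, hz]; simp))
      have hUz : U = ⟨z, hzJ⟩ := by
        refine eq_of_blocks P.two (Units.ext ?_) (Units.ext ?_)
        · rw [hk, val_rM]
          show _ = matM (z : Matrix (Fin 5) (Fin 5) F)
          rw [hz]
          ext i j; fin_cases i <;> fin_cases j <;> simp [matM]
        · rw [hδ, val_rP]
          show _ = matP (z : Matrix (Fin 5) (Fin 5) F)
          rw [hz]
          ext i j; fin_cases i <;> fin_cases j <;> simp [matP]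
      rw [← hz]
      exact congrArg (fun g : CJ F => ((g : GL (Fin 5) F) : Matrix (Fin 5) (Fin 5) F)) hUz
    · exfalso
      have hk5 : k ^ 5 = -1 := by linear_combination -hd1
      have h5 : U ^ 5 = ⟨gJ, gJ_mem_CJ⟩ := by
        refine eq_of_blocks P.two ?_ ?_
        · rw [map_pow, rM_gJ]
          refine Units.ext ?_
          rw [Units.val_pow_eq_pow_val, hk, smul_pow, one_pow, hk5, Units.val_neg, Units.val_one,
            neg_one_smul]
        · rw [map_pow, rP_gJ]
          refine Units.ext ?_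
          rw [Units.val_pow_eq_pow_val, hδ, smul_pow, one_pow, (show Odd 5 by decide).neg_pow, hk5,
            neg_neg, one_smul, Units.val_one]
      have hJN : (gJ : GL (Fin 5) F) ∈ N := by
        rw [← show ((U ^ 5 : CJ F) : GL (Fin 5) F) = gJ from congrArg Subtype.val h5]
        exact pow_mem hnN 5
      haveI : Fact (Nat.Prime 2) := ⟨Nat.prime_two⟩
      have ho : orderOf (⟨gJ, hJN⟩ : N) = 2 := orderOf_eq_prime (Subtype.ext (by
        rw [SubgroupClass.coe_pow, sq]; exact gJ_sq)) fun h => by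
          have := congrArg (fun g : N => ((g : GL (Fin 5) F) : Matrix (Fin 5) (Fin 5) F) 1 1) h
          simp [val_gJ, show (-1 : Fin 5) = 4 from rfl] at this
      have := orderOf_dvd_natCard (⟨gJ, hJN⟩ : N)
      rw [ho] at this
      exact (Nat.not_even_iff_odd.2 hodd) (even_iff_two_dvd.2 this)
  exfalso
  set H' := (T.map rM).map ProjGenLinGroup.mk
  let π : T →* H' := ((ProjGenLinGroup.mk.comp rM).comp T.subtype).codRestrict H'
    fun t => ⟨_, ⟨t.1, t.2, rfl⟩, rfl⟩
  let X : Subgroup T := N'.subgroupOf T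
  have hXn : X.Normal := ⟨fun a ha t => hn t.1.1 t.2 t.1.2 _ ha⟩
  have hπ : Function.Surjective π := by
    rintro ⟨_, _, ⟨t, ht, rfl⟩, rfl⟩
    exact ⟨⟨t, ht⟩, rfl⟩
  have hXodd : ∀ z ∈ X.map π, z * z = 1 → z = 1 := by
    rintro _ ⟨m, hm, rfl⟩ hz
    have ho : Odd (orderOf (π m)) := by
      refine hodd.of_dvd_nat ((orderOf_map_dvd π m).trans ?_)
      rw [← Subgroup.orderOf_coe, ← Subgroup.orderOf_coe]
      exact Subgroup.orderOf_dvd_natCard N hm
    rcases (Nat.dvd_prime Nat.prime_two).1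
      (orderOf_dvd_of_pow_eq_one (show π m ^ 2 = 1 by rw [sq, hz])) with h | h
    · exact orderOf_eq_one_iff.1 h
    · rw [h] at ho; exact absurd ho (by decide)
  let nT : T := ⟨U, hnM⟩
  rcases P.image_cases with hf | hb
  · obtain ⟨f⟩ := hf
    haveI := (alternatingGroup.isSimpleGroup (α := Fin 5) (by simp))
    haveI := f.isSimpleGroup
    rcases (hXn.map π hπ).eq_bot_or_eq_top with h | h
    · have h1 : π nT = 1 := by
        rw [← Subgroup.mem_bot, ← h]
        exact Subgroup.mem_map_of_mem π hnN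
      obtain ⟨a, -, ha⟩ := mk_eq_one_smul (A := rM U) (congrArg Subtype.val h1)
      exact hns ⟨a, ha⟩
    · have hS : (π ⟨⟨gS, gS_mem_CJ⟩, P.con.hS⟩) ∈ X.map π := by rw [h]; exact Subgroup.mem_top _
      have h1 := congrArg Subtype.val (hXodd _ hS (by
        rw [← map_mul]
        refine Subtype.ext ?_
        show ProjGenLinGroup.mk (rM ((⟨gS, gS_mem_CJ⟩ : CJ F) * ⟨gS, gS_mem_CJ⟩)) = 1
        rw [show (⟨gS, gS_mem_CJ⟩ : CJ F) * ⟨gS, gS_mem_CJ⟩ = ⟨gJ, gJ_mem_CJ⟩ from
          Subtype.ext URoot5.gS_sq, rM_gJ]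
        refine ProjGenLinGroup.mk_eq_one.2 (GeneralLinearGroup.mem_center_iff_val_eq_scalar.2 ⟨-1, ?_⟩)
        rw [Units.val_neg, Units.val_one, map_neg, map_one]))
      obtain ⟨a, -, ha⟩ := mk_eq_one_smul (A := rM ⟨gS, gS_mem_CJ⟩) h1
      rw [rM_gS] at ha
      have := congrFun (congrFun ha 0) 1
      simp at this
  · let NS : Subgroup (GL (Fin 2) F) :=
      ((X.map π).map H'.subtype).comap ProjGenLinGroup.mk ⊓ ClassicalMax.suGL 2 F q
    have key : ∀ S ∈ ClassicalMax.suGL 2 F q, ∃ t : T, (π t : PGL(2, F)) = ProjGenLinGroup.mk S := by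
      intro S hS
      obtain ⟨c, hc, -, ⟨t, ht, rfl⟩, e⟩ := hb S hS
      refine ⟨⟨t, ht⟩, ProjGenLinGroup.mk_eq_mk_iff.2 ⟨Units.mk0 c⁻¹ (inv_ne_zero hc), Units.ext ?_⟩⟩
      rw [Units.val_mul, GeneralLinearGroup.coe_scalar, Units.val_mk0,
        show rM (T.subtype ⟨t, ht⟩) = rM t from rfl, e, Matrix.scalar_apply,
        ← smul_one_eq_diagonal, mul_smul_comm, mul_one, smul_smul, inv_mul_cancel₀ hc, one_smul]
    have hNS : ∀ S ∈ ClassicalMax.suGL 2 F q, ∀ m ∈ NS, S * m * S⁻¹ ∈ NS := by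
      rintro S hS m ⟨⟨z, ⟨a, ha, rfl⟩, hze⟩, hm⟩
      refine ⟨?_, ClassicalMax.suGL_conj_mem hS.1 hm⟩
      obtain ⟨t, ht⟩ := key S hS
      refine ⟨π (t * a * t⁻¹), ⟨_, hXn.conj_mem a ha t, rfl⟩, ?_⟩
      simp only [map_mul, map_inv, Subgroup.coe_subtype, Subgroup.coe_mul, InvMemClass.coe_inv, ht]
      rw [show ((π a : H') : PGL(2, F)) = ProjGenLinGroup.mk m from hze]
    have hnsN : ∃ m ∈ NS, ¬ ∃ c : F, (m : Matrix (Fin 2) (Fin 2) F) = c • 1 := by
      by_contra hall
      push Not at hall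
      refine hns (R.scalar_of_comm P.two fun S hS => ?_)
      obtain ⟨t, ht⟩ := key S hS
      have hgu : rM U * S * (rM U)⁻¹ * S⁻¹ ∈ ClassicalMax.suGL 2 F q :=
        mul_mem (ClassicalMax.suGL_conj_mem (rM_mem_GU R.sq P.two U (P.mem_GU hnM)) hS) (inv_mem hS)
      have hcom : rM U * S * (rM U)⁻¹ * S⁻¹ ∈ NS := by
        refine ⟨⟨π (nT * (t * nT⁻¹ * t⁻¹)), ⟨_, mul_mem hnN (hXn.conj_mem _ (inv_mem hnN) t), rfl⟩, ?_⟩, hgu⟩
        simp only [map_mul, map_inv, Subgroup.coe_subtype, Subgroup.coe_mul, InvMemClass.coe_inv, ht]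
        simp only [mul_assoc]
        rfl
      obtain ⟨a, ha⟩ := hall _ hcom
      refine ⟨a, ?_⟩
      have h := congrArg Units.val (show rM U * S = rM U * S * (rM U)⁻¹ * S⁻¹ * (S * rM U) by group)
      rw [Units.val_mul, Units.val_mul _ (S * rM U), ha, Units.val_mul, smul_mul_assoc, one_mul] at h
      exact h
    have hall := suGL_two_le_of_normalised R.sq P.four_le (N := NS) inf_le_right hNS hnsN
    obtain ⟨Q, hQ⟩ : IsUnit (!![0, 1; -1, 0] : Matrix (Fin 2) (Fin 2) F) := by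
      rw [Matrix.isUnit_iff_isUnit_det, det_fin_two_of]; simp
    have hQm : Q ∈ ClassicalMax.suGL 2 F q := by
      refine ⟨mem_GU_two R.sq fun a b => ?_, GeoClasses.mem_specialLinear_iff.2 (by
        rw [hQ, det_fin_two_of]; ring)⟩
      rw [hQ]
      fin_cases a <;> fin_cases b <;> simp [R.sq.q_ne_zero, R.sq.neg_pow]
    obtain ⟨⟨z, hz, hze⟩, -⟩ := hall hQm
    have hzz : z * z = 1 := by
      refine Subtype.ext ?_
      show (z : PGL(2, F)) * z = 1
      rw [show (z : PGL(2, F)) = ProjGenLinGroup.mk Q from hze, ← map_mul]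
      refine ProjGenLinGroup.mk_eq_one.2 (GeneralLinearGroup.mem_center_iff_val_eq_scalar.2 ⟨-1, ?_⟩)
      rw [Units.val_mul, hQ, map_neg, map_one]
      ext i j; fin_cases i <;> fin_cases j <;> simp [Matrix.mul_apply]
    obtain ⟨a, -, ha⟩ := mk_eq_one_smul (A := Q)
      (by rw [← show (z : PGL(2, F)) = ProjGenLinGroup.mk Q from hze, hXodd z hz hzz]; rfl)
    rw [hQ] at ha
    have := congrFun (congrFun ha 0) 1
    simp at this

end Proper

end Cfsg.Agent.SUFive.Symp
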