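import Cfsg.Agent.SUFive.SympBlocks
import Cfsg.Agent.ClassicalMax.ThreeCommon
import Cfsg.Agent.Elusive25.UnitaryTools

/-!
The standard `5^{1+2}` and generators of its normaliser inside `SU₅(q)`, `5 ∣ q + 1`.
-/

set_option autoImplicit false
set_option linter.unusedSectionVars false

namespace Cfsg.Agent.SUFive.Symp

open Matrix Cfsg.Geo Cfsg.Agent.Classical.U
open scoped MatrixGroups Fin.CommRing Fin.NatCast

universe u

variable {F : Type u} [Field F] {q : ℕ}

variable (F q) in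
/-- A primitive fifth root of unity inverted by the automorphism of order two. -/
structure URoot5 : Type u extends Root5 F where
  sq : SqField F q
  ω_q : ω ^ q = ω ^ 4

namespace URoot5

variable (R : URoot5 F q)

theorem e_q (a : Fin 5) : R.e a ^ q = R.e (-a) := by
  rw [Root5.e, ← pow_mul, mul_comm, pow_mul, R.ω_q, ← pow_mul, R.pow_mod, Root5.e]
  congr 1
  revert a
  decide

theorem e_norm (a : Fin 5) : R.e a * R.e a ^ q = 1 := by rw [R.e_q, R.e_mul_neg]

/-- A square root of five. -/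
def s : F := 1 + 2 * R.ω + 2 * R.ω ^ 4

theorem sum_e_sq : (∑ k : Fin 5, R.e (k * k)) = R.s := by
  simp [Fin.sum_univ_five, Root5.e, s, Fin.val_mul]
  ring

theorem s_sq : R.s * R.s = 5 := by
  have h := R.pow_five
  have hr := R.geom
  unfold s
  linear_combination 4 * hr + (8 + 4 * R.ω ^ 3) * h

theorem s_ne : R.s ≠ 0 := fun h => R.five (by rw [← R.s_sq, h, mul_zero])

theorem s_q : R.s ^ q = R.s := by
  have h2 : (2 : F) ^ q = 2 := by
    rw [show (2 : F) = 1 + 1 by norm_num, R.sq.add_pow, one_pow]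
  rw [s, R.sq.add_pow, R.sq.add_pow, one_pow, mul_pow, mul_pow, h2, ← pow_mul R.ω 4,
    mul_comm 4 q, pow_mul, R.ω_q]
  linear_combination 2 * R.ω * (1 + R.ω ^ 5 + R.ω ^ 10) * R.pow_five

theorem sum_e (c : Fin 5) : (∑ k : Fin 5, R.e (c * k)) = if c = 0 then 5 else 0 := by
  split
  · subst ‹c = 0›; simp [R.e_zero]
  · exact R.e_sum ‹_›

theorem inv_five : (5 : F)⁻¹ = R.s⁻¹ * R.s⁻¹ := by rw [← R.s_sq, mul_inv]

/-- The scaled discrete Fourier transform. -/
def gF : GL (Fin 5) F where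
  val := Matrix.of fun i j => R.s⁻¹ * R.e (i * j)
  inv := Matrix.of fun i j => R.s⁻¹ * R.e (-(i * j))
  val_inv := by
    ext i j
    have h : ∀ k, R.s⁻¹ * R.e (i * k) * (R.s⁻¹ * R.e (-(k * j))) =
        (5 : F)⁻¹ * R.e ((i - j) * k) := fun k => by
      rw [inv_five, mul_mul_mul_comm, ← R.e_add]
      congr 2; ring
    simp only [Matrix.mul_apply, Matrix.of_apply, h, ← Finset.mul_sum, sum_e, sub_eq_zero,
      Matrix.one_apply]
    split <;> simp [R.five]
  inv_val := by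
    ext i j
    have h : ∀ k, R.s⁻¹ * R.e (-(i * k)) * (R.s⁻¹ * R.e (k * j)) =
        (5 : F)⁻¹ * R.e ((j - i) * k) := fun k => by
      rw [inv_five, mul_mul_mul_comm, ← R.e_add]
      congr 2; ring
    simp only [Matrix.mul_apply, Matrix.of_apply, h, ← Finset.mul_sum, sum_e, sub_eq_zero,
      Matrix.one_apply, eq_comm (a := j)]
    split <;> simp [R.five]

theorem val_gF (i j : Fin 5) :
    (R.gF : Matrix (Fin 5) (Fin 5) F) i j = R.s⁻¹ * R.e (i * j) := rfl

/-- The conjugate of `T` by the transform: a circulant of determinant one. -/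
def gH : GL (Fin 5) F := R.gF * R.gT * R.gF⁻¹

theorem val_gH (i j : Fin 5) :
    (R.gH : Matrix (Fin 5) (Fin 5) F) i j = R.s⁻¹ * R.e ((i - j) * (i - j)) := by
  have key : (Matrix.of fun a b => R.s⁻¹ * R.e ((a - b) * (a - b))) *
      (R.gF : Matrix (Fin 5) (Fin 5) F) = ((R.gF * R.gT : GL (Fin 5) F) : Matrix _ _ F) := by
    ext a b
    rw [Units.val_mul R.gF R.gT, Root5.gT, R.val_dG, mul_diagonal, Matrix.mul_apply, val_gF]
    have h : ∀ k, R.s⁻¹ * R.e ((a - k) * (a - k)) * (R.s⁻¹ * R.e (k * b)) =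
        R.s⁻¹ * R.s⁻¹ * (R.e (a * b + b * b) * R.e ((k + (3 * b - a)) * (k + (3 * b - a)))) := by
      intro k
      rw [← R.e_add, show a * b + b * b + (k + (3 * b - a)) * (k + (3 * b - a)) =
        (a - k) * (a - k) + k * b by revert a b k; decide, R.e_add]
      ring
    simp only [Matrix.of_apply, val_gF, h, ← Finset.mul_sum]
    rw [show (∑ k, R.e ((k + (3 * b - a)) * (k + (3 * b - a)))) = R.s from
      (Fintype.sum_equiv (Equiv.addRight (3 * b - a)) _ (fun m => R.e (m * m)) fun _ => rfl).trans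
        R.sum_e_sq, R.e_add]
    field_simp [R.s_ne]
  have := congrArg (· * ((R.gF⁻¹ : GL (Fin 5) F) : Matrix (Fin 5) (Fin 5) F)) key
  simp only [Matrix.mul_assoc, Units.mul_inv, Matrix.mul_one] at this
  rw [← Units.val_mul, ← gH] at this
  rw [← this]
  rfl

theorem gH_eq_gQ : (R.gH : Matrix (Fin 5) (Fin 5) F) = R.s⁻¹ • (R.gQ : Matrix (Fin 5) (Fin 5) F) := by
  ext i j
  rw [val_gH]
  rfl

theorem gH_normalizer : R.gH ∈ Subgroup.normalizer (R.Rs : Set (GL (Fin 5) F)) := by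
  have key : ∀ h : GL (Fin 5) F, R.gH * h * R.gH⁻¹ = R.gQ * h * R.gQ⁻¹ := by
    intro h
    rw [mul_inv_eq_iff_eq_mul]
    refine Units.ext ?_
    simp only [Units.val_mul, gH_eq_gQ, mul_assoc, smul_mul_assoc, mul_smul_comm, Units.inv_mul,
      mul_one]
  refine R.mem_normalizer_of_conj ?_ ?_
  · rw [key]; exact (Subgroup.mem_normalizer_iff.1 R.gQ_normalizer _).1 R.gX_mem
  · rw [key]; exact (Subgroup.mem_normalizer_iff.1 R.gQ_normalizer _).1 R.gA_mem

theorem commute_gH_gJ : Commute R.gH gJ := by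
  refine commute_gJ_iff.2 fun i j => ?_
  rw [val_gH, val_gH]
  congr 2
  ring

theorem gH_mem_CJ : R.gH ∈ CJ F := mem_CJ.2 R.commute_gH_gJ

/-- `H` in the centraliser of `J`. -/
def hJ : CJ F := ⟨R.gH, R.gH_mem_CJ⟩

theorem mem_GU_of_cols (R : URoot5 F q) {g : GL (Fin 5) F}
    (h : ∀ a b, ∑ i, (g : Matrix (Fin 5) (Fin 5) F) i a * (g : Matrix (Fin 5) (Fin 5) F) i b ^ q =
      if a = b then 1 else 0) : g ∈ Cfsg.GU 5 F q := by
  rw [Elusive25.mem_GU_iff_gram R.sq]
  ext a b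
  simp only [Matrix.mul_apply, Matrix.transpose_apply, Matrix.map_apply, Forms.sqConj_apply, h,
    Matrix.one_apply]

theorem dG_mem_GU (f : Fin 5 → Fin 5) : R.dG f ∈ Cfsg.GU 5 F q := by
  refine R.mem_GU_of_cols fun a b => ?_
  rcases eq_or_ne a b with rfl | hab
  · simp [R.val_dG, diagonal_apply, R.sq.q_ne_zero, R.e_norm]
  · rw [if_neg hab]
    refine Finset.sum_eq_zero fun i _ => ?_
    rw [R.val_dG, diagonal_apply, diagonal_apply]
    split_ifs <;> simp_all [R.sq.q_ne_zero]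

theorem gA_mem_GU (R : URoot5 F q) : (gA : GL (Fin 5) F) ∈ Cfsg.GU 5 F q := by
  refine R.mem_GU_of_cols fun a b => ?_
  simp [val_gA, R.sq.q_ne_zero]
  exact if_congr eq_comm rfl rfl

theorem gS_mem_GU (R : URoot5 F q) : (gS : GL (Fin 5) F) ∈ Cfsg.GU 5 F q := by
  refine R.mem_GU_of_cols fun a b => ?_
  have h1 : (-1 : F) * (-1) ^ q = 1 := by rw [R.sq.neg_pow, one_pow]; ring
  rw [Finset.sum_eq_single (2 * a)]
  · simp only [val_gS, if_true]
    by_cases h : a = b
    · subst h; simpa using h1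
    · rw [if_neg h, if_neg fun e => h ((by decide : ∀ a b : Fin 5, 2 * a = 2 * b → a = b) a b e)]
      simp [R.sq.q_ne_zero]
  · intro i _ hi; rw [val_gS, if_neg hi, zero_mul]
  · simp

theorem gF_mem_GU : R.gF ∈ Cfsg.GU 5 F q := by
  refine R.mem_GU_of_cols fun a b => ?_
  have h : ∀ k, (R.gF : Matrix (Fin 5) (Fin 5) F) k a *
      (R.gF : Matrix (Fin 5) (Fin 5) F) k b ^ q = (5 : F)⁻¹ * R.e ((a - b) * k) := fun k => by
    rw [val_gF, val_gF, mul_pow, inv_pow, s_q, e_q, inv_five, mul_mul_mul_comm, ← R.e_add]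
    congr 2; ring
  simp only [h, ← Finset.mul_sum, sum_e, sub_eq_zero]
  split <;> simp [R.five]

theorem mem_suGL {g : GL (Fin 5) F} (h : g ∈ Cfsg.GU 5 F q)
    (hd : (g : Matrix (Fin 5) (Fin 5) F).det = 1) : g ∈ ClassicalMax.suGL 5 F q :=
  ⟨h, GeoClasses.mem_specialLinear_iff.2 hd⟩

theorem gX_suGL : R.gX ∈ ClassicalMax.suGL 5 F q := mem_suGL (R.dG_mem_GU _) R.det_gX

theorem gT_suGL : R.gT ∈ ClassicalMax.suGL 5 F q := mem_suGL (R.dG_mem_GU _) R.det_gT

theorem gA_suGL (R : URoot5 F q) : (gA : GL (Fin 5) F) ∈ ClassicalMax.suGL 5 F q :=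
  mem_suGL R.gA_mem_GU det_gA

theorem gS_suGL (R : URoot5 F q) : (gS : GL (Fin 5) F) ∈ ClassicalMax.suGL 5 F q :=
  mem_suGL R.gS_mem_GU det_gS

theorem gH_suGL : R.gH ∈ ClassicalMax.suGL 5 F q :=
  mem_suGL (mul_mem (mul_mem R.gF_mem_GU (R.dG_mem_GU _)) (inv_mem R.gF_mem_GU))
    (by rw [gH, Units.val_mul, Units.val_mul, det_units_conj, R.det_gT])

/-- A group of isometries of determinant one containing the standard generators. -/
structure Contains (M : Subgroup (GL (Fin 5) F)) : Prop where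
  le : M ≤ ClassicalMax.suGL 5 F q
  hX : R.gX ∈ M
  hA : gA ∈ M
  hT : R.gT ∈ M
  hS : gS ∈ M
  hH : R.gH ∈ M

theorem gS_sq : (gS : GL (Fin 5) F) * gS = gJ := by
  refine Units.ext ?_
  show zM sZ * zM sZ = zM jZ
  rw [zM, zM, ← map_mul]
  exact congrArg _ (by decide +kernel)

variable {R} in
theorem Contains.hJ {M : Subgroup (GL (Fin 5) F)} (h : R.Contains M) : gJ ∈ M :=
  gS_sq (F := F) ▸ mul_mem h.hS h.hS

variable {R} in
theorem Contains.det_eq {M : Subgroup (GL (Fin 5) F)} (h : R.Contains M) {g : GL (Fin 5) F}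
    (hg : g ∈ M) : (g : Matrix (Fin 5) (Fin 5) F).det = 1 :=
  GeoClasses.mem_specialLinear_iff.1 (h.le hg).2

end URoot5

end Cfsg.Agent.SUFive.Symp
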