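import Cfsg.Agent.ClassicalMax.ThreeCommon
import Cfsg.Agent.MaxSub.SymplecticType
import Cfsg.Agent.ClassicalMax.UnitaryProper
import Cfsg.Agent.SUFive.SympUnit

/-!
A group of symplectic type of order `125` inside `GU₅(q)`, `q ≡ 4 (mod 5)`, is unitarily conjugate to
the standard one: the monomial matrices with entries `ζ ^ (c + k i)` at the places `(i, i - l)`.
Maximality of the normaliser follows from the core statement about the standard group.
-/

set_option autoImplicit false
set_option linter.style.haveILetI false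
set_option linter.unusedSimpArgs false
set_option linter.unusedSectionVars false

namespace Cfsg.Agent.SUFive

open Matrix Cfsg.Geo Module Cfsg.Agent.ClassicalMax
open Cfsg.Agent.Classical.U (SqField sqField_of_fintype)
open scoped MatrixGroups Matrix commutatorElement Fin.CommRing Fin.NatCast

variable {F : Type*} [Field F] {q : ℕ}

/-- The characteristic is not five. -/
theorem five_ne_zero_of_mod (hF : SqField F q) (hq5 : q % 5 = 4) : (5 : F) ≠ 0 := by
  obtain ⟨l, k, hl, hc, he⟩ := hF.exists_char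
  intro h
  have h' : l ∣ 5 := (CharP.cast_eq_zero_iff F l 5).1 (by exact_mod_cast h)
  obtain rfl := (Nat.prime_dvd_prime_iff_eq hl (by norm_num)).1 h'
  rcases k with - | k
  · rw [he] at hq5; simp at hq5
  · rw [he, pow_succ, Nat.mul_mod_left] at hq5; omega

set_option maxHeartbeats 2000000 in
/-- An irreducible group of symplectic type of order `125` is unitarily conjugate to the standard one. -/
theorem heisenberg_conj_five [Finite F] (hF : SqField F q) (hq5 : q % 5 = 4)
    {R : Subgroup (GL (Fin 5) F)}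
    (hR : IsSymplecticTypeGroup 5 R) (hirr : ActsAbsolutelyIrreducibly (matrixSet R))
    (hsim : R ≤ similarityGroup (Cfsg.hermForm 5 F q)) (h125 : Nat.card R = 125)
    (hZ : Nat.card (Subgroup.center R) = 5) :
    ∃ ζ : F, ζ ^ 5 = 1 ∧ ζ ≠ 1 ∧ ∃ P ∈ Cfsg.GU 5 F q, ∀ u, u ∈ R ↔ ∃ c k l : Fin 5, ∀ i j,
      ((P⁻¹ * u * P : GL (Fin 5) F) : Matrix (Fin 5) (Fin 5) F) i j =
        if i = j + l then ζ ^ ((c + k * i : Fin 5) : ℕ) else 0 := by
  classical
  haveI : Finite F := hF.1
  haveI : Fact (Nat.Prime 5) := ⟨by norm_num⟩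
  haveI : Finite R := Nat.finite_of_card_ne_zero (by omega)
  haveI : Group.IsNilpotent R := hR.pGroup.isNilpotent
  have hf := hermForm_isUnitaryFormPow (n := 5) hF
  have h5 : (5 : F) ≠ 0 := five_ne_zero_of_mod hF hq5
  have hexp : Monoid.exponent R = Nat.card (Subgroup.center R) := by rw [hR.exponent_eq, hZ]; rfl
  have hcl := MaxSub.commutator_le_center_of_cyclic_char hR.cyclic_of_characteristic hexp
  have pow5 : ∀ x : R, ((x : GL (Fin 5) F) : Matrix (Fin 5) (Fin 5) F) ^ 5 = 1 := fun x => by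
    have := Monoid.pow_exponent_eq_one x
    rw [hexp, hZ] at this
    simpa using congrArg (fun y : R => ((y : GL (Fin 5) F) : Matrix (Fin 5) (Fin 5) F)) this
  obtain ⟨a, b, hab⟩ : ∃ a b : R, b * a ≠ a * b := by
    by_contra hc
    push Not at hc
    have : Subgroup.center R = ⊤ := eq_top_iff.2 fun x _ => Subgroup.mem_center_iff.2 fun y => hc x y
    rw [this, Subgroup.card_top, h125] at hZ
    omega
  set A : Matrix (Fin 5) (Fin 5) F := ((a : GL (Fin 5) F) : Matrix (Fin 5) (Fin 5) F) with hA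
  set B : Matrix (Fin 5) (Fin 5) F := ((b : GL (Fin 5) F) : Matrix (Fin 5) (Fin 5) F) with hB
  set z : R := ⁅b, a⁆ with hz
  obtain ⟨ζ, hζ⟩ := MaxSub.exists_scalar_of_mem_center hirr
    (hcl (Subgroup.commutator_mem_commutator (Subgroup.mem_top b) (Subgroup.mem_top a)))
  rw [← hz] at hζ
  have hBA : B * A = ζ • (A * B) := by
    have e : b * a = z * (a * b) := by rw [hz, commutatorElement_def]; group
    have := congrArg (fun x : R => ((x : GL (Fin 5) F) : Matrix (Fin 5) (Fin 5) F)) e
    simp only [Subgroup.coe_mul, Units.val_mul, hζ, Matrix.smul_mul, Matrix.one_mul] at this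
    exact this
  have hζ5 : ζ ^ 5 = 1 := by
    have h := pow5 z
    rw [hζ, smul_pow, one_pow] at h
    exact smul_left_injective F (one_ne_zero (α := Matrix (Fin 5) (Fin 5) F)) (by simpa using h)
  have hζ1 : ζ ≠ 1 := fun h => hab (Subtype.ext (Units.ext (by
    rw [Subgroup.coe_mul, Subgroup.coe_mul, Units.val_mul, Units.val_mul, ← hA, ← hB, hBA, h, one_smul])))
  -- powers of the root indexed by residues
  set e : Fin 5 → F := fun x => ζ ^ (x : ℕ) with he
  have he_add : ∀ x y : Fin 5, e (x + y) = e x * e y := fun x y => by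
    simp only [he, Fin.val_add, ← pow_add]
    exact (pow_eq_pow_mod _ hζ5).symm
  have he_nat : ∀ n : ℕ, e (n : Fin 5) = ζ ^ n := fun n => by
    simp only [he, Fin.val_natCast]
    exact (pow_eq_pow_mod _ hζ5).symm
  have he0 : e 0 = 1 := pow_zero ζ
  have he1 : e 1 = ζ := pow_one ζ
  have he_inj : Function.Injective e := fun x y h => by
    have ho : orderOf ζ = 5 := orderOf_eq_prime hζ5 hζ1
    exact Fin.ext (pow_injOn_Iio_orderOf (by simp [ho, x.2]) (by simp [ho, y.2]) h)
  have he_ne : ∀ x, e x ≠ 0 := fun x => pow_ne_zero _ fun h => by simp [h] at hζ5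
  have he_q : ∀ x : Fin 5, e x ^ q = e (-x) := fun x => by
    simp only [he, ← pow_mul]
    rw [pow_eq_pow_mod _ hζ5, Nat.mul_mod, hq5, pow_eq_pow_mod ((-x : Fin 5) : ℕ) hζ5]
    congr 1
    fin_cases x <;> rfl
  have he_sum : ∀ n : Fin 5, n ≠ 0 → ∑ j : Fin 5, e (n * j) = 0 := fun n hn => by
    have h : e n * ∑ j : Fin 5, e (n * j) = ∑ j : Fin 5, e (n * j) := by
      rw [Finset.mul_sum]
      refine Fintype.sum_bijective (fun j : Fin 5 => j + 1) (AddGroup.addRight_bijective 1) _ _ fun j => ?_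
      rw [← he_add]
      congr 1; ring
    refine (mul_eq_zero.1 (show (e n - 1) * _ = (0 : F) by rw [sub_mul, one_mul, h, sub_self])).resolve_left ?_
    exact sub_ne_zero.2 fun hh => hn (he_inj (hh.trans he0.symm))
  -- the elements are unitary
  have hs0 : ∀ j : Fin 5, Cfsg.hermForm 5 F q (Pi.single j 1) (Pi.single j 1) = 1 := fun j => by
    simp [Cfsg.hermForm, Pi.single_apply, hF.q_ne_zero]
  have hunit : ∀ u : R, ∀ v w : Fin 5 → F,
      Cfsg.hermForm 5 F q (((u : GL (Fin 5) F) : Matrix (Fin 5) (Fin 5) F) *ᵥ v)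
        (((u : GL (Fin 5) F) : Matrix (Fin 5) (Fin 5) F) *ᵥ w) = Cfsg.hermForm 5 F q v w := by
    intro u
    obtain ⟨c, hc⟩ := hsim u.2
    have hpow : ∀ (n : ℕ) (v w : Fin 5 → F),
        Cfsg.hermForm 5 F q ((((u : GL (Fin 5) F) : Matrix (Fin 5) (Fin 5) F) ^ n) *ᵥ v)
          ((((u : GL (Fin 5) F) : Matrix (Fin 5) (Fin 5) F) ^ n) *ᵥ w) =
            (c : F) ^ n * Cfsg.hermForm 5 F q v w := by
      intro n
      induction n with
      | zero => intro v w; simp
      | succ n ih =>
        intro v w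
        rw [pow_succ', ← Matrix.mulVec_mulVec, ← Matrix.mulVec_mulVec, hc, ih, pow_succ']
        ring
    have hc5 : (c : F) ^ 5 = 1 := by
      have h := hpow 5 (Pi.single 0 1) (Pi.single 0 1)
      rw [pow5, Matrix.one_mulVec, hs0, mul_one] at h
      exact h.symm
    have hcq : (c : F) ^ q = c := by
      have h := hc (Pi.single 0 1) (Pi.single 0 1)
      rw [hs0, mul_one] at h
      rw [← h]
      exact (hf.herm _ _).symm
    have hc1 : (c : F) = 1 := by
      rw [pow_eq_pow_mod _ hc5, hq5] at hcq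
      have hc2 : (c : F) ^ 2 = 1 := by linear_combination hc5 - (c : F) * hcq
      calc (c : F) = c * ((c : F) ^ 2) ^ 2 := by rw [hc2, one_pow, mul_one]
        _ = (c : F) ^ 5 := by ring
        _ = 1 := hc5
    intro v w
    rw [hc, hc1, one_mul]
  -- an eigenvector of `b`
  obtain ⟨i0, v, hv0, hv⟩ : ∃ (i : Fin 5) (v : Fin 5 → F), v ≠ 0 ∧ B *ᵥ v = e i • v := by
    by_contra hc
    push Not at hc
    have hinj : ∀ i : Fin 5, Function.Injective fun v => B *ᵥ v - e i • v := fun i v w h => by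
      refine sub_eq_zero.1 (by_contra fun hne => hc i _ hne ?_)
      simp only [mulVec_sub, smul_sub] at h ⊢
      rw [sub_eq_sub_iff_sub_eq_sub] at h
      exact h
    have hz0 : ∀ i : Fin 5, (∑ n : Fin 5, e (-(i * n)) • B ^ (n : ℕ)) = 0 := by
      intro i
      apply Matrix.toLin'.injective
      refine LinearMap.ext fun v => hinj i ?_
      simp only [map_zero, LinearMap.zero_apply, mulVec_zero, smul_zero, sub_zero, Matrix.toLin'_apply]
      rw [sub_eq_zero, mulVec_mulVec, ← smul_mulVec]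
      congr 1
      simp only [Finset.mul_sum, Finset.smul_sum, Matrix.mul_smul, ← pow_succ', smul_smul]
      refine Fintype.sum_bijective (fun n : Fin 5 => n + 1) (AddGroup.addRight_bijective 1) _ _ fun n => ?_
      rw [← he_add]
      congr 1
      · congr 1; ring
      · fin_cases n <;> first | rfl | exact (pow_zero B).trans (pow5 b).symm | exact (pow5 b).trans (pow_zero B).symm
    have htot : (∑ i : Fin 5, ∑ n : Fin 5, e (-(i * n)) • B ^ (n : ℕ)) = (5 : F) • (1 : Matrix (Fin 5) (Fin 5) F) := by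
      rw [Finset.sum_comm, Finset.sum_eq_single (0 : Fin 5)]
      · simp [he0, ← Nat.cast_smul_eq_nsmul F]
      · intro n _ hn
        rw [← Finset.sum_smul]
        have : ∀ j : Fin 5, e (-(j * n)) = e ((-n) * j) := fun j => by congr 1; ring
        simp only [this]
        rw [he_sum _ (neg_ne_zero.2 hn), zero_smul]
      · simp
    rw [Finset.sum_eq_zero fun i _ => hz0 i] at htot
    have := congrFun (congrFun htot 0) 0
    simp at this
    exact h5 this.symm
  -- the orbit of the eigenvector under `a`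
  set w : Fin 5 → (Fin 5 → F) := fun k => (A ^ (k : ℕ)) *ᵥ v with hw
  have hA5 : A ^ 5 = 1 := pow5 a
  have hAw : ∀ k, A *ᵥ w k = w (k + 1) := by
    intro k
    simp only [hw, mulVec_mulVec, ← pow_succ']
    congr 1
    fin_cases k <;> first | rfl | exact hA5.trans (pow_zero A).symm
  have hAnw : ∀ (n : ℕ) k, (A ^ n) *ᵥ w k = w (k + (n : Fin 5)) := by
    intro n
    induction n with
    | zero => intro k; simp
    | succ n ih => intro k; rw [pow_succ', ← mulVec_mulVec, ih, hAw, Nat.cast_succ, add_assoc]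
  have hBw : ∀ k : Fin 5, B *ᵥ w k = e (i0 + k) • w k := by
    have h : ∀ n : ℕ, B *ᵥ ((A ^ n) *ᵥ v) = e (i0 + (n : Fin 5)) • ((A ^ n) *ᵥ v) := by
      intro n
      induction n with
      | zero => simpa using hv
      | succ n ih =>
        rw [pow_succ', ← mulVec_mulVec, mulVec_mulVec _ B A, hBA, smul_mulVec, ← mulVec_mulVec, ih,
          mulVec_smul, smul_smul, ← he1, ← he_add, mulVec_mulVec, ← pow_succ', Nat.cast_succ]
        congr 2; ring
    intro k
    simpa [hw] using h (k : ℕ)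
  have hBnw : ∀ (n : ℕ) (k : Fin 5), (B ^ n) *ᵥ w k = e ((n : Fin 5) * (i0 + k)) • w k := by
    intro n
    induction n with
    | zero => intro k; simp [he0]
    | succ n ih =>
      intro k
      rw [pow_succ, ← mulVec_mulVec, hBw, mulVec_smul, ih, smul_smul, ← he_add, Nat.cast_succ]
      congr 2; ring
  have hw0 : ∀ k, w k ≠ 0 := fun k h0 => hv0 (by
    have := congrArg (fun x => A ^ (5 - (k : ℕ)) *ᵥ x) h0
    simpa [hw, mulVec_mulVec, ← pow_add, Nat.sub_add_cancel k.2.le, hA5] using this)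
  have hli : LinearIndependent F w := by
    refine Module.End.eigenvectors_linearIndependent' (Matrix.toLin' B) (fun k : Fin 5 => e (i0 + k))
      (fun k l h => add_left_cancel (he_inj h)) w fun k => ⟨?_, hw0 k⟩
    rw [Module.End.mem_eigenspace_iff, Matrix.toLin'_apply, hBw]
  -- orthogonality
  have horth : ∀ i j, i ≠ j → Cfsg.hermForm 5 F q (w i) (w j) = 0 := by
    intro i j hij
    have h := hunit b (w i) (w j)
    rw [← hB, hBw, hBw, hf.smul_left, hf.smul_right', ← mul_assoc, he_q, ← he_add] at h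
    by_contra hne
    have h1 : e (i0 + i + -(i0 + j)) = e 0 := by rw [he0]; simpa [hne] using h
    refine hij (sub_eq_zero.1 ?_)
    rw [← he_inj h1]; ring
  have hw_zero : w 0 = v := by simp [hw]
  have hdiag : ∀ i, Cfsg.hermForm 5 F q (w i) (w i) = Cfsg.hermForm 5 F q v v := by
    have h : ∀ n : ℕ, Cfsg.hermForm 5 F q (w (n : Fin 5)) (w (n : Fin 5)) = Cfsg.hermForm 5 F q v v := by
      intro n
      induction n with
      | zero => rw [Nat.cast_zero, hw_zero]
      | succ n ih => rw [Nat.cast_succ, ← hAw, hA, hunit, ih]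
    intro i
    simpa using h (i : ℕ)
  have hvv : Cfsg.hermForm 5 F q v v ≠ 0 := by
    intro h0
    let bas := basisOfLinearIndependentOfCardEqFinrank hli (by simp)
    obtain ⟨-, x, hx⟩ := hf.nondegenerate _ hv0
    apply hx
    rw [← bas.sum_repr x, hf.sum_right hF]
    refine Finset.sum_eq_zero fun i _ => ?_
    rw [hf.smul_right', coe_basisOfLinearIndependentOfCardEqFinrank, ← hw_zero]
    by_cases hi : i = 0
    · subst hi
      exact mul_eq_zero_of_right _ (by rw [hw_zero]; exact h0)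
    · exact mul_eq_zero_of_right _ (horth 0 i (Ne.symm hi))
  obtain ⟨s, hs⟩ := hF.exists_norm (c := (Cfsg.hermForm 5 F q v v)⁻¹) (by rw [inv_pow, ← hf.herm])
  obtain ⟨P, hP, hPe⟩ := exists_GU_of_columns hF (v := fun i => s • w i) fun i j => by
    rw [hf.smul_left, hf.smul_right', ← mul_assoc, ← pow_succ', hs]
    split
    · subst ‹i = j›; rw [hdiag, inv_mul_cancel₀ hvv]
    · rw [horth i j ‹_›, mul_zero]
  have hcolP : ∀ j, (P : Matrix (Fin 5) (Fin 5) F) *ᵥ Pi.single j 1 = s • w j := fun j => by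
    funext i; simp [Matrix.mulVec_single_one, hPe]
  -- the elements of the group
  set g : Fin 5 × Fin 5 × Fin 5 → R := fun t =>
    z ^ ((t.1 - t.2.1 * i0 : Fin 5) : ℕ) * b ^ (t.2.1 : ℕ) * a ^ (t.2.2 : ℕ) with hg
  have hentry : ∀ t i j,
      ((P⁻¹ * (g t : GL (Fin 5) F) * P : GL (Fin 5) F) : Matrix (Fin 5) (Fin 5) F) i j =
        if i = j + t.2.2 then e (t.1 + t.2.1 * i) else 0 := by
    rintro ⟨c, k, l⟩ i j
    have hcol : ((g (c, k, l) : GL (Fin 5) F) : Matrix (Fin 5) (Fin 5) F) *ᵥ w j =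
        e (c + k * (j + l)) • w (j + l) := by
      simp only [hg, Subgroup.coe_mul, SubmonoidClass.coe_pow, Units.val_mul, Units.val_pow_eq_pow_val,
        hζ, ← hA, ← hB, smul_pow, one_pow, Matrix.smul_mul, Matrix.one_mul]
      rw [smul_mulVec, ← mulVec_mulVec, hAnw, hBnw, smul_smul, Fin.cast_val_eq_self,
        Fin.cast_val_eq_self, ← he_add]
      congr 2; ring
    have hmat : ((P⁻¹ * (g (c, k, l) : GL (Fin 5) F) * P : GL (Fin 5) F) : Matrix (Fin 5) (Fin 5) F) *ᵥ
        Pi.single j 1 = e (c + k * (j + l)) • Pi.single (j + l) 1 := by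
      rw [Units.val_mul, Units.val_mul, ← mulVec_mulVec, hcolP, ← mulVec_mulVec, mulVec_smul, hcol,
        smul_comm, ← hcolP, ← mulVec_smul, mulVec_mulVec, ← Units.val_mul, inv_mul_cancel,
        Units.val_one, one_mulVec]
    have := congrFun hmat i
    rw [mulVec_single_one] at this
    refine this.trans ?_
    show e (c + k * (j + l)) * (Pi.single (j + l) (1 : F) : Fin 5 → F) i = _
    by_cases hi : i = j + l
    · subst hi; rw [if_pos rfl, Pi.single_eq_same, mul_one]
    · rw [if_neg hi, Pi.single_eq_of_ne hi, mul_zero]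
  have hginj : Function.Injective g := by
    rintro ⟨c, x, y⟩ ⟨c', x', y'⟩ h
    have h' : ∀ r k, (if r = k + y then e (c + x * r) else 0) =
        if r = k + y' then e (c' + x' * r) else 0 := fun r k => by
      rw [← hentry (c, x, y), ← hentry (c', x', y'), h]
    have hy : y = y' := by
      by_contra hne
      have := h' y 0
      rw [if_pos (zero_add y).symm, if_neg (by simpa using hne)] at this
      exact he_ne _ this
    subst hy
    have h0 := h' 0 (0 - y)
    have h1 := h' 1 (1 - y)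
    simp only [sub_add_cancel, if_true] at h0 h1
    have e0 := he_inj h0
    have e1 := he_inj h1
    simp only [mul_zero, add_zero] at e0
    subst e0
    simp only [mul_one, add_right_inj] at e1
    subst e1
    rfl
  have hgbij : Function.Bijective g :=
    hginj.bijective_of_nat_card_le (by rw [h125]; simp)
  refine ⟨ζ, hζ5, hζ1, P, hP, fun u => ⟨fun hu => ?_, ?_⟩⟩
  · obtain ⟨⟨c, k, l⟩, ht⟩ := hgbij.2 ⟨u, hu⟩
    exact ⟨c, k, l, fun i j => by rw [show u = (g (c, k, l) : GL (Fin 5) F) by rw [ht]]; exact hentry _ i j⟩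
  · rintro ⟨c, k, l, h⟩
    have he' : P⁻¹ * u * P = P⁻¹ * (g (c, k, l) : GL (Fin 5) F) * P :=
      Units.ext (Matrix.ext fun i j => (h i j).trans (hentry (c, k, l) i j).symm)
    rw [mul_left_inj, mul_right_inj] at he'
    exact he' ▸ (g (c, k, l)).2

namespace Symp

universe u

/-- The statement proved by the core argument. -/
def SympCore (F : Type u) [Field F] (q : ℕ) : Prop :=
  ∀ (R : URoot5 F q) (M : Subgroup (GL (Fin 5) F)), R.Contains M →
    suGL 5 F q ≤ M ∨ M ≤ Subgroup.normalizer (R.Rs : Set (GL (Fin 5) F))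

/-- The seventh clause, from the core argument. -/
theorem suGL_symplecticType_five_of_core {F : Type u} [Field F] [Fintype F] (q : ℕ)
    (hF : Fintype.card F = q ^ 2)
    (hcore : ∀ p : ℕ, p.Prime → CharP F p →
      ((q = p ∧ p % 5 = 4) ∨ (q = p ^ 2 ∧ (p % 5 = 2 ∨ p % 5 = 3))) → SympCore F q) :
    ∀ (p : ℕ) (R : Subgroup (Matrix.GeneralLinearGroup (Fin 5) F)), p.Prime → CharP F p →
      ((q = p ∧ p % 5 = 4) ∨ (q = p ^ 2 ∧ (p % 5 = 2 ∨ p % 5 = 3))) →
      Cfsg.Geo.IsSymplecticTypeGroup 5 R →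
      Cfsg.Geo.ActsAbsolutelyIrreducibly (Cfsg.Geo.matrixSet R) →
      R ≤ Cfsg.Geo.similarityGroup (Cfsg.hermForm 5 F q) → Nat.card R = 125 →
      Nat.card (Subgroup.center R) = 5 →
      Cfsg.Geo.IsMaximalIn (Cfsg.GU 5 F q ⊓ Cfsg.Geo.specialLinear (Fin 5) F)
        (Cfsg.Geo.subgroupNormalizer R ⊓ (Cfsg.GU 5 F q ⊓ Cfsg.Geo.specialLinear (Fin 5) F)) := by
  intro p R hp hch hqc hR hirr hsim h125 hZ
  classical
  show IsMaximalIn (suGL 5 F q) (subgroupNormalizer R ⊓ suGL 5 F q)
  have hF' : SqField F q := sqField_of_fintype hF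
  have hq5 : q % 5 = 4 := by
    rcases hqc with ⟨rfl, h⟩ | ⟨rfl, h⟩
    · exact h
    · rcases h with h | h <;> simp [Nat.pow_mod, h]
  have hq4 : 4 ≤ q := by omega
  have h5 : (5 : F) ≠ 0 := five_ne_zero_of_mod hF' hq5
  haveI : Fact (Nat.Prime 5) := ⟨by norm_num⟩
  haveI : Finite R := Nat.finite_of_card_ne_zero (by omega)
  haveI : Group.IsNilpotent R := hR.pGroup.isNilpotent
  have hexp : Monoid.exponent R = Nat.card (Subgroup.center R) := by rw [hR.exponent_eq, hZ]; rfl
  obtain ⟨ζ, hζ5, hζ1, P, hP, hmem⟩ := heisenberg_conj_five hF' hq5 hR hirr hsim h125 hZ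
  let U : URoot5 F q :=
    { ω := ζ, pow_five := hζ5, ne_one := hζ1, five := h5, sq := hF',
      ω_q := by rw [pow_eq_pow_mod _ hζ5, hq5] }
  have hiff : ∀ u, u ∈ R ↔ P⁻¹ * u * P ∈ U.Rs := fun u => by
    rw [hmem]
    refine ⟨?_, ?_⟩
    · rintro ⟨c, k, l, h⟩
      refine ⟨c, k, l, Units.ext (Matrix.ext fun i j => ?_)⟩
      rw [h, U.el_apply]
      rfl
    · rintro ⟨c, k, l, h⟩
      refine ⟨c, k, l, fun i j => ?_⟩
      rw [h, U.el_apply]
      rfl
  have hne : ¬ suGL 5 F q ≤ subgroupNormalizer R :=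
    suGL_not_le_subgroupNormalizer hF' (by norm_num) (by exact_mod_cast h5) hirr
      (MaxSub.commutator_le_center_of_cyclic_char hR.cyclic_of_characteristic hexp)
      (fun z hz => MaxSub.exists_scalar_of_mem_center hirr hz) hq4
  have hnormR : ∀ {w : GL (Fin 5) F}, w ∈ Subgroup.normalizer (U.Rs : Set (GL (Fin 5) F)) →
      P * w * P⁻¹ ∈ subgroupNormalizer R := by
    intro w hw
    rw [subgroupNormalizer, Subgroup.mem_normalizer_iff]
    intro u
    rw [hiff, hiff,
      show P⁻¹ * (P * w * P⁻¹ * u * (P * w * P⁻¹)⁻¹) * P = w * (P⁻¹ * u * P) * w⁻¹ by group]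
    exact Subgroup.mem_normalizer_iff.1 hw _
  refine ⟨lt_of_le_of_ne inf_le_right fun e => hne (e ▸ inf_le_left), fun M hAM hM => ?_⟩
  set Y : Subgroup (GL (Fin 5) F) := M.comap (MulAut.conj P).toMonoidHom with hY
  have hmemY : ∀ {w : GL (Fin 5) F}, w ∈ suGL 5 F q →
      w ∈ Subgroup.normalizer (U.Rs : Set (GL (Fin 5) F)) → w ∈ Y := fun {w} hw hn =>
    show P * w * P⁻¹ ∈ M from hAM ⟨hnormR hn, suGL_conj_mem hP hw⟩
  have hback : ∀ {x : GL (Fin 5) F}, x ∈ suGL 5 F q → P⁻¹ * x * P ∈ suGL 5 F q := fun {x} hx => by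
    have := suGL_conj_mem (inv_mem hP) hx
    rwa [inv_inv] at this
  have hcont : U.Contains Y := {
    le := fun w hw => by
      have := hback (hM (show P * w * P⁻¹ ∈ M from hw))
      rwa [show P⁻¹ * (P * w * P⁻¹) * P = w by group] at this
    hX := hmemY U.gX_suGL U.gX_normalizer
    hA := hmemY U.gA_suGL U.gA_normalizer
    hT := hmemY U.gT_suGL U.gT_normalizer
    hS := hmemY U.gS_suGL U.gS_normalizer
    hH := hmemY U.gH_suGL U.gH_normalizer }
  rcases hcore p hp hch hqc U Y hcont with h | h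
  · refine Or.inr (le_antisymm hM fun x hx => ?_)
    have : P * (P⁻¹ * x * P) * P⁻¹ ∈ M := h (hback hx)
    rwa [show P * (P⁻¹ * x * P) * P⁻¹ = x by group] at this
  · refine Or.inl (le_antisymm (fun x hx => ⟨?_, hM hx⟩) hAM)
    have hxY : P⁻¹ * x * P ∈ Y := by
      show P * (P⁻¹ * x * P) * P⁻¹ ∈ M
      rwa [show P * (P⁻¹ * x * P) * P⁻¹ = x by group]
    have := hnormR (h hxY)
    rwa [show P * (P⁻¹ * x * P) * P⁻¹ = x by group] at this

end Symp

end Cfsg.Agent.SUFive
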