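import Cfsg.Agent.SUFive.SympBase
import Cfsg.Agent.S0033

/-!
A subgroup of `GL₃` normalised by `diag(1, ω, ω⁴)` and by a matrix without zero entry, on which
the former acts without fixed points, is trivial: it is nilpotent, and the nilpotent elements of
the algebra spanned by its centre vanish, as their common kernel would be an invariant subspace.
-/

set_option autoImplicit false
set_option linter.unusedSectionVars false
set_option linter.style.haveILetI false

namespace Cfsg.Agent.SUFive.Symp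

open Matrix
open scoped MatrixGroups Fin.CommRing Fin.NatCast

namespace FixFree

variable {F : Type*} [Field F]

/-- The exponents of the three eigenvalues. -/
def dd : Fin 3 → Fin 5 := ![0, 1, 4]

theorem dd_inj : Function.Injective dd := by decide

theorem no_path : ∀ t : Fin 5, t ≠ 0 → ∀ i j k l : Fin 3,
    dd i - dd j = t → dd j - dd k = t → dd k - dd l ≠ t := by decide

/-- Commuting nilpotent matrices have a common non-zero kernel vector. -/
theorem common_kernel (s : Finset (Matrix (Fin 3) (Fin 3) F)) (hnil : ∀ M ∈ s, IsNilpotent M)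
    (hc : ∀ M ∈ s, ∀ M' ∈ s, Commute M M') : ∃ v : Fin 3 → F, v ≠ 0 ∧ ∀ M ∈ s, M *ᵥ v = 0 := by
  classical
  induction s using Finset.induction with
  | empty => exact ⟨1, one_ne_zero, by simp⟩
  | insert A s hA ih =>
    obtain ⟨v, hv, hs⟩ := ih (fun M h => hnil M (Finset.mem_insert_of_mem h))
      (fun M h M' h' => hc M (Finset.mem_insert_of_mem h) M' (Finset.mem_insert_of_mem h'))
    obtain ⟨m, hm⟩ := hnil A (Finset.mem_insert_self _ _)
    have hex : ∃ n, (A ^ n) *ᵥ v = 0 := ⟨m, by rw [hm, zero_mulVec]⟩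
    obtain ⟨n, hn⟩ : ∃ n, Nat.find hex = n + 1 := Nat.exists_eq_succ_of_ne_zero fun h0 => hv (by
      simpa [h0] using Nat.find_spec hex)
    refine ⟨(A ^ n) *ᵥ v, Nat.find_min hex (by omega), fun M hM => ?_⟩
    rcases Finset.mem_insert.1 hM with rfl | hM'
    · rw [mulVec_mulVec, ← pow_succ', ← hn]
      exact Nat.find_spec hex
    · have hcm : Commute M (A ^ n) :=
        ((hc M hM A (Finset.mem_insert_self _ _)).pow_right n)
      rw [mulVec_mulVec, hcm.eq, ← mulVec_mulVec, hs M hM', mulVec_zero]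

theorem single_mem {W : Submodule F (Fin 3 → F)} {x : Fin 3 → F} (hd : Function.Injective x)
    (hW : ∀ v ∈ W, Matrix.diagonal x *ᵥ v ∈ W) {v : Fin 3 → F} (hv : v ∈ W) (i : Fin 3) :
    Pi.single i (v i) ∈ W := by
  obtain ⟨j, k, hji, hki, hjk, hall⟩ : ∃ j k : Fin 3, j ≠ i ∧ k ≠ i ∧ j ≠ k ∧
      ∀ l, l ≠ i → l = j ∨ l = k := by revert i; decide
  set u := Matrix.diagonal x *ᵥ v - x j • v with hu
  have hu' : u ∈ W := W.sub_mem (hW v hv) (W.smul_mem _ hv)
  have h := W.smul_mem ((x i - x k) * (x i - x j))⁻¹ (W.sub_mem (hW u hu') (W.smul_mem (x k) hu'))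
  convert h using 1
  ext l
  have e : ∀ w : Fin 3 → F, (Matrix.diagonal x *ᵥ w) l = x l * w l :=
    fun w => Matrix.mulVec_diagonal x w l
  simp only [Pi.smul_apply, Pi.sub_apply, smul_eq_mul, e, hu]
  by_cases hl : l = i
  · subst hl
    have h1 : x l - x k ≠ 0 := sub_ne_zero.2 fun h => hki (hd h).symm
    have h2 : x l - x j ≠ 0 := sub_ne_zero.2 fun h => hji (hd h).symm
    rw [Pi.single_eq_same]
    field_simp
  · rw [Pi.single_eq_of_ne hl]
    rcases hall l hl with rfl | rfl <;> ring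

end FixFree

open FixFree in
/-- A finite subgroup of `GL₃` normalised by `gp` and `hp` on which `gp` has no non-trivial fixed
point is trivial. -/
theorem eq_bot_of_fixFree {F : Type*} [Field F] [Finite F] (R : Root5 F) {gp hp : GL (Fin 3) F}
    (hgp : (gp : Matrix (Fin 3) (Fin 3) F) = Matrix.diagonal ![1, R.e 1, R.e 4])
    (hhp : ∀ i j, (hp : Matrix (Fin 3) (Fin 3) F) i j ≠ 0) {N : Subgroup (GL (Fin 3) F)}
    (hNg : ∀ n ∈ N, gp * n * gp⁻¹ ∈ N) (hNh : ∀ n ∈ N, hp * n * hp⁻¹ ∈ N)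
    (hfix : ∀ n ∈ N, n * gp = gp * n → n = 1) : N = ⊥ := by
  classical
  haveI : Finite (GL (Fin 3) F) := inferInstance
  letI : Fintype F := Fintype.ofFinite F
  by_contra hne
  have hgd : (gp : Matrix (Fin 3) (Fin 3) F) = Matrix.diagonal fun i => R.e (dd i) := by
    rw [hgp]
    congr 1
    funext i
    fin_cases i <;> simp [dd, R.e_zero]
  have hpow : ∀ k : ℕ, ((gp ^ k : GL (Fin 3) F) : Matrix (Fin 3) (Fin 3) F) =
      Matrix.diagonal fun i => R.e ((k : Fin 5) * dd i) := fun k => by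
    rw [Units.val_pow_eq_pow_val, hgd, Matrix.diagonal_pow]
    congr 1
    funext i
    exact R.e_mul k (dd i)
  have hg5 : gp ^ 5 = 1 := Units.ext (by
    rw [hpow, Units.val_one, ← Matrix.diagonal_one]
    congr 1
    funext i
    rw [show ((5 : ℕ) : Fin 5) = 0 by decide, zero_mul, R.e_zero])
  have hpowN : ∀ k : ℕ, ∀ n ∈ N, gp ^ k * n * (gp ^ k)⁻¹ ∈ N := by
    intro k
    induction k with
    | zero => intro n hn; simpa using hn
    | succ k ih =>
      intro n hn
      rw [show gp ^ (k + 1) * n * (gp ^ (k + 1))⁻¹ = gp * (gp ^ k * n * (gp ^ k)⁻¹) * gp⁻¹ by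
        rw [pow_succ']; group]
      exact hNg _ (ih n hn)
  -- Thompson: `N` is nilpotent
  let f : N →* N :=
    { toFun := fun n => ⟨gp * n * gp⁻¹, hNg n n.2⟩
      map_one' := Subtype.ext (by simp)
      map_mul' := fun a b => Subtype.ext (by simp only [Subgroup.coe_mul]; group) }
  have hf : Function.Bijective f := (Finite.injective_iff_bijective).1 fun a b h =>
    Subtype.ext (mul_left_cancel (mul_right_cancel (congrArg Subtype.val h)))
  let φ : N ≃* N := MulEquiv.ofBijective f hf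
  have hφ : MonoidHom.FixedPointFree (φ : N →* N) := fun n hn =>
    Subtype.ext (hfix n n.2 (mul_inv_eq_iff_eq_mul.1 (congrArg Subtype.val hn)).symm)
  have hφk : ∀ (k : ℕ) (n : N), (((φ ^ k : MulAut N) n : N) : GL (Fin 3) F) =
      gp ^ k * n * (gp ^ k)⁻¹ := by
    intro k
    induction k with
    | zero => intro n; simp
    | succ k ih =>
      intro n
      rw [pow_succ', MulAut.mul_apply, pow_succ']
      show gp * (((φ ^ k : MulAut N) n : N) : GL (Fin 3) F) * gp⁻¹ = _
      rw [ih]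
      group
  have hφne : φ ≠ 1 := fun h => hne ((Subgroup.eq_bot_iff_forall N).2 fun n hn =>
    congrArg Subtype.val (hφ ⟨n, hn⟩ (by show φ ⟨n, hn⟩ = _; rw [h]; rfl)))
  haveI : Fact (Nat.Prime 5) := ⟨by norm_num⟩
  have hord : orderOf φ = 5 := orderOf_eq_prime (MulEquiv.ext fun n => Subtype.ext (by
    rw [hφk, hg5]; simp)) hφne
  have hnil : Group.IsNilpotent N := Cfsg.Agent.S0033.result φ hφ 5 (by norm_num) hord
  -- the centre
  haveI := hnil
  haveI : Nontrivial N := (Subgroup.nontrivial_iff_ne_bot N).2 hne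
  obtain ⟨⟨b₀, hb₀⟩, hb₀c, hb₀1⟩ : ∃ b ∈ Subgroup.center N, b ≠ 1 :=
    (Subgroup.bot_or_exists_ne_one _).resolve_left (Group.IsNilpotent.center_ne_bot N)
  let B : Set (Matrix (Fin 3) (Fin 3) F) :=
    {M | ∃ b ∈ N, (∀ n ∈ N, Commute b n) ∧ (b : Matrix (Fin 3) (Fin 3) F) = M}
  have hBc : ∀ M ∈ B, ∀ M' ∈ B, M * M' = M' * M := by
    rintro _ ⟨b, -, hb, rfl⟩ _ ⟨c, hc, -, rfl⟩
    exact congrArg Units.val (hb c hc).eq
  let K : Subalgebra F (Matrix (Fin 3) (Fin 3) F) := Algebra.adjoin F B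
  haveI := Algebra.isMulCommutative_adjoin F hBc
  have hKc : ∀ M ∈ K, ∀ M' ∈ K, Commute M M' := fun M hM M' hM' =>
    congrArg Subtype.val (mul_comm' (⟨M, hM⟩ : Algebra.adjoin F B) ⟨M', hM'⟩)
  have hKconj : ∀ g : GL (Fin 3) F, (∀ n ∈ N, g * n * g⁻¹ ∈ N) → ∀ M ∈ K,
      (g : Matrix (Fin 3) (Fin 3) F) * M * ((g⁻¹ : GL (Fin 3) F) : Matrix (Fin 3) (Fin 3) F) ∈ K := by
    intro g hg M hM
    induction hM using Algebra.adjoin_induction with
    | mem M hM =>
      obtain ⟨b, hb, hbc, rfl⟩ := hM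
      refine Algebra.subset_adjoin ⟨g * b * g⁻¹, hg b hb, fun n hn => ?_, by simp⟩
      obtain ⟨⟨m, hm⟩, hmn⟩ := (Finite.injective_iff_surjective (f := fun x : N =>
        (⟨g * x * g⁻¹, hg x x.2⟩ : N))).1 (fun a c h => Subtype.ext
          (mul_left_cancel (mul_right_cancel (congrArg Subtype.val h)))) ⟨n, hn⟩
      rw [show n = g * m * g⁻¹ from (congrArg Subtype.val hmn).symm]
      exact (Commute.conj_iff (h := g)).2 (hbc m hm)
    | algebraMap r =>
      rw [(Algebra.commute_algebraMap_right r (g : Matrix (Fin 3) (Fin 3) F)).eq, mul_assoc,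
        Units.mul_inv, mul_one]
      exact K.algebraMap_mem r
    | add x y _ _ hx hy => rw [mul_add, add_mul]; exact K.add_mem hx hy
    | mul x y _ _ hx hy =>
      have h := K.mul_mem hx hy
      simp only [mul_assoc] at h ⊢
      rw [Units.inv_mul_cancel_left] at h
      exact h
  -- common kernel of the nilpotent elements of `K`
  let W : Submodule F (Fin 3 → F) :=
    { carrier := {v | ∀ M ∈ K, IsNilpotent M → M *ᵥ v = 0}
      zero_mem' := fun M _ _ => mulVec_zero M
      add_mem' := fun {a b} ha hb M hM hn => by rw [mulVec_add, ha M hM hn, hb M hM hn, add_zero]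
      smul_mem' := fun c a ha M hM hn => by rw [mulVec_smul, ha M hM hn, smul_zero] }
  have hWinv : ∀ g : GL (Fin 3) F, (∀ n ∈ N, g * n * g⁻¹ ∈ N) → ∀ v ∈ W,
      (g : Matrix (Fin 3) (Fin 3) F) *ᵥ v ∈ W := by
    intro g hg v hv
    have hback : ∀ u ∈ W, ((g⁻¹ : GL (Fin 3) F) : Matrix (Fin 3) (Fin 3) F) *ᵥ u ∈ W := by
      intro u hu M hM hn
      have hn' : IsNilpotent ((g : Matrix (Fin 3) (Fin 3) F) * M *
          ((g⁻¹ : GL (Fin 3) F) : Matrix (Fin 3) (Fin 3) F)) := by
        obtain ⟨k, hk⟩ := hn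
        exact ⟨k, by rw [Units.conj_pow, hk, mul_zero, zero_mul]⟩
      have h := congrArg (((g⁻¹ : GL (Fin 3) F) : Matrix (Fin 3) (Fin 3) F) *ᵥ ·)
        (hu _ (hKconj g hg M hM) hn')
      simp only [mulVec_mulVec, mulVec_zero] at h
      rw [← mul_assoc, ← mul_assoc, Units.inv_mul, one_mul] at h
      rwa [mulVec_mulVec]
    obtain ⟨⟨u, hu⟩, h⟩ := (Finite.injective_iff_surjective (f := fun x : W =>
      (⟨_, hback x x.2⟩ : W))).1 (fun a c h => Subtype.ext (by
        have h' := congrArg ((g : Matrix (Fin 3) (Fin 3) F) *ᵥ ·) (congrArg Subtype.val h)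
        simpa [mulVec_mulVec] using h')) ⟨v, hv⟩
    have h' : ((g⁻¹ : GL (Fin 3) F) : Matrix (Fin 3) (Fin 3) F) *ᵥ u = v := congrArg Subtype.val h
    rw [← h', mulVec_mulVec, Units.mul_inv, one_mulVec]
    exact hu
  obtain ⟨v, hv0, hv⟩ := common_kernel (F := F)
    (Finset.univ.filter fun M => M ∈ K ∧ IsNilpotent M)
    (fun M h => (Finset.mem_filter.1 h).2.2)
    (fun M h M' h' => hKc M (Finset.mem_filter.1 h).2.1 M' (Finset.mem_filter.1 h').2.1)
  have hvW : v ∈ W := fun M hM hn => hv M (Finset.mem_filter.2 ⟨Finset.mem_univ _, hM, hn⟩)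
  have hx : Function.Injective fun i => R.e (dd i) := fun a b h => dd_inj (R.e_inj h)
  have hdiag : ∀ u ∈ W, (Matrix.diagonal fun i => R.e (dd i)) *ᵥ u ∈ W := fun u hu =>
    hgd ▸ hWinv gp hNg u hu
  have hcoord : ∀ {u : Fin 3 → F}, u ∈ W → ∀ i, u i ≠ 0 → Pi.single i (1 : F) ∈ W := by
    intro u hu i hi
    have h := W.smul_mem (u i)⁻¹ (single_mem hx hdiag hu i)
    rwa [← Pi.single_smul, smul_eq_mul, inv_mul_cancel₀ hi] at h
  obtain ⟨i, hi⟩ := Function.ne_iff.1 hv0
  have hall : ∀ j, Pi.single j (1 : F) ∈ W := fun j => by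
    refine hcoord (hWinv hp hNh _ (hcoord hvW i hi)) j ?_
    rw [Matrix.mulVec_single_one]
    exact hhp j i
  have hnil0 : ∀ M ∈ K, IsNilpotent M → M = 0 := fun M hM hn =>
    Matrix.ext_of_mulVec_single fun j => by rw [hall j M hM hn, zero_mulVec]
  -- the centre is diagonal
  have hdg : ∀ i j, i ≠ j → (b₀ : Matrix (Fin 3) (Fin 3) F) i j = 0 := by
    intro i j hij
    have hb : ∀ n ∈ N, Commute b₀ n := fun n hn =>
      congrArg Subtype.val ((Subgroup.mem_center_iff.1 hb₀c ⟨n, hn⟩).symm)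
    have hbK : (b₀ : Matrix (Fin 3) (Fin 3) F) ∈ K := Algebra.subset_adjoin ⟨b₀, hb₀, hb, rfl⟩
    set t : Fin 5 := dd i - dd j with ht
    have ht0 : t ≠ 0 := sub_ne_zero.2 fun h => hij (dd_inj h)
    let Mt : Matrix (Fin 3) (Fin 3) F := ∑ k : Fin 5,
      R.e (-(t * k)) • (((gp ^ (k : ℕ) : GL (Fin 3) F) : Matrix (Fin 3) (Fin 3) F) * b₀ *
        (((gp ^ (k : ℕ))⁻¹ : GL (Fin 3) F) : Matrix (Fin 3) (Fin 3) F))
    have hMK : Mt ∈ K := K.sum_mem fun k _ =>
      K.smul_mem (hKconj (gp ^ (k : ℕ)) (hpowN k) _ hbK) _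
    have hent : ∀ a c, Mt a c =
        if dd a - dd c = t then 5 * (b₀ : Matrix (Fin 3) (Fin 3) F) a c else 0 := by
      intro a c
      have hk : ∀ k : Fin 5, (((gp ^ (k : ℕ) : GL (Fin 3) F) : Matrix (Fin 3) (Fin 3) F) * b₀ *
          (((gp ^ (k : ℕ))⁻¹ : GL (Fin 3) F) : Matrix (Fin 3) (Fin 3) F)) a c =
          R.e (k * (dd a - dd c)) * (b₀ : Matrix (Fin 3) (Fin 3) F) a c := by
        intro k
        set C := ((gp ^ (k : ℕ) : GL (Fin 3) F) : Matrix (Fin 3) (Fin 3) F) * b₀ *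
          (((gp ^ (k : ℕ))⁻¹ : GL (Fin 3) F) : Matrix (Fin 3) (Fin 3) F) with hC
        have h := congrFun (congrFun (show C * ((gp ^ (k : ℕ) : GL (Fin 3) F) :
            Matrix (Fin 3) (Fin 3) F) = ((gp ^ (k : ℕ) : GL (Fin 3) F) : Matrix (Fin 3) (Fin 3) F) *
              (b₀ : Matrix (Fin 3) (Fin 3) F) by
            rw [hC, mul_assoc, Units.inv_mul, mul_one]) a) c
        rw [hpow, Matrix.mul_diagonal, Matrix.diagonal_mul, Fin.cast_val_eq_self] at h
        refine mul_right_cancel₀ (R.e_ne (k * dd c)) ?_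
        rw [h, mul_right_comm, ← R.e_add]
        congr 2
        ring
      simp only [Mt, Matrix.sum_apply, Matrix.smul_apply, smul_eq_mul, hk, ← mul_assoc, ← R.e_add,
        ← Finset.sum_mul]
      have hr : ∀ k : Fin 5, -(t * k) + k * (dd a - dd c) = (dd a - dd c - t) * k :=
        fun k => by ring
      simp only [hr]
      split_ifs with h
      · simp [h, R.e_zero]
      · rw [R.e_sum (sub_ne_zero.2 h), zero_mul]
    have hMn : IsNilpotent Mt := ⟨3, by
      refine Matrix.ext fun a l => ?_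
      simp only [pow_succ, pow_zero, one_mul, Matrix.mul_apply, Finset.sum_mul, Matrix.zero_apply]
      refine Finset.sum_eq_zero fun p _ => Finset.sum_eq_zero fun q _ => ?_
      rw [hent, hent, hent]
      split_ifs with h1 h2 h3 <;> first | (exact absurd h3 (no_path t ht0 _ _ _ _ h1 h2)) | simp⟩
    have h := hent i j
    rw [hnil0 Mt hMK hMn, Matrix.zero_apply, if_pos ht.symm] at h
    exact (mul_eq_zero.1 h.symm).resolve_left R.five
  refine hb₀1 (Subtype.ext (hfix b₀ hb₀ (Units.ext ?_)))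
  ext a c
  rw [Units.val_mul, Units.val_mul, hgd, Matrix.mul_diagonal, Matrix.diagonal_mul]
  by_cases h : a = c
  · subst h; ring
  · rw [hdg a c h, zero_mul, mul_zero]

end Cfsg.Agent.SUFive.Symp
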