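import Cfsg.Agent.SUFive.SympFourCent

/-!
The case `q = 4` of the symplectic type clause for `SU₅(q)`: transport from the model field.
-/

set_option autoImplicit false
set_option linter.unusedSectionVars false
set_option linter.style.haveILetI false
set_option maxRecDepth 100000

namespace Cfsg.Agent.SUFive.Symp

open Matrix Cfsg.Geo Cfsg.Agent.Classical.U
open scoped MatrixGroups Matrix Fin.CommRing Fin.NatCast

namespace Four

theorem exists_equiv {F : Type*} [Field F] [Finite F] (R : URoot5 F 4) :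
    ∃ e : K ≃+* F, e TwE6Five.zeta = R.ω := by
  classical
  haveI : Fintype F := Fintype.ofFinite F
  have hc : Fintype.card F = 16 := by
    have := R.sq.2
    rw [Nat.card_eq_fintype_card] at this
    rw [this]; norm_num
  let e₀ : K ≃+* F := FiniteField.ringEquivOfCardEq (TwE6Five.card_F16.trans hc.symm)
  haveI : ExpChar K 2 := ExpChar.prime Nat.prime_two
  let s : K ≃+* K := RingEquiv.ofBijective (frobenius K 2)
    (Finite.injective_iff_bijective.1 (frobenius_inj K 2))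
  have hs : ∀ x : K, s x = x ^ 2 := fun x => rfl
  obtain ⟨k, hk⟩ := R0.exists_e (a := e₀.symm R.ω) (by rw [← map_pow, R.pow_five, map_one])
  have hz : R.ω = e₀ (TwE6Five.zeta ^ (k : ℕ)) :=
    (e₀.apply_symm_apply R.ω).symm.trans (congrArg e₀ hk)
  fin_cases k
  · exact absurd (by simpa using hz) R.ne_one
  · exact ⟨e₀, by simpa using hz.symm⟩
  · exact ⟨s.trans e₀, by simp [hs, hz]⟩
  · refine ⟨(s.trans (s.trans s)).trans e₀, ?_⟩
    simp only [RingEquiv.trans_apply, hs, hz]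
    exact congrArg e₀ (by decide +kernel)
  · refine ⟨(s.trans s).trans e₀, ?_⟩
    simp only [RingEquiv.trans_apply, hs, hz]
    exact congrArg e₀ (by decide +kernel)

end Four

open Four in
/-- The local analysis for `q = 4`. -/
theorem four_local {F : Type*} [Field F] [Finite F] (R : URoot5 F 4) {M : Subgroup (GL (Fin 5) F)}
    (hM : R.Contains M) :
    ClassicalMax.suGL 5 F 4 ≤ M ∨
      ((∀ u ∈ M, Commute u gJ → u * u = 1 → u = 1 ∨ u = gJ) ∧
        ∀ N : Subgroup (GL (Fin 5) F), N ≤ M ⊓ CJ F →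
          (∀ g ∈ M, g ∈ CJ F → ∀ n ∈ N, g * n * g⁻¹ ∈ N) → Odd (Nat.card N) →
          ∀ n ∈ N, ∃ c : F, (n : Matrix (Fin 5) (Fin 5) F) = c • 1) := by
  classical
  obtain ⟨e, he⟩ := exists_equiv R
  let Φ : GL (Fin 5) K ≃* GL (Fin 5) F := Units.mapEquiv e.mapMatrix.toMulEquiv
  have hΦ : ∀ (g : GL (Fin 5) K) (i j : Fin 5),
      (Φ g : Matrix (Fin 5) (Fin 5) F) i j = e ((g : Matrix (Fin 5) (Fin 5) K) i j) := fun _ _ _ => rfl
  have heR : ∀ a : Fin 5, e (R0.e a) = R.e a := fun a => by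
    simp only [Root5.e, map_pow]
    exact congrArg (· ^ (a : ℕ)) he
  have hsu : ∀ g : GL (Fin 5) K, Φ g ∈ ClassicalMax.suGL 5 F 4 ↔ g ∈ ClassicalMax.suGL 5 K 4 := by
    intro g
    have hdet : (Φ g : Matrix (Fin 5) (Fin 5) F).det = e (g : Matrix (Fin 5) (Fin 5) K).det :=
      (RingHom.map_det e.toRingHom (g : Matrix (Fin 5) (Fin 5) K)).symm
    have hgram : ((Φ g : Matrix (Fin 5) (Fin 5) F))ᵀ *
        (Φ g : Matrix (Fin 5) (Fin 5) F).map (Forms.sqConj R.sq) =
        e.mapMatrix ((g : Matrix (Fin 5) (Fin 5) K)ᵀ *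
          (g : Matrix (Fin 5) (Fin 5) K).map (Forms.sqConj sqField)) := by
      rw [map_mul]
      congr 1
      ext i j
      simp [hΦ, Forms.sqConj_apply]
    simp only [ClassicalMax.suGL, Subgroup.mem_inf, GeoClasses.mem_specialLinear_iff,
      Elusive25.mem_GU_iff_gram R.sq, Elusive25.mem_GU_iff_gram sqField, hgram, hdet,
      map_eq_one_iff e.mapMatrix e.mapMatrix.injective, map_eq_one_iff e e.injective]
  have hz : ∀ (A B : Matrix (Fin 5) (Fin 5) ℤ) (h : A * B = 1) (h' : B * A = 1),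
      Φ (zG K A B h h') = zG F A B h h' := fun A B h h' => by
    refine Units.ext ?_
    ext i j
    rw [hΦ]
    simp [zG, zM]
  have hJ : Φ gJ = gJ := hz _ _ _ _
  have hd : ∀ f, Φ (R0.dG f) = R.dG f := fun f => by
    refine Units.ext ?_
    ext i j
    rw [hΦ, Root5.val_dG, Root5.val_dG, Matrix.diagonal_apply, Matrix.diagonal_apply]
    split <;> simp [heR]
  have hH : Φ R0.gH = R.gH := by
    refine Units.ext ?_
    ext i j
    rw [hΦ, URoot5.val_gH, URoot5.val_gH, map_mul, map_inv₀, heR]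
    congr 2
    simp only [URoot5.s, map_add, map_mul, map_one, map_ofNat, map_pow]
    rw [show e R0.ω = R.ω from he]
  let M' : Subgroup (GL (Fin 5) K) := M.comap Φ.toMonoidHom
  have hM' : R0.Contains M' :=
    { le := fun g hg => (hsu g).1 (hM.le hg)
      hX := show Φ R0.gX ∈ M by rw [Root5.gX, hd]; exact hM.hX
      hA := show Φ gA ∈ M by rw [show Φ (gA : GL (Fin 5) K) = gA from hz _ _ _ _]; exact hM.hA
      hT := show Φ R0.gT ∈ M by rw [Root5.gT, hd]; exact hM.hT
      hS := show Φ gS ∈ M by rw [show Φ (gS : GL (Fin 5) K) = gS from hz _ _ _ _]; exact hM.hS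
      hH := show Φ R0.gH ∈ M by rw [hH]; exact hM.hH }
  by_cases hfull : ClassicalMax.suGL 5 K 4 ≤ M'
  · left
    intro g hg
    obtain ⟨g', rfl⟩ := Φ.surjective g
    exact hfull ((hsu g').1 hg)
  have hC : ∀ g : GL (Fin 5) K, Φ g ∈ CJ F ↔ g ∈ CJ K := fun g => by
    rw [mem_CJ, mem_CJ, Commute, SemiconjBy, Commute, SemiconjBy, ← hJ, ← map_mul, ← map_mul,
      Φ.injective.eq_iff]
  refine Or.inr ⟨?_, ?_⟩
  · intro u hu hc h2
    obtain ⟨v, rfl⟩ := Φ.surjective u
    rcases invol_eq hM' hfull (u := v) hu (mem_CJ.1 ((hC v).1 (mem_CJ.2 hc)))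
      (Φ.injective (by rw [map_mul, h2, map_one])) with h | h
    · exact Or.inl (by rw [h, map_one])
    · exact Or.inr (by rw [h, hJ])
  · intro N hN hn hodd n hnN
    obtain ⟨m, rfl⟩ := Φ.surjective n
    let N' : Subgroup (GL (Fin 5) K) := N.comap Φ.toMonoidHom
    have hN' : N' ≤ M' ⊓ CJ K := fun g hg => ⟨(hN hg).1, (hC g).1 (hN hg).2⟩
    have hn' : ∀ g ∈ M', g ∈ CJ K → ∀ x ∈ N', g * x * g⁻¹ ∈ N' := fun g hg hgc x hx => by
      show Φ (g * x * g⁻¹) ∈ N
      rw [map_mul, map_mul, map_inv]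
      exact hn _ hg ((hC g).2 hgc) _ hx
    have hodd' : Odd (Nat.card N') := by
      rwa [Nat.card_congr (Φ.toEquiv.subtypeEquiv fun _ => Iff.rfl : (N' : Type _) ≃ N)]
    obtain ⟨c, hc⟩ := odd_scalar hM' hfull hN' hn' hodd' (show m ∈ N' from hnN)
    refine ⟨e c, ?_⟩
    ext i j
    rw [hΦ, hc]
    simp [Matrix.one_apply, apply_ite e]

end Cfsg.Agent.SUFive.Symp
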