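import Cfsg.Agent.SUFive.SympFourCore

/-!
The centraliser of `J` in an overgroup of the standard normaliser in `SU₅(4)` over the model field.
-/

set_option autoImplicit false
set_option linter.unusedSectionVars false
set_option maxRecDepth 100000

namespace Cfsg.Agent.SUFive.Symp.Four

open Matrix Cfsg.Geo Cfsg.Agent.Classical.U
open scoped MatrixGroups Matrix Fin.CommRing Fin.NatCast

theorem gram {g : GL (Fin 5) K} (hg : g ∈ ClassicalMax.suGL 5 K 4) :
    ((g : Matrix (Fin 5) (Fin 5) K))ᵀ * (g : Matrix (Fin 5) (Fin 5) K).map cj = 1 := by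
  have h := (Elusive25.mem_GU_iff_gram sqField g).1 hg.1
  rw [show (Forms.sqConj sqField : K → K) = cj from funext fun x => Forms.sqConj_apply sqField x] at h
  exact h

theorem val_inv_eq {g : GL (Fin 5) K} (hg : g ∈ ClassicalMax.suGL 5 K 4) :
    ((g⁻¹ : GL (Fin 5) K) : Matrix (Fin 5) (Fin 5) K) = ((g : Matrix (Fin 5) (Fin 5) K).map cj)ᵀ := by
  refine Units.inv_eq_of_mul_eq_one_right ?_
  rw [mul_eq_one_comm]
  have h := congrArg Matrix.transpose (gram hg)
  rw [Matrix.transpose_mul, Matrix.transpose_transpose, Matrix.transpose_one] at h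
  exact h

theorem matM_inv {g : GL (Fin 5) K} (hg : g ∈ ClassicalMax.suGL 5 K 4) (hc : g ∈ CJ K) :
    matM ((g⁻¹ : GL (Fin 5) K) : Matrix (Fin 5) (Fin 5) K) =
      ((matM (g : Matrix (Fin 5) (Fin 5) K)).map cj)ᵀ := by
  obtain ⟨-, -, -, -, -, h41, h42, -, h31, h34, h32, -⟩ := CJ_eqs hc
  rw [val_inv_eq hg]
  ext i j
  fin_cases i <;> fin_cases j <;>
    simp [matM, sub_eq_add_neg, neg_eq, cj_add, h41, h42, h31, h32]

theorem rM_inv_val (g : CJ K) (hg : (g : GL (Fin 5) K) ∈ ClassicalMax.suGL 5 K 4) :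
    ((rM g⁻¹ : GL (Fin 2) K) : Matrix (Fin 2) (Fin 2) K) =
      ((rM g : Matrix (Fin 2) (Fin 2) K).map cj)ᵀ := by
  rw [val_rM, val_rM]
  exact matM_inv hg g.2

theorem aN_lt (a b : ℕ) : aN a b < 16 :=
  Nat.xor_lt_two_pow (n := 4) (Nat.mod_lt _ (by norm_num)) (Nat.mod_lt _ (by norm_num))

theorem toK2_st2 (A : TN) : toK2 (st2 A) = ((toK2 A).map cj)ᵀ := by
  ext i j; simp [toK2, st2, φ_cj]

/-- A two by two scalar matrix. -/
def Sc (A : Matrix (Fin 2) (Fin 2) K) : Prop := A 0 1 = 0 ∧ A 1 0 = 0 ∧ A 0 0 = A 1 1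

theorem Sc.pow {A : Matrix (Fin 2) (Fin 2) K} (h : Sc A) (n : ℕ) : Sc (A ^ n) := by
  obtain ⟨h1, h2, h3⟩ := h
  have : A = A 0 0 • (1 : Matrix (Fin 2) (Fin 2) K) := by
    ext i j; fin_cases i <;> fin_cases j <;> simp [h1, h2, h3]
  rw [this, smul_pow, one_pow]
  exact ⟨by simp, by simp, by simp⟩

theorem Sc_toK2 {A : TN} (h : isScal A = true) : Sc (toK2 A) := by
  simp only [isScal, Bool.and_eq_true, beq_iff_eq] at h
  obtain ⟨⟨h1, h2⟩, h3⟩ := h
  refine ⟨?_, ?_, ?_⟩ <;> simp only [toK2, Matrix.of_apply]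
  · rw [← φ_mod, h1, φ_zero]
  · rw [← φ_mod, h2, φ_zero]
  · rw [← φ_mod, h3, φ_mod]

theorem isScal_of_Sc {A : TN} (h : Sc (toK2 A)) : isScal A = true := by
  obtain ⟨h1, h2, h3⟩ := h
  simp only [toK2, Matrix.of_apply] at h1 h2 h3
  simp only [isScal, Bool.and_eq_true, beq_iff_eq]
  exact ⟨⟨(φ_inj (h1.trans φ_zero.symm)).trans (Nat.zero_mod _),
    (φ_inj (h2.trans φ_zero.symm)).trans (Nat.zero_mod _)⟩, φ_inj h3⟩

theorem det_radical {G : Matrix (Fin 5) (Fin 5) K}
    (he : G 4 0 = G 1 0 ∧ G 3 0 = G 2 0 ∧ G 0 4 = G 0 1 ∧ G 0 3 = G 0 2 ∧ G 4 4 = G 1 1 ∧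
      G 4 1 = G 1 4 ∧ G 4 2 = G 1 3 ∧ G 4 3 = G 1 2 ∧ G 3 1 = G 2 4 ∧ G 3 4 = G 2 1 ∧
      G 3 2 = G 2 3 ∧ G 3 3 = G 2 2)
    (f11 : G 1 1 = 1 + G 1 4) (f13 : G 1 3 = G 1 2) (f24 : G 2 4 = G 2 1)
    (f22 : G 2 2 = 1 + G 2 3) (hd : G.det = 1) : G 0 0 = 1 := by
  obtain ⟨e40, e30, e04, e03, e44, e41, e42, e43, e31, e34, e32, e33⟩ := he
  set B := (!![0, 0, 1, 0, 0; 1, 0, 0, 1, 0; 0, 1, 0, 0, 1; 0, 1, 0, 0, 0; 1, 0, 0, 0, 0] :
    Matrix (Fin 5) (Fin 5) K) with hBd
  have hBB : B * !![0, 0, 0, 0, 1; 0, 0, 0, 1, 0; 1, 0, 0, 0, 0; 0, 1, 0, 0, 1; 0, 0, 1, 1, 0] = 1 := by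
    rw [hBd]; decide +kernel
  have hB : B.det ≠ 0 := fun h0 => by
    have h := congrArg Matrix.det hBB
    rw [Matrix.det_mul, h0, zero_mul, Matrix.det_one] at h
    exact zero_ne_one h
  set T := (!![1, 0, G 1 0, G 1 4, G 1 2; 0, 1, G 2 0, G 2 1, G 2 3; 0, 0, G 0 0, G 0 1, G 0 2;
    0, 0, 0, 1, 0; 0, 0, 0, 0, 1] : Matrix (Fin 5) (Fin 5) K) with hTd
  have he : G * B = B * T := by
    ext i j
    fin_cases i <;> fin_cases j <;>
      simp [hBd, hTd, Matrix.mul_apply, Fin.sum_univ_five, e40, e30, e04, e03, e44, e41, e42, e43,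
        e31, e34, e32, e33, f11, f13, f24, f22] <;>
      first
      | done
      | exact add_self _
      | linear_combination (G 1 4) * two_eq_zero
      | linear_combination (G 2 3) * two_eq_zero
      | linear_combination (G 1 2) * two_eq_zero
      | linear_combination (G 2 1) * two_eq_zero
      | ring
  have hT : T.det = G 0 0 := by
    rw [Matrix.det_of_upperTriangular]
    · simp [hTd, Fin.prod_univ_five]
    · intro i j hij
      revert hij
      fin_cases i <;> fin_cases j <;> intro hij <;> first | rfl | exact absurd hij (by decide)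
  have h := congrArg Matrix.det he
  rw [Matrix.det_mul, Matrix.det_mul, hd, one_mul, hT] at h
  exact (mul_left_cancel₀ hB ((mul_one _).trans h)).symm

variable {M : Subgroup (GL (Fin 5) K)} (hM : R0.Contains M)
include hM

set_option maxHeartbeats 1600000 in
/-- The kernel on `im (J - 1)`. -/
theorem kernel {u : GL (Fin 5) K} (hu : u ∈ M ⊓ CJ K)
    (h1 : matM (u : Matrix (Fin 5) (Fin 5) K) = 1) :
    (u = 1 ∨ u = gJ) ∨ ClassicalMax.suGL 5 K 4 ≤ M := by
  obtain ⟨e40, e30, e04, e03, e44, e41, e42, e43, e31, e34, e32, e33⟩ := CJ_eqs hu.2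
  set G := (u : Matrix (Fin 5) (Fin 5) K) with hG
  have m00 : G 1 1 + G 1 4 = 1 := by
    simpa [matM, sub_eq_add_neg, neg_eq] using congrFun (congrFun h1 0) 0
  have m01 : G 1 2 + G 1 3 = 0 := by
    simpa [matM, sub_eq_add_neg, neg_eq] using congrFun (congrFun h1 0) 1
  have m10 : G 2 1 + G 2 4 = 0 := by
    simpa [matM, sub_eq_add_neg, neg_eq] using congrFun (congrFun h1 1) 0
  have m11 : G 2 2 + G 2 3 = 1 := by
    simpa [matM, sub_eq_add_neg, neg_eq] using congrFun (congrFun h1 1) 1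
  have f11 : G 1 1 = 1 + G 1 4 := by linear_combination m00 - G 1 4 * two_eq_zero
  have f13 : G 1 3 = G 1 2 := by linear_combination m01 - G 1 2 * two_eq_zero
  have f24 : G 2 4 = G 2 1 := by linear_combination m10 - G 2 1 * two_eq_zero
  have f22 : G 2 2 = 1 + G 2 3 := by linear_combination m11 - G 2 3 * two_eq_zero
  have col := fun a b => congrFun (congrFun (gram (hM.le hu.1)) a) b
  simp only [Matrix.mul_apply, Fin.sum_univ_five, Matrix.transpose_apply, Matrix.map_apply] at col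
  obtain ⟨c, hc⟩ : ∃ c, c = G 0 0 := ⟨_, rfl⟩
  have c01 := col 0 1
  have c02 := col 0 2
  have c14 := col 1 4
  have c23 := col 2 3
  have c12 := col 1 2
  rw [← hG] at c01 c02 c14 c23 c12
  simp [e40, e30, e04, e03, e44, e41, e42, e43, e31, e34, e32, e33, f11, f13, f24, f22, cj_add,
    cj_one] at c01 c02 c14 c23 c12
  have hdet : G 0 0 = 1 :=
    det_radical (CJ_eqs hu.2) f11 f13 f24 f22 (hM.det_eq hu.1)
  simp only [hdet, one_mul] at c01 c02
  set s := G 1 0
  set t := G 2 0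
  set x := G 1 4
  set y := G 1 2
  set z := G 2 3
  have hr1 : G 0 1 = cj s := by
    have : cj (G 0 1) = s := by
      linear_combination c01 - s * (1 + cj x) * two_eq_zero - t * cj (G 2 1) * two_eq_zero
    rw [← this, cj_cj]
  have hr2 : G 0 2 = cj t := by
    have : cj (G 0 2) = t := by
      linear_combination c02 - t * (1 + cj z) * two_eq_zero - s * cj y * two_eq_zero
    rw [← this, cj_cj]
  rw [hr1, cj_cj] at c14
  rw [hr2, cj_cj] at c23
  rw [hr1, hr2, cj_cj] at c12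
  have hx : x + cj x = cj s * s := by
    linear_combination c14 - (cj s * s + x * cj x + G 2 1 * cj (G 2 1)) * two_eq_zero
  have hz : z + cj z = cj t * t := by
    linear_combination c23 - (cj t * t + z * cj z + y * cj y) * two_eq_zero
  have hy2 : G 2 1 = cj y + cj s * t := by
    linear_combination c12 - (cj y + cj s * t + x * cj y + G 2 1 * cj z) * two_eq_zero
  by_cases hst : s = 0 ∧ t = 0
  · obtain ⟨hs, ht⟩ := hst
    rw [hs, mul_zero] at hx
    rw [ht, mul_zero] at hz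
    rw [hs, cj_zero, zero_mul, add_zero] at hy2
    have hx4 : x ^ 4 = x := by
      show cj x = x
      linear_combination hx - x * two_eq_zero
    have hz4 : z ^ 4 = z := by
      show cj z = z
      linear_combination hz - z * two_eq_zero
    rw [hs, cj_zero] at hr1
    rw [ht, cj_zero] at hr2
    have hGZ : G = Zm x z y := by
      ext i j
      fin_cases i <;> fin_cases j <;>
        simp [Zm, e40, e30, e04, e03, e44, e41, e42, e43, e31, e34, e32, e33, f11, f13, f24, f22,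
          hdet, hr1, hr2, hy2, hs, ht, x, y, z] <;> first | done | rfl | (exact hs) | (exact ht)
    by_cases hne : y = 0 ∧ x = z ∧ (x = 0 ∨ x = 1)
    · obtain ⟨h0, hxz, h01⟩ := hne
      left
      rw [h0, ← hxz] at hGZ
      rcases h01 with h | h <;> rw [h] at hGZ
      · left
        refine Units.ext (hGZ.trans ?_)
        have := toK_zN 0 0 0
        rw [φ_zero] at this
        rw [Units.val_one, ← this, ← toK_oneN]
        exact toK_eq_of (by decide +kernel)
      · right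
        exact Units.ext (hGZ.trans Zm_J)
    · exact Or.inr (full_of_Zm hM hx4 hz4 ⟨u, hu.1, hGZ⟩ hne)
  · right
    have hsq : G * G = Zm (s * cj s) (t * cj t) (s * cj t) := by
      ext i j
      fin_cases i <;> fin_cases j <;>
        simp [Zm, Matrix.mul_apply, Fin.sum_univ_five, e40, e30, e04, e03, e44, e41, e42, e43, e31,
          e34, e32, e33, f11, f13, f24, f22, hdet, hr1, hr2, cj_mul, cj_cj, show G 1 0 = s from rfl,
          show G 2 0 = t from rfl, show G 1 4 = x from rfl, show G 1 2 = y from rfl,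
          show G 2 3 = z from rfl] <;>
        ring_nf <;> simp only [two_eq_zero, mul_zero, add_zero]
    have fix : ∀ w : K, (w * cj w) ^ 4 = w * cj w := fun w => by
      show cj _ = _
      rw [cj_mul, cj_cj, mul_comm]
    refine full_of_Zm hM (fix s) (fix t) ⟨u * u, mul_mem hu.1 hu.1, (Units.val_mul u u).trans hsq⟩ ?_
    rintro ⟨h0, hxz, -⟩
    have hc0 : ∀ w : K, w * cj w = 0 → w = 0 := fun w hw => by
      rcases mul_eq_zero.1 hw with h | h
      · exact h
      · rw [← cj_cj w, h, cj_zero]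
    rcases mul_eq_zero.1 h0 with h | h
    · exact hst ⟨h, hc0 t (by rw [← hxz, h, zero_mul])⟩
    · have ht : t = 0 := by rw [← cj_cj t, h, cj_zero]
      exact hst ⟨hc0 s (by rw [hxz, ht, zero_mul]), ht⟩

/-- Every element of the centraliser is a word up to the kernel. -/
theorem exists_word {g : GL (Fin 5) K} (hg : g ∈ M ⊓ CJ K) :
    ∃ (k j : Fin 5) (t : Fin 4) (i : Fin 5) (w : GL (Fin 5) K), w ∈ M ⊓ CJ K ∧
      (w : Matrix (Fin 5) (Fin 5) K) = toK (wordN k j t i) ∧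
      matM ((w * g : GL (Fin 5) K) : Matrix (Fin 5) (Fin 5) K) = 1 := by
  have hgi : g⁻¹ ∈ CJ K := inv_mem hg.2
  have h1 : matM (g : Matrix (Fin 5) (Fin 5) K) *
      ((matM (g : Matrix (Fin 5) (Fin 5) K)).map cj)ᵀ = 1 := by
    rw [← matM_inv (hM.le hg.1) hg.2, ← matM_mul g hgi, mul_inv_cancel,
      Units.val_one, matM_one]
  set A := matM (g : Matrix (Fin 5) (Fin 5) K) with hA
  obtain ⟨a, ha, ea⟩ := exists_lt (A 0 0)
  obtain ⟨b, hb, eb⟩ := exists_lt (A 0 1)
  obtain ⟨c, hc, ec⟩ := exists_lt (A 1 0)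
  obtain ⟨d, hd, ed⟩ := exists_lt (A 1 1)
  have q00 := congrFun (congrFun h1 0) 0
  have q11 := congrFun (congrFun h1 1) 1
  have q01 := congrFun (congrFun h1 0) 1
  simp [Matrix.mul_apply, Fin.sum_univ_two, ← ea, ← eb, ← ec, ← ed, ← φ_cj, ← φ_mul, ← φ_add] at q00 q11 q01
  have r00 : aN (mN a (cN a)) (mN b (cN b)) = 1 := by
    have := φ_inj (q00.trans φ_one.symm)
    rwa [Nat.mod_eq_of_lt (aN_lt _ _)] at this
  have r11 : aN (mN c (cN c)) (mN d (cN d)) = 1 := by
    have := φ_inj (q11.trans φ_one.symm)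
    rwa [Nat.mod_eq_of_lt (aN_lt _ _)] at this
  have r01 : aN (mN a (cN c)) (mN b (cN d)) = 0 := by
    have := φ_inj (q01.trans φ_zero.symm)
    rwa [Nat.mod_eq_of_lt (aN_lt _ _)] at this
  have h := List.all_eq_true.1 levi_ok a ha
  have h' := List.all_eq_true.1 h b hb
  simp only [r00, beq_self_eq_true, Bool.not_true, Bool.false_or, List.all_eq_true] at h'
  have h'' := h' c hc d hd
  simp only [r11, r01, beq_self_eq_true, Bool.and_self, Bool.not_true, Bool.false_or,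
    List.any_eq_true, Bool.and_eq_true] at h''
  obtain ⟨t, -, i, -, -, k, -, j, -, he⟩ := h''
  obtain ⟨w, hw, hwv⟩ := mem_word hM k j t i
  refine ⟨k, j, t, i, w, hw, hwv, ?_⟩
  rw [matM_mul w hg.2, hwv, matM_toK, ← hA]
  have hA' : A = toK2 ![![a, b], ![c, d]] := by
    ext r s
    fin_cases r <;> fin_cases s <;> simp [toK2, ea, eb, ec, ed]
  rw [hA', ← toK2_mul, toK2_eq_of he, toK2_one2]

theorem word_or_full {g : GL (Fin 5) K} (hg : g ∈ M ⊓ CJ K) :
    (∃ (k j : Fin 5) (t : Fin 4) (i : Fin 5) (w : GL (Fin 5) K), w ∈ M ⊓ CJ K ∧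
      (w : Matrix (Fin 5) (Fin 5) K) = toK (wordN k j t i) ∧ (w * g = 1 ∨ w * g = gJ)) ∨
    ClassicalMax.suGL 5 K 4 ≤ M := by
  obtain ⟨k, j, t, i, w, hw, hwv, h1⟩ := exists_word hM hg
  rcases kernel hM (mul_mem hw hg) h1 with h | h
  · exact Or.inl ⟨k, j, t, i, w, hw, hwv, h⟩
  · exact Or.inr h

theorem invol_eq (hfull : ¬ ClassicalMax.suGL 5 K 4 ≤ M) {u : GL (Fin 5) K} (hu : u ∈ M)
    (hJ : Commute u gJ) (h2 : u * u = 1) : u = 1 ∨ u = gJ := by
  have hu' : u ∈ M ⊓ CJ K := ⟨hu, mem_CJ.2 hJ⟩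
  obtain ⟨k, j, t, i, w, hw, hwv, h⟩ := (word_or_full hM hu').resolve_right hfull
  have hwJ : Commute w gJ := mem_CJ.1 hw.2
  have hui : u⁻¹ = u := inv_eq_of_mul_eq_one_right h2
  have hw' : w = u ∨ w = gJ * u := by
    rcases h with h | h
    · exact Or.inl ((eq_inv_of_mul_eq_one_left h).trans hui)
    · exact Or.inr (by rw [← h, mul_assoc, h2, mul_one])
  have hw2 : w * w = 1 := by
    rcases hw' with e | e <;> subst e
    · exact h2
    · rw [mul_assoc, ← mul_assoc u, hJ.eq, mul_assoc gJ, h2, mul_one, gJ_sq]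
  have hN : eqN (mulN (wordN k j t i) (wordN k j t i)) oneN = true := eqN_of (by
    rw [toK_mul, toK_oneN, ← hwv, ← Units.val_mul, hw2, Units.val_one])
  have := List.all_eq_true.1 (List.all_eq_true.1 (List.all_eq_true.1 (List.all_eq_true.1 invol_ok k
    (mem_l5 k)) j (mem_l5 j)) t (mem_lt4 t)) i (mem_l5 i)
  simp only [hN, Bool.not_true, Bool.false_or, Bool.or_eq_true] at this
  have hw1 : w = 1 ∨ w = gJ := by
    rcases this with e | e
    · exact Or.inl (Units.ext (by rw [hwv, toK_eq_of e, toK_oneN, Units.val_one]))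
    · exact Or.inr (Units.ext (by rw [hwv, toK_eq_of e, toK_jN]))
  rcases hw' with e | e <;> rcases hw1 with e' | e' <;> rw [e'] at e
  · exact Or.inl e.symm
  · exact Or.inr e.symm
  · exact Or.inr ((inv_eq_of_mul_eq_one_right e.symm).symm.trans (inv_eq_of_mul_eq_one_right gJ_sq))
  · exact Or.inl (mul_eq_left.1 e.symm)

theorem odd_scalar (hfull : ¬ ClassicalMax.suGL 5 K 4 ≤ M) {N : Subgroup (GL (Fin 5) K)}
    (hN : N ≤ M ⊓ CJ K) (hn : ∀ g ∈ M, g ∈ CJ K → ∀ n ∈ N, g * n * g⁻¹ ∈ N)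
    (hodd : Odd (Nat.card N)) {n : GL (Fin 5) K} (hnN : n ∈ N) :
    ∃ c : K, (n : Matrix (Fin 5) (Fin 5) K) = c • 1 := by
  have hordd : ∀ x ∈ N, Odd (orderOf x) := fun x hx => by
    have := _root_.orderOf_dvd_natCard (⟨x, hx⟩ : N)
    rw [Subgroup.orderOf_mk] at this
    exact hodd.of_dvd_nat this
  have hni : n⁻¹ ∈ N := inv_mem hnN
  obtain ⟨k, j, t, i, w, hw, hwv, h⟩ := (word_or_full hM (hN hnN)).resolve_right hfull
  have hwJ : Commute w gJ := mem_CJ.1 hw.2
  have hwn : n⁻¹ = w ∨ n⁻¹ = gJ * w := by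
    rcases h with h | h
    · exact Or.inl (eq_inv_of_mul_eq_one_left h).symm
    · refine Or.inr (inv_eq_of_mul_eq_one_left ?_)
      rw [mul_assoc, h, gJ_sq]
  have := List.all_eq_true.1 (List.all_eq_true.1 (List.all_eq_true.1 (List.all_eq_true.1 comm_ok k
    (mem_l5 k)) j (mem_l5 j)) t (mem_lt4 t)) i (mem_l5 i)
  simp only [Bool.or_eq_true, Bool.and_eq_true, List.any_eq_true, Bool.not_eq_true'] at this
  rcases this with ⟨-, l, -, hl⟩ | ⟨t', -, j', -, i', -, hC, hC2⟩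
  · -- `n⁻¹` is a scalar, possibly times `J`; odd order leaves a scalar
    have hw' : (w : Matrix (Fin 5) (Fin 5) K) = R0.e l • 1 ∨
        (w : Matrix (Fin 5) (Fin 5) K) = R0.e l • ((gJ : GL (Fin 5) K) : Matrix (Fin 5) (Fin 5) K) := by
      rcases hl with e | e
      · exact Or.inl (by rw [hwv, toK_eq_of e, toK_scN, toK_oneN])
      · exact Or.inr (by rw [hwv, toK_eq_of e, toK_scN, toK_jN])
    have hJ1 : ((gJ : GL (Fin 5) K) : Matrix (Fin 5) (Fin 5) K) * (gJ : GL (Fin 5) K) = 1 := by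
      rw [← Units.val_mul, gJ_sq, Units.val_one]
    have cases' : (∃ c : K, ((n⁻¹ : GL (Fin 5) K) : Matrix (Fin 5) (Fin 5) K) = c • 1) ∨
        ∃ c : K, ((n⁻¹ : GL (Fin 5) K) : Matrix (Fin 5) (Fin 5) K) =
          c • ((gJ : GL (Fin 5) K) : Matrix (Fin 5) (Fin 5) K) := by
      rcases hwn with e | e <;> rcases hw' with e' | e' <;> rw [e]
      · exact Or.inl ⟨_, e'⟩
      · exact Or.inr ⟨_, e'⟩
      · exact Or.inr ⟨R0.e l, by rw [Units.val_mul, e', Matrix.mul_smul, Matrix.mul_one]⟩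
      · exact Or.inl ⟨R0.e l, by rw [Units.val_mul, e', Matrix.mul_smul, hJ1]⟩
    rcases cases' with ⟨c, hc⟩ | ⟨c, hc⟩
    · have hc0 : c ≠ 0 := by
        intro h0
        have := congrArg (fun A : Matrix (Fin 5) (Fin 5) K => (n : Matrix (Fin 5) (Fin 5) K) * A) hc
        simp [h0] at this
      refine ⟨c⁻¹, ?_⟩
      have := congrArg (fun A : Matrix (Fin 5) (Fin 5) K => (n : Matrix (Fin 5) (Fin 5) K) * A) hc
      simp only [Units.mul_inv, Matrix.mul_smul, Matrix.mul_one] at this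
      rw [this, smul_smul, inv_mul_cancel₀ hc0, one_smul]
    · exfalso
      obtain ⟨m, hm⟩ := hordd _ hni
      have hp := congrArg (fun x : GL (Fin 5) K => (x : Matrix (Fin 5) (Fin 5) K))
        (pow_orderOf_eq_one n⁻¹)
      simp only [hm, Units.val_pow_eq_pow_val, hc, smul_pow, Units.val_one] at hp
      rw [pow_succ ((gJ : GL (Fin 5) K) : Matrix (Fin 5) (Fin 5) K), pow_mul, sq, hJ1, one_pow,
        one_mul] at hp
      have := congrFun (congrFun hp 0) 0
      have h14 := congrFun (congrFun hp 1) 4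
      simp [val_gJ, show (1 : Fin 5) = -4 by decide] at this h14
      simp_all
  · obtain ⟨b, hb, hbv⟩ := mem_word hM 0 j' t' i'
    let W : CJ K := ⟨w, hw.2⟩
    let B : CJ K := ⟨b, hb.2⟩
    let n₀ : CJ K := ⟨n⁻¹, (hN hni).2⟩
    let m : CJ K := n₀ * (B * (n₀ * n₀) * B⁻¹)
    have hmN : (m : GL (Fin 5) K) ∈ N := mul_mem hni (hn b hb.1 hb.2 _ (mul_mem hni hni))
    have hrJ : rM (⟨gJ, gJ_mem_CJ⟩ : CJ K) = 1 := by
      rw [rM_gJ]; exact Units.ext (by rw [Units.val_neg, Units.val_one]; ext r s; exact neg_eq _)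
    have hrn : rM n₀ = rM W := by
      rcases hwn with e | e
      · exact congrArg rM (Subtype.ext e)
      · rw [show n₀ = ⟨gJ, gJ_mem_CJ⟩ * W from Subtype.ext e, map_mul, hrJ, one_mul]
    have hrw : (rM W : Matrix (Fin 2) (Fin 2) K) = toK2 (imN (wordN k j t i)) := by
      rw [val_rM]; exact (congrArg matM hwv).trans (matM_toK _)
    have hrb : (rM B : Matrix (Fin 2) (Fin 2) K) = toK2 (imN (wordN 0 j' t' i')) := by
      rw [val_rM]; exact (congrArg matM hbv).trans (matM_toK _)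
    have hrm : (rM m : Matrix (Fin 2) (Fin 2) K) =
        toK2 (prodN (imN (wordN k j t i)) (imN (wordN 0 j' t' i'))) := by
      simp only [m, map_mul, Units.val_mul, rM_inv_val B (hM.le hb.1), hrn, hrw, hrb, prodN,
        toK2_mul, toK2_st2]
      simp only [mul_assoc]
    have hmo : Odd (orderOf m) := by
      rw [← Subgroup.orderOf_coe]
      exact hordd _ hmN
    obtain ⟨r, hr⟩ := hmo
    have hmp : m = (m * m) ^ (r + 1) := by
      rw [← sq, ← pow_mul, show 2 * (r + 1) = (2 * r + 1) + 1 by ring, pow_succ, ← hr,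
        pow_orderOf_eq_one, one_mul]
    have hs2 : Sc ((rM (m * m) : GL (Fin 2) K) : Matrix (Fin 2) (Fin 2) K) := by
      rw [map_mul, Units.val_mul, hrm, ← toK2_mul]
      exact Sc_toK2 hC2
    have hs : Sc ((rM m : GL (Fin 2) K) : Matrix (Fin 2) (Fin 2) K) := by
      rw [hmp, map_pow, Units.val_pow_eq_pow_val]
      exact hs2.pow _
    rw [hrm] at hs
    rw [isScal_of_Sc hs] at hC
    exact absurd hC (by decide)

end Cfsg.Agent.SUFive.Symp.Four
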