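import Cfsg.Agent.SUFive.SympUnit
import Cfsg.Agent.DecompMax.UnitGen
import Cfsg.Agent.GeoClasses.UnitParabolic
import Cfsg.Agent.MaxSub.CSixU.Trans

/-!
A group containing the shift, the doubling map and the transvections of one coordinate plane is the
whole special unitary group in dimension five.
-/

set_option autoImplicit false
set_option linter.unusedSectionVars false
set_option linter.style.haveILetI false

namespace Cfsg.Agent.SUFive.Symp

open Matrix Cfsg.Geo Cfsg.Agent.Classical.U Cfsg.Agent.DecompMax.UCount Cfsg.Agent.DecompMax.UN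
open Cfsg.Agent.DecompMax.UF
open scoped MatrixGroups Matrix Fin.CommRing Fin.NatCast

universe u

variable {F : Type u} [Field F] {q : ℕ}

section Pairs

variable {n : ℕ} {M : Subgroup (UG n F q)} (hF : SqField F q)
include hF

/-- All centres, once the centres supported on each pair of coordinates are there. -/
theorem ctr_all_of_pairs (hq : 3 ≤ q)
    (h2 : ∀ i j : Fin n, ∀ e, herm q e e = 0 → supp e ⊆ {i, j} → e ∈ ctr hF M) (hn : 2 ≤ n) :
    ∀ v, herm q v v = 0 → v ∈ ctr hF M := by
  classical
  haveI : Finite F := hF.1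
  haveI : Fintype F := Fintype.ofFinite F
  have small : ∀ v : Fin n → F, herm q v v = 0 → (supp v).card ≤ 2 → v ∈ ctr hF M := by
    intro v hv hc
    rcases Nat.lt_or_ge (supp v).card 2 with h | h
    · rcases Nat.lt_or_ge (supp v).card 1 with h0 | h0
      · exact h2 ⟨0, by omega⟩ ⟨0, by omega⟩ v hv (by
          rw [Finset.card_eq_zero.1 (by omega : (supp v).card = 0)]; exact Finset.empty_subset _)
      · obtain ⟨i, hi⟩ := Finset.card_eq_one.1 (by omega : (supp v).card = 1)
        exact h2 i i v hv (by rw [hi]; simp)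
    · obtain ⟨i, j, -, hs⟩ := Finset.card_eq_two.1 (le_antisymm hc h)
      exact h2 i j v hv hs.le
  suffices ∀ d v, herm q v v = 0 → (supp v).card ≤ d → v ∈ ctr hF M from fun v hv => this _ v hv le_rfl
  intro d
  induction d with
  | zero => intro v hv hc'; exact small v hv (by omega)
  | succ d ih =>
    intro v hv hcard
    rcases Nat.lt_or_ge (supp v).card 3 with h3 | h3
    · exact small v hv (by omega)
    have good : ∀ v', herm q v' v' = 0 → (supp v').card ≤ d + 1 →
        (∃ i j, i ≠ j ∧ v' i ≠ 0 ∧ v' j ≠ 0 ∧ v' i * v' i ^ q + v' j * v' j ^ q ≠ 0) →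
        v' ∈ ctr hF M := by
      rintro v' hv' hcard' ⟨i, j, hij, hi, hj, hs⟩
      exact ctr_of_pair hF hij (h2 i j) hv' hj hs (fun z hz hlt _ => ih z hz (by omega)) hi
    by_cases hgood : ∃ i j, i ≠ j ∧ v i ≠ 0 ∧ v j ≠ 0 ∧ v i * v i ^ q + v j * v j ^ q ≠ 0
    · exact good v hv hcard hgood
    push Not at hgood
    obtain ⟨i, j, k, hi, hj, hk, hij, hik, hjk⟩ := Finset.two_lt_card_iff.1 (show 2 < (supp v).card by omega)
    rw [mem_supp] at hi hj hk
    set c := v i * v i ^ q with hcdef
    have hc0 : c ≠ 0 := mul_ne_zero hi (pow_ne_zero _ hi)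
    have hcj : v j * v j ^ q = -c := by linear_combination hgood i j hij hi hj
    have hck : v k * v k ^ q = -c := by linear_combination hgood i k hik hi hk
    have h20 : (2 : F) = 0 := by
      have h := hgood j k hjk hj hk
      exact (mul_eq_zero.1 (show (2 : F) * c = 0 by linear_combination hcj + hck - h)).resolve_right hc0
    have hck' : v k * v k ^ q = c := by linear_combination hck - c * h20
    obtain ⟨κ, hκ⟩ := exists_norm_one_ne hF
    set ζ := ((κ : Fˣ) : F) with hζ
    set f : Fin n → F := fun x => if x = i then v i else if x = j then ζ * v j else 0 with hf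
    have hfs : supp f ⊆ {i, j} := fun x hx => by
      by_contra h
      simp only [Finset.mem_insert, Finset.mem_singleton, not_or] at h
      exact mem_supp.1 hx (by simp [hf, h.1, h.2])
    have hff : herm q f f = 0 := by
      rw [herm_of_supp hF hfs, Finset.sum_pair hij]
      simp only [hf, if_true, if_neg (Ne.symm hij), mul_pow]
      linear_combination hcj - hcdef + (v j * v j ^ q) * NU.mul_pow_eq κ
    set s := herm q f v with hs
    have hs' : s = c * (1 - ζ) := by
      rw [hs, herm_of_supp hF hfs, Finset.sum_pair hij]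
      simp only [hf, if_true, if_neg (Ne.symm hij)]
      linear_combination ζ * hcj - hcdef
    have hs0 : s ^ q ≠ 0 := pow_ne_zero _ (by rw [hs']; exact mul_ne_zero hc0 (sub_ne_zero.2 (Ne.symm hκ)))
    set X : F → F := fun a => a * s ^ q
    set bad : Finset F := Finset.univ.filter fun a => X a = -1 ∨ (a ≠ 0 ∧ X a + X a ^ q + X a * X a ^ q = 0)
    obtain ⟨a, ha, hab⟩ : ∃ a, (a ^ q = -a ∧ a ≠ 0) ∧ a ∉ bad := by
      by_contra hcon
      push Not at hcon
      exact show False by
        have hsub : bad ⊆ (Finset.univ.filter fun a => X a = -1) ∪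
            (Finset.univ.filter fun a : F => (a ^ q = -a ∧ a ≠ 0) ∧ X a + X a ^ q + X a * X a ^ q = 0) ∪
            (Finset.univ.filter fun a : F => ¬ a ^ q = -a ∧ a ∈ bad) := fun a ha => by
          have ha2 := (Finset.mem_filter.1 ha).2
          simp only [Finset.mem_union, Finset.mem_filter, Finset.mem_univ, true_and]
          by_cases hq' : a ^ q = -a
          · rcases ha2 with h | h
            · exact Or.inl (Or.inl h)
            · exact Or.inl (Or.inr ⟨⟨hq', h.1⟩, h.2⟩)
          · exact Or.inr ⟨hq', ha⟩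
        have hone : (Finset.univ.filter fun a : F => (a ^ q = -a ∧ a ≠ 0) ∧
            X a + X a ^ q + X a * X a ^ q = 0).card ≤ 1 := by
          refine Finset.card_le_one.2 fun a ha a' ha' => ?_
          simp only [Finset.mem_filter, X, mul_pow, hF.pow_pow] at ha ha'
          have e1 : a * (s ^ q - s - a * s ^ q * s) = 0 := by
            have := ha.2.2
            rw [ha.2.1.1] at this
            linear_combination this
          have e2 : a' * (s ^ q - s - a' * s ^ q * s) = 0 := by
            have := ha'.2.2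
            rw [ha'.2.1.1] at this
            linear_combination this
          have f1 := (mul_eq_zero.1 e1).resolve_left ha.2.1.2
          have f2 := (mul_eq_zero.1 e2).resolve_left ha'.2.1.2
          have hs1 : s ≠ 0 := fun e => hs0 (by rw [e, zero_pow hF.q_ne_zero])
          exact mul_right_cancel₀ (mul_ne_zero hs0 hs1) (by linear_combination f2 - f1)
        have hsk : Finset.univ.filter (fun a : F => (a ^ q = -a ∧ a ≠ 0)) ⊆
            (Finset.univ.filter fun a => X a = -1) ∪ (Finset.univ.filter fun a : F => (a ^ q = -a ∧ a ≠ 0) ∧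
              X a + X a ^ q + X a * X a ^ q = 0) := fun a ha => by
          simp only [Finset.mem_filter, Finset.mem_univ, true_and] at ha
          have := (Finset.mem_filter.1 (hcon a ha)).2
          simp only [Finset.mem_union, Finset.mem_filter, Finset.mem_univ, true_and]
          rcases this with h | h
          · exact Or.inl h
          · exact Or.inr ⟨ha, h.2⟩
        exfalso
        obtain ⟨δ, hδ0, hδ⟩ := hF.exists_skew
        have hone' : (Finset.univ.filter fun a => X a = -1).card ≤ 1 := Finset.card_le_one.2 fun a ha a' ha' => by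
          simp only [Finset.mem_filter, X] at ha ha'
          exact mul_right_cancel₀ hs0 (ha.2.trans ha'.2.symm)
        have hl1 : (1 : F) + 1 = 0 := by linear_combination h20
        have h3' : 3 ≤ (Finset.univ.filter fun a : F => a ^ q = -a ∧ a ≠ 0).card := by
          have hq4 : 4 ≤ q := by
            obtain ⟨p, e', hp, hc', he'⟩ := hF.exists_char
            have hp2 : p = 2 := by
              have := (CharP.cast_eq_zero_iff F p 2).1 (by exact_mod_cast h20)
              exact (Nat.prime_dvd_prime_iff_eq hp Nat.prime_two).1 this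
            rw [hp2] at he'
            rcases e' with _ | _ | e'
            · simp at he'; omega
            · simp at he'; omega
            · rw [he', pow_succ, pow_succ]
              have := Nat.one_le_two_pow (n := e')
              omega
          have hk : Nat.card {c : F // c ^ (q - 1) = 1} = q - 1 := hF.card_fixed_units
          rw [Nat.card_eq_fintype_card, Fintype.card_subtype] at hk
          refine le_trans (show 3 ≤ _ from (by omega : 3 ≤ q - 1).trans hk.ge) (Finset.card_le_card fun a ha => ?_)
          simp only [Finset.mem_filter, Finset.mem_univ, true_and] at ha ⊢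
          have ha0 : a ≠ 0 := fun e => by
            rw [e, zero_pow (by omega)] at ha
            exact zero_ne_one ha
          exact ⟨((hF.fixed_iff ha0).2 ha).trans (by linear_combination a * hl1), ha0⟩
        have := (Finset.card_le_card hsk).trans (Finset.card_union_le _ _)
        omega
    have hT : TrvCond q f a := ⟨hff, ha.1⟩
    set p := trv hF hT with hp
    have hpM : p ∈ M := (h2 i j f hff hfs).2 _ hT
    set v' := p.1 v with hv'
    have hv'x : ∀ x, v' x = v x + X a * f x := fun x => by
      rw [hv', hp, trv_apply, Pi.add_apply, Pi.smul_apply, smul_eq_mul, ← hF.herm_symm f v]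
    simp only [bad, Finset.mem_filter, Finset.mem_univ, true_and, not_or, not_and] at hab
    have hv'i : v' i = v i * (1 + X a) := by rw [hv'x]; simp [hf]; ring
    have hv'k : v' k = v k := by rw [hv'x]; simp [hf, Ne.symm hik, Ne.symm hjk]
    have h1X : 1 + X a ≠ 0 := fun e => hab.1 (by linear_combination e)
    have hgood' : v' i * v' i ^ q + v' k * v' k ^ q ≠ 0 := by
      rw [hv'i, hv'k, mul_pow, hF.add_pow, one_pow]
      intro e
      refine hab.2 ha.2 (mul_left_cancel₀ hc0 ?_)
      linear_combination e + (1 + X a + X a ^ q + X a * X a ^ q) * hcdef - hck' - c * h20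
    have hsub : supp v' ⊆ supp v := fun x hx => by
      rw [mem_supp] at hx ⊢
      intro e
      refine hx ?_
      rw [hv'x, e, zero_add]
      have : f x = 0 := by
        rcases eq_or_ne x i with rfl | hxi
        · exact absurd e hi
        rcases eq_or_ne x j with rfl | hxj
        · exact absurd e hj
        · simp [hf, hxi, hxj]
      rw [this, mul_zero]
    have hv'c := good v' (by rw [hv', UG_app]; exact hv) ((Finset.card_le_card hsub).trans hcard)
      ⟨i, k, hik, by rw [hv'i]; exact mul_ne_zero hi h1X, by rw [hv'k]; exact hk, hgood'⟩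
    have := ctr_map hF hv'c (inv_mem hpM)
    rwa [hv', inv_app hF] at this

end Pairs

namespace URoot5

/-- The matrix of a transvection. -/
theorem val_trv (hF : SqField F q) {n : ℕ} {e : Fin n → F} {a : F} (h : TrvCond q e a) :
    (GeoClasses.ugToGL n F q (trv hF h) : Matrix (Fin n) (Fin n) F) =
      1 + a • vecMulVec e (fun i => e i ^ q) := by
  refine Matrix.ext_of_mulVec_single fun j => ?_
  rw [GeoClasses.ugToGL_mulVec, trv_apply, Matrix.add_mulVec, Matrix.one_mulVec,
    Matrix.smul_mulVec, herm_one_single]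
  ext i
  simp [vecMulVec_apply]
  ring

variable (R : URoot5 F q) {M : Subgroup (GL (Fin 5) F)}

theorem pair_cases : ∀ i j : Fin 5, i ≠ j → ∃ k : Fin 5,
    (({i, j} : Finset (Fin 5)) ⊆ {2 + k, 3 + k}) ∨ (({i, j} : Finset (Fin 5)) ⊆ {4 + k, 1 + k}) := by
  decide +kernel

/-- The transvections with centre in one coordinate plane give everything. -/
theorem suGL_le_of_plane_trv (hq : 3 ≤ q) (hM : R.Contains M)
    (h : ∀ g ∈ ClassicalMax.suGL 5 F q, ∀ (e : Fin 5 → F) (a : F), TrvCond q e a →
      e 0 = 0 → e 1 = 0 → e 4 = 0 →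
      (g : Matrix (Fin 5) (Fin 5) F) = 1 + a • vecMulVec e (fun i => e i ^ q) → g ∈ M) :
    ClassicalMax.suGL 5 F q ≤ M := by
  classical
  have hF := R.sq
  set N : Subgroup (UG 5 F q) := M.comap (GeoClasses.ugToGL 5 F q) with hN
  obtain ⟨a, -, ha⟩ := GeoClasses.exists_ugToGL_eq R.gA_suGL
  obtain ⟨s, -, hs⟩ := GeoClasses.exists_ugToGL_eq R.gS_suGL
  have haN : a ∈ N := by rw [hN, Subgroup.mem_comap, ha]; exact hM.hA
  have hsN : s ∈ N := by rw [hN, Subgroup.mem_comap, hs]; exact hM.hS
  have base : ∀ e, herm q e e = 0 → supp e ⊆ {2, 3} → e ∈ ctr hF N := by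
    intro e he hsupp
    have h0 : ∀ i, i ≠ 2 → i ≠ 3 → e i = 0 := fun i h2 h3 => by
      by_contra hne
      simpa [h2, h3] using hsupp (mem_supp.2 hne)
    refine ⟨he, fun c hc => ?_⟩
    exact h _ (GeoClasses.ugToGL_mem_suGL (TG_le_SUG hF (trv_mem hF hc))) e c hc
      (h0 0 (by decide) (by decide)) (h0 1 (by decide) (by decide)) (h0 4 (by decide) (by decide))
      (val_trv hF hc)
  have mulA : ∀ v i, a.1 v i = v (i - 1) := fun v i => by
    rw [← GeoClasses.ugToGL_mulVec a v, ha, Matrix.mulVec, dotProduct, Finset.sum_eq_single (i - 1)]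
    · rw [val_gA, if_pos (sub_add_cancel i 1).symm, one_mul]
    · intro b _ hb; rw [val_gA, if_neg (fun e => hb (by rw [e, add_sub_cancel_right])), zero_mul]
    · simp
  have mulS : ∀ v i, s.1 v i = -v (3 * i) := fun v i => by
    rw [← GeoClasses.ugToGL_mulVec s v, hs, Matrix.mulVec, dotProduct, Finset.sum_eq_single (3 * i)]
    · rw [val_gS, if_pos ((by decide : ∀ i : Fin 5, i = 2 * (3 * i)) i), neg_one_mul]
    · intro b _ hb
      rw [val_gS, if_neg (fun e => hb ((by decide : ∀ i b : Fin 5, i = 2 * b → b = 3 * i) i b e)),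
        zero_mul]
    · simp
  have shift : ∀ i j : Fin 5, (∀ e, herm q e e = 0 → supp e ⊆ {i, j} → e ∈ ctr hF N) →
      ∀ k : Fin 5, ∀ e, herm q e e = 0 → supp e ⊆ {i + k, j + k} → e ∈ ctr hF N := by
    intro i j hij k
    suffices ∀ m : ℕ, ∀ e, herm q e e = 0 →
        supp e ⊆ {i + (m : Fin 5), j + (m : Fin 5)} → e ∈ ctr hF N by
      simpa using this k.val
    intro m
    induction m with
    | zero => simpa using hij
    | succ m ih =>
      intro e he hsupp
      set e' : Fin 5 → F := fun x => e (x + 1) with he'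
      have hae : a.1 e' = e := funext fun x => by rw [mulA]; simp [he']
      have he'' : herm q e' e' = 0 := by rw [← UG_app a, hae, he]
      rw [← hae]
      refine ctr_map hF (ih e' he'' fun x hx => ?_) haN
      have hx0 : e' x ≠ 0 := mem_supp.1 hx
      have hx' := hsupp (mem_supp.2 (hx0 : e (x + 1) ≠ 0))
      simp only [Finset.mem_insert, Finset.mem_singleton, Nat.cast_succ] at hx' ⊢
      rcases hx' with hx' | hx'
      · exact Or.inl (add_right_cancel (hx'.trans (add_assoc _ _ _).symm))
      · exact Or.inr (add_right_cancel (hx'.trans (add_assoc _ _ _).symm))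
  have second : ∀ e, herm q e e = 0 → supp e ⊆ {4, 1} → e ∈ ctr hF N := by
    intro e he hsupp
    set e' : Fin 5 → F := fun x => -e (2 * x) with he'
    have hse : s.1 e' = e := funext fun x => by
      rw [mulS]
      simp only [he', neg_neg]
      rw [(by decide : ∀ x : Fin 5, 2 * (3 * x) = x) x]
    have he'' : herm q e' e' = 0 := by rw [← UG_app s, hse, he]
    rw [← hse]
    refine ctr_map hF (base e' he'' fun x hx => ?_) hsN
    have hx' := hsupp (mem_supp.2 (show e (2 * x) ≠ 0 from fun h0 => mem_supp.1 hx (by simp [he', h0])))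
    exact (by decide : ∀ x : Fin 5, 2 * x ∈ ({4, 1} : Finset (Fin 5)) →
      x ∈ ({2, 3} : Finset (Fin 5))) x hx'
  have h2 : ∀ i j : Fin 5, ∀ e, herm q e e = 0 → supp e ⊆ {i, j} → e ∈ ctr hF N := by
    have key : ∀ i j : Fin 5, i ≠ j → ∀ e, herm q e e = 0 → supp e ⊆ {i, j} → e ∈ ctr hF N := by
      intro i j hij e he hsupp
      obtain ⟨k, hk | hk⟩ := pair_cases i j hij
      · exact shift 2 3 base k e he (hsupp.trans hk)
      · exact shift 4 1 second k e he (hsupp.trans hk)
    intro i j e he hsupp
    rcases eq_or_ne i j with rfl | hij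
    · exact key i (i + 1) ((by decide : ∀ i : Fin 5, i ≠ i + 1) i) e he
        (hsupp.trans (by simp))
    · exact key i j hij e he hsupp
  have hall := Symp.ctr_all_of_pairs hF hq h2 (by norm_num)
  intro g hg
  obtain ⟨k, hk, rfl⟩ := GeoClasses.exists_ugToGL_eq hg
  rw [SUG_eq_TG hF (by norm_num) (fun h => by omega)] at hk
  exact MaxSub.CSixU.TG_le_of_all_ctr hF hall hk

/-- The special unitary group of one coordinate plane gives everything. -/
theorem suGL_le_of_plane (hq : 3 ≤ q) (hM : R.Contains M)
    (h : ∀ g ∈ ClassicalMax.suGL 5 F q, (∀ i j : Fin 5, (i ≠ 2 ∧ i ≠ 3) ∨ (j ≠ 2 ∧ j ≠ 3) →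
      (g : Matrix (Fin 5) (Fin 5) F) i j = if i = j then 1 else 0) → g ∈ M) :
    ClassicalMax.suGL 5 F q ≤ M := by
  refine R.suGL_le_of_plane_trv hq hM fun g hg e a _ h0 h1 h4 hval => h g hg fun i j hij => ?_
  have hz : ∀ i : Fin 5, i ≠ 2 → i ≠ 3 → e i = 0 := by
    intro i h2 h3
    obtain rfl | rfl | rfl : i = 0 ∨ i = 1 ∨ i = 4 :=
      (by decide : ∀ i : Fin 5, i ≠ 2 → i ≠ 3 → i = 0 ∨ i = 1 ∨ i = 4) i h2 h3
    exacts [h0, h1, h4]
  rw [hval, Matrix.add_apply, Matrix.smul_apply, vecMulVec_apply, Matrix.one_apply]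
  rcases hij with ⟨a2, a3⟩ | ⟨a2, a3⟩
  · rw [hz i a2 a3]; simp
  · rw [hz j a2 a3]; simp [R.sq.q_ne_zero]

end URoot5

end Cfsg.Agent.SUFive.Symp
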