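import Cfsg.Agent.SUFive.SympFourModel
import Cfsg.Agent.SUFive.SympFull

/-!
The centraliser of `J` in an overgroup of the standard normaliser in `SU₅(4)`, over the model
field: either transvections appear, or `J` is its only involution and its odd normal subgroups are
scalar.
-/

set_option autoImplicit false
set_option linter.unusedSectionVars false
set_option maxRecDepth 100000

namespace Cfsg.Agent.SUFive.Symp.Four

open Matrix Cfsg.Geo Cfsg.Agent.Classical.U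
open scoped MatrixGroups Matrix Fin.CommRing Fin.NatCast

/-- Some element of `M` has this matrix. -/
def Mem (M : Subgroup (GL (Fin 5) K)) (A : Matrix (Fin 5) (Fin 5) K) : Prop :=
  ∃ g ∈ M, (g : Matrix (Fin 5) (Fin 5) K) = A

theorem Mem.mul {M : Subgroup (GL (Fin 5) K)} {A B : Matrix (Fin 5) (Fin 5) K} (ha : Mem M A)
    (hb : Mem M B) : Mem M (A * B) := by
  obtain ⟨g, hg, rfl⟩ := ha
  obtain ⟨h, hh, rfl⟩ := hb
  exact ⟨g * h, mul_mem hg hh, Units.val_mul g h⟩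

theorem Mem.inv {M : Subgroup (GL (Fin 5) K)} {A B : Matrix (Fin 5) (Fin 5) K} (ha : Mem M A)
    (h : A * B = 1) : Mem M B := by
  obtain ⟨g, hg, rfl⟩ := ha
  exact ⟨g⁻¹, inv_mem hg, (Units.inv_eq_of_mul_eq_one_right h)⟩

theorem Mem.mono {M N : Subgroup (GL (Fin 5) K)} {A : Matrix (Fin 5) (Fin 5) K} (h : M ≤ N)
    (ha : Mem M A) : Mem N A := by
  obtain ⟨g, hg, e⟩ := ha
  exact ⟨g, h hg, e⟩

theorem cj_add (x y : K) : cj (x + y) = cj x + cj y := sqField.add_pow x y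
theorem cj_mul (x y : K) : cj (x * y) = cj x * cj y := mul_pow x y 4
theorem cj_one : cj (1 : K) = 1 := one_pow 4
theorem cj_cj (x : K) : cj (cj x) = x := sqField.pow_pow x
theorem cj_zero : cj (0 : K) = 0 := zero_pow (by norm_num)

theorem add_self (x : K) : x + x = 0 := CharTwo.add_self_eq_zero x

theorem Zm_mul (x z y x' z' y' : K) : Zm x z y * Zm x' z' y' = Zm (x + x') (z + z') (y + y') := by
  ext i j
  fin_cases i <;> fin_cases j <;>
    simp [Zm, Matrix.mul_apply, Fin.sum_univ_five, cj_add] <;>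
    first
    | done
    | linear_combination (x * x' + y * cj y') * two_eq_zero
    | linear_combination (z * z' + cj y * y') * two_eq_zero
    | linear_combination (x * y' + y * z') * two_eq_zero
    | linear_combination (cj y * x' + z * cj y') * two_eq_zero

theorem toK_wordN (k j : Fin 5) (t : Fin 4) (i : Fin 5) :
    toK (wordN k j t i) = (R0.dG (fun r => k + j * (r * r)) : Matrix (Fin 5) (Fin 5) K) *
      toK (midN t) * (R0.dG (fun r => i * (r * r)) : Matrix (Fin 5) (Fin 5) K) := by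
  ext r c
  rw [Root5.val_dG, Root5.val_dG, Matrix.mul_diagonal, Matrix.diagonal_mul]
  simp [toK, wordN, φ_mul, φ_w]

theorem val_dG_pow (f : Fin 5 → Fin 5) (n : ℕ) :
    ((R0.dG f ^ n : GL (Fin 5) K) : Matrix (Fin 5) (Fin 5) K) =
      (R0.dG (fun r => (n : Fin 5) * f r) : Matrix (Fin 5) (Fin 5) K) := by
  rw [Units.val_pow_eq_pow_val, Root5.val_dG, Root5.val_dG, Matrix.diagonal_pow]
  congr 1
  funext r
  exact R0.e_mul n (f r)

theorem dG_mem_scaled {N : Subgroup (GL (Fin 5) K)} {f : Fin 5 → Fin 5} (h : R0.dG f ∈ N)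
    (a : Fin 5) : R0.dG (fun r => a * f r) ∈ N := by
  have := pow_mem h (a : ℕ)
  convert this using 1
  refine Units.ext ?_
  rw [val_dG_pow, Fin.cast_val_eq_self]

theorem dG_add (f g : Fin 5 → Fin 5) : R0.dG (fun r => f r + g r) = R0.dG f * R0.dG g := by
  refine Units.ext ?_
  rw [Units.val_mul, Root5.val_dG, Root5.val_dG, Root5.val_dG, Matrix.diagonal_mul_diagonal]
  congr 1
  funext r
  exact R0.e_add _ _

variable {M : Subgroup (GL (Fin 5) K)} (hM : R0.Contains M)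
include hM

theorem gens_le : R0.gZ ∈ M ⊓ CJ K ∧ R0.gT ∈ M ⊓ CJ K ∧ gS ∈ M ⊓ CJ K ∧ R0.gH ∈ M ⊓ CJ K :=
  ⟨⟨R0.gZ_mem_of hM.hX hM.hA, mem_CJ.2 (R0.gZ_comm gJ)⟩, ⟨hM.hT, R0.gT_mem_CJ⟩,
    ⟨hM.hS, gS_mem_CJ⟩, ⟨hM.hH, R0.gH_mem_CJ⟩⟩

theorem mem_dq (k j : Fin 5) : R0.dG (fun r => k + j * (r * r)) ∈ M ⊓ CJ K := by
  obtain ⟨hZ, hT, -, -⟩ := gens_le hM
  rw [dG_add (fun _ => k) (fun r => j * (r * r))]
  refine mul_mem ?_ (dG_mem_scaled hT j)
  have := dG_mem_scaled hZ k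
  simpa using this

theorem mem_mid (t : Fin 4) : Mem (M ⊓ CJ K) (toK (midN t)) := by
  obtain ⟨-, -, hS, hH⟩ := gens_le hM
  fin_cases t
  · exact ⟨1, one_mem _, by simp [midN, toK_oneN]⟩
  · exact ⟨gS, hS, by simp [midN, toK_sN]⟩
  · exact ⟨R0.gH, hH, by simp [midN, toK_qN]⟩
  · exact ⟨gS * R0.gH, mul_mem hS hH, by simp [midN, toK_mul, toK_sN, toK_qN]⟩

theorem mem_word (k j : Fin 5) (t : Fin 4) (i : Fin 5) :
    Mem (M ⊓ CJ K) (toK (wordN k j t i)) := by
  rw [toK_wordN]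
  have h := mem_dq hM 0 i
  simp only [zero_add] at h
  exact ((Mem.mul ⟨_, mem_dq hM k j, rfl⟩ (mem_mid hM t)).mul ⟨_, h, rfl⟩)

theorem mem_J : gJ ∈ M ⊓ CJ K := ⟨hM.hJ, gJ_mem_CJ⟩

theorem mem_Zm_add {x z y x' z' y' : K} (h : Mem M (Zm x z y)) (h' : Mem M (Zm x' z' y')) :
    Mem M (Zm (x + x') (z + z') (y + y')) := Zm_mul x z y x' z' y' ▸ h.mul h'

omit hM in
theorem Zm_J : Zm 1 1 0 = ((gJ : GL (Fin 5) K) : Matrix (Fin 5) (Fin 5) K) := by
  rw [← toK_jN]
  have h := toK_zN 1 1 0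
  rw [φ_one, φ_zero] at h
  rw [← h]
  exact toK_eq_of (by decide +kernel)

theorem mem_Zm_J : Mem M (Zm 1 1 0) := ⟨gJ, hM.hJ, Zm_J.symm⟩

/-- A bit-level inverse of a member of `M`. -/
theorem mem_stN {A : MN} (h : Mem M (toK A)) (he : eqN (mulN A (stN A)) oneN = true) :
    Mem M (toK (stN A)) :=
  h.inv (by rw [← toK_mul, toK_eq_of he, toK_oneN])

theorem mem_T : Mem M (toK (dgN fun i => i * i)) := ⟨R0.gT, hM.hT, (toK_dgN _).symm⟩

theorem mem_conj_T {x z y : K} (hx : x ^ 4 = x) (hz : z ^ 4 = z) (h : Mem M (Zm x z y)) :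
    Mem M (Zm x z (R0.e 2 * y)) := by
  obtain ⟨a, ha, rfl⟩ := exists_l4 x hx
  obtain ⟨b, hb, rfl⟩ := exists_l4 z hz
  obtain ⟨c, hc, rfl⟩ := exists_lt y
  rw [← φ_w, ← φ_mul, ← toK_zN]
  have := List.all_eq_true.1 (List.all_eq_true.1 (List.all_eq_true.1 conjT_ok a ha) b hb) c hc
  rw [← toK_eq_of this, toK_mul, toK_mul]
  rw [← toK_zN] at h
  exact ((mem_T hM).mul h).mul (mem_stN hM (mem_T hM) (by decide +kernel))

theorem mem_conj_Q {a b : MN} (hb : eqN (mulN (mulN qN a) (stN qN)) b = true)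
    (h : Mem M (toK a)) : Mem M (toK b) := by
  rw [← toK_eq_of hb, toK_mul, toK_mul]
  have hQ : Mem M (toK qN) := ⟨R0.gH, hM.hH, toK_qN.symm⟩
  exact (hQ.mul h).mul (mem_stN hM hQ (by decide +kernel))

omit hM in
theorem span_e : ∀ c : Fin 16, ∃ b₀ b₁ b₂ b₃ : Bool,
    φ c = cond b₀ 1 0 + cond b₁ (φ (wN 1)) 0 + cond b₂ (φ (wN 2)) 0 + cond b₃ (φ (wN 3)) 0 := by
  decide +kernel

theorem mem_pure_all {y₀ : K} (hy : y₀ ≠ 0) (h : Mem M (Zm 0 0 y₀)) (y : K) :
    Mem M (Zm 0 0 y) := by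
  have h4 : (0 : K) ^ 4 = 0 := cj_zero
  have h0 : Mem M (Zm 0 0 (0 * y₀)) := by
    have := mem_Zm_add hM h h
    simpa [add_self] using this
  have step : ∀ c : K, Mem M (Zm 0 0 (c * y₀)) → Mem M (Zm 0 0 (φ (wN 1) * c * y₀)) := by
    intro c hc
    have := mem_conj_T hM h4 h4 (mem_conj_T hM h4 h4 (mem_conj_T hM h4 h4 hc))
    convert this using 2
    rw [φ_w]
    simp only [← mul_assoc, ← Root5.e_add]
    congr 2
  have h1 : Mem M (Zm 0 0 (1 * y₀)) := by rwa [one_mul]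
  have hw1 : Mem M (Zm 0 0 (φ (wN 1) * y₀)) := by simpa using step 1 h1
  have hw2 : Mem M (Zm 0 0 (φ (wN 2) * y₀)) := by
    have := step _ hw1
    convert this using 2
    simp only [φ_w, ← Root5.e_add]
    rfl
  have hw3 : Mem M (Zm 0 0 (φ (wN 3) * y₀)) := by
    have := step _ hw2
    convert this using 2
    simp only [φ_w, ← Root5.e_add]
    rfl
  have add : ∀ c d : K, Mem M (Zm 0 0 (c * y₀)) → Mem M (Zm 0 0 (d * y₀)) →
      Mem M (Zm 0 0 ((c + d) * y₀)) := by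
    intro c d hc hd
    have := mem_Zm_add hM hc hd
    simpa [add_mul] using this
  have cnd : ∀ (b : Bool) (c : K), Mem M (Zm 0 0 (c * y₀)) → Mem M (Zm 0 0 (cond b c 0 * y₀)) := by
    intro b c hc; cases b
    · exact h0
    · exact hc
  obtain ⟨c, hc⟩ := φ_surj (y / y₀)
  obtain ⟨b₀, b₁, b₂, b₃, hb⟩ := span_e c
  have := add _ _ (add _ _ (add _ _ (cnd b₀ _ h1) (cnd b₁ _ hw1)) (cnd b₂ _ hw2)) (cnd b₃ _ hw3)
  rw [← hb, hc, div_mul_cancel₀ _ hy] at this
  exact this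

theorem mem_lc (k : Fin 5) {a : ℕ} (h : Mem M (Zm (φ a) (φ a) 0)) : Mem M (toK (lcN k a)) := by
  have he : toK (lcN k a) = (R0.dG (fun r => k * r) : Matrix (Fin 5) (Fin 5) K) *
      Zm (φ a) (φ a) 0 * (R0.dG (fun r => -k * r) : Matrix (Fin 5) (Fin 5) K) := by
    ext r c
    rw [← φ_zero, ← toK_zN, Root5.val_dG, Root5.val_dG, Matrix.mul_diagonal, Matrix.diagonal_mul]
    simp [toK, lcN, φ_mul, φ_w, neg_mul, mul_comm k]
  rw [he]
  exact (Mem.mul ⟨_, dG_mem_scaled hM.hX k, rfl⟩ h).mul ⟨_, dG_mem_scaled hM.hX (-k), rfl⟩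

/-- From one special radical element to all transvections of the pair `{1, 4}`. -/
theorem mem_line (h : Mem M (Zm (φ 3) (φ 3) 0)) {a : K} (ha : a ^ 4 = a) :
    Mem M (Zm a 0 0) := by
  have hJ : Mem M (Zm (φ 1) (φ 1) 0) := by rw [φ_one]; exact mem_Zm_J hM
  have mk : ∀ {A B : MN}, eqN A B = true → Mem M (toK A) → Mem M (toK B) := fun he hA =>
    toK_eq_of he ▸ hA
  have l := fun k => mem_lc hM k h
  have j := fun k => mem_lc hM k hJ
  have mm : ∀ {A B : MN}, Mem M (toK A) → Mem M (toK B) → Mem M (toK (mulN A B)) :=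
    fun hA hB => by rw [toK_mul]; exact hA.mul hB
  have p : Mem M (toK (zN 1 0 0)) :=
    mk step06 (mm (mk step05 (mm (mk step04 (mm (mk step03 (mm (mk step02 (mm (mk step01
      (mm (l 0) (l 1))) (l 2))) (j 3))) (l 3))) (l 0))) (l 3))
  have q : Mem M (toK (zN 3 0 0)) :=
    mk step16 (mm (mk step15 (mm (mk step14 (mm (mk step13 (mm (mk step12 (mm (mk step11
      (mm (j 1) (l 1))) (l 4))) (l 3))) (l 2))) (l 1))) (l 3))
  rw [toK_zN, φ_zero] at p q
  obtain ⟨n, hn, rfl⟩ := exists_l4 a ha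
  simp only [l4, List.mem_cons, List.not_mem_nil, or_false] at hn
  rcases hn with rfl | rfl | rfl | rfl
  · have := mem_Zm_add hM p p; simpa [add_self, φ_zero] using this
  · exact p
  · have := mem_Zm_add hM p q
    rw [add_zero, ← φ_add] at this
    exact this
  · exact q

theorem mem_line' (h : Mem M (Zm (φ 3) (φ 3) 0)) {a : K} (ha : a ^ 4 = a) :
    Mem M (Zm 0 a 0) := by
  obtain ⟨n, hn, rfl⟩ := exists_l4 a ha
  have hS : Mem M (toK sN) := ⟨gS, hM.hS, toK_sN.symm⟩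
  have h1 := mem_line hM h ha
  rw [← φ_zero, ← toK_zN] at h1 ⊢
  rw [← toK_eq_of (List.all_eq_true.1 conjS_ok n hn), toK_mul, toK_mul]
  exact (hS.mul h1).mul (mem_stN hM hS (by decide +kernel))

theorem full_of_lam (h : Mem M (Zm (φ 3) (φ 3) 0)) : ClassicalMax.suGL 5 K 4 ≤ M := by
  refine R0.suGL_le_of_plane_trv (by norm_num) hM ?_
  intro g _ e a hea e0 e1 e4 hg
  obtain ⟨hh, ha⟩ := hea
  rw [neg_eq] at ha
  have hh' : e 2 * e 2 ^ 4 + e 3 * e 3 ^ 4 = 0 := by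
    simpa [Classical.U.herm, Cfsg.hermForm, Fin.sum_univ_five, e0, e1, e4] using hh
  suffices hs : Mem M (1 + a • vecMulVec e (fun i => e i ^ 4)) by
    obtain ⟨g', hg', e'⟩ := hs
    rwa [show g = g' from Units.ext (hg.trans e'.symm)]
  by_cases h2 : e 2 = 0
  · have h3 : e 3 = 0 := by simpa [h2] using hh'
    refine ⟨1, M.one_mem, ?_⟩
    ext i j
    fin_cases i <;> fin_cases j <;> simp [vecMulVec, e0, e1, e4, h2, h3]
  · have hz : (e 3 / e 2) ^ 5 = 1 := by
      rw [div_pow, div_eq_one_iff_eq (pow_ne_zero _ h2)]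
      linear_combination hh' - e 2 ^ 5 * two_eq_zero
    obtain ⟨k, hk⟩ := R0.exists_e hz
    rw [div_eq_iff h2] at hk
    have hα : (a * (e 2 * e 2 ^ 4)) ^ 4 = a * (e 2 * e 2 ^ 4) := by
      have := cj_cj (e 2)
      simp only [cj] at this
      rw [mul_pow, mul_pow, ha, this]
      ring
    have hm := Mem.mul (Mem.mul ⟨_, dG_mem_scaled hM.hX k, rfl⟩ (mem_line' hM h hα))
      ⟨_, dG_mem_scaled hM.hX (-k), rfl⟩
    convert hm using 1
    have hk4 : R0.e (k * 4) = R0.e k ^ 4 := by rw [R0.e_mul, mul_comm]; rfl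
    have hkk : R0.e k * R0.e k ^ 4 = 1 := by rw [← pow_succ', R0.pow_e]
    ext i j
    rw [Root5.val_dG, Root5.val_dG, Matrix.mul_diagonal, Matrix.diagonal_mul,
      mul_comm (R0.e (k * i)), mul_assoc, ← R0.e_add, neg_mul, ← sub_eq_add_neg, ← mul_sub]
    fin_cases i <;> fin_cases j <;>
      simp [Zm, vecMulVec, e0, e1, e4, hk, cj_zero, R0.e_zero, hk4] <;>
      first
      | done
      | linear_combination (a * e 2 ^ 5) * hkk
      | (left; linear_combination (e 2 ^ 5) * hkk)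
      | ring

/-- A nontrivial element of the centre of the radical gives everything. -/
theorem full_of_Zm {x z y : K} (hx : x ^ 4 = x) (hz : z ^ 4 = z) (h : Mem M (Zm x z y))
    (hne : ¬ (y = 0 ∧ x = z ∧ (x = 0 ∨ x = 1))) : ClassicalMax.suGL 5 K 4 ≤ M := by
  have pure : ∀ {x z y : K}, x ^ 4 = x → z ^ 4 = z → Mem M (Zm x z y) → y ≠ 0 →
      Mem M (Zm (φ 3) (φ 3) 0) := by
    intro x z y hx hz h hy
    have h2 := mem_Zm_add hM h (mem_conj_T hM hx hz h)
    rw [add_self, add_self] at h2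
    have hy' : y + R0.e 2 * y ≠ 0 := by
      rw [← one_add_mul]
      refine mul_ne_zero ?_ hy
      rw [← φ_w, ← φ_one, ← φ_add]
      exact fun he => absurd (φ_inj (he.trans φ_zero.symm)) (by decide +kernel)
    have h3 := mem_pure_all hM hy' h2 (φ 1)
    rw [← φ_zero, ← toK_zN] at h3
    have h4 := mem_conj_Q hM pure_ok h3
    rw [toK_zN] at h4
    have h5 := mem_Zm_add hM h4 (mem_pure_all hM hy' h2 (φ (qY 0 0 1)))
    simpa [add_self] using h5
  refine full_of_lam hM ?_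
  by_cases hy : y = 0
  · subst hy
    obtain ⟨n, hn, rfl⟩ := exists_l4 x hx
    obtain ⟨m, hm, rfl⟩ := exists_l4 z hz
    have d := List.all_eq_true.1 (List.all_eq_true.1 diag_ok n hn) m hm
    simp only [Bool.or_eq_true, beq_iff_eq, Bool.and_eq_true, Bool.not_eq_true',
      beq_eq_false_iff_ne] at d
    rcases d with rfl | ⟨⟨⟨d1, d2⟩, d3⟩, d4⟩
    · simp only [l4, List.mem_cons, List.not_mem_nil, or_false] at hn
      rcases hn with rfl | rfl | rfl | rfl
      · exact absurd ⟨rfl, rfl, Or.inl φ_zero⟩ hne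
      · exact absurd ⟨rfl, rfl, Or.inr φ_one⟩ hne
      · have := mem_Zm_add hM h (mem_Zm_J hM)
        rw [← φ_one, ← φ_add, add_zero] at this
        exact this
      · exact h
    · rw [← φ_zero, ← toK_zN] at h
      have h1 := mem_conj_Q hM d1 h
      rw [toK_zN] at h1
      refine pure ?_ ?_ h1 ?_
      · exact (φ_cj _).symm.trans (congrArg φ d2)
      · exact (φ_cj _).symm.trans (congrArg φ d3)
      · intro he
        refine d4 ?_
        have h16 := φ_inj (he.trans φ_zero.symm)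
        rwa [Nat.zero_mod, Nat.mod_eq_of_lt] at h16
        simp only [qY, mulN, aN]
        exact Nat.xor_lt_two_pow (n := 4) (Nat.mod_lt _ (by norm_num)) (Nat.mod_lt _ (by norm_num))
  · exact pure hx hz h hy

end Cfsg.Agent.SUFive.Symp.Four
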