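import Cfsg.Agent.SUFive.SympFourN
import Cfsg.Agent.SUFive.SympUnit
import Cfsg.Agent.TwE6Five.Field16

/-!
The model field with sixteen elements, its root of unity and the bridge from bit-level matrices.
-/

set_option autoImplicit false
set_option linter.unusedSectionVars false
set_option maxRecDepth 100000

namespace Cfsg.Agent.SUFive.Symp.Four

open Matrix
open scoped MatrixGroups Fin.CommRing Fin.NatCast

/-- The field with sixteen elements. -/
abbrev K : Type := TwE6Five.F16

/-- Four bits as a field element. -/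
def φ (n : ℕ) : K :=
  ⟨⟨Nat.testBit (n % 16) 0, Nat.testBit (n % 16) 1⟩, ⟨Nat.testBit (n % 16) 2, Nat.testBit (n % 16) 3⟩⟩

theorem φ_mod (n : ℕ) : φ (n % 16) = φ n := by simp [φ]

theorem φ_add_small : ∀ a b : Fin 16, φ (aN a b) = φ a + φ b := by decide +kernel
theorem φ_mul_small : ∀ a b : Fin 16, φ (mN a b) = φ a * φ b := by decide +kernel
theorem φ_inj_small : ∀ a b : Fin 16, φ a = φ b → a = b := by decide +kernel
theorem φ_surj : ∀ x : K, ∃ a : Fin 16, φ a = x := by decide +kernel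

theorem φ_add (a b : ℕ) : φ (aN a b) = φ a + φ b := by
  have h := φ_add_small ⟨a % 16, Nat.mod_lt _ (by norm_num)⟩ ⟨b % 16, Nat.mod_lt _ (by norm_num)⟩
  simpa [aN, φ_mod] using h

theorem φ_mul (a b : ℕ) : φ (mN a b) = φ a * φ b := by
  have h := φ_mul_small ⟨a % 16, Nat.mod_lt _ (by norm_num)⟩ ⟨b % 16, Nat.mod_lt _ (by norm_num)⟩
  simpa [mN, φ_mod] using h

theorem φ_inj {a b : ℕ} (h : φ a = φ b) : a % 16 = b % 16 := by
  have := φ_inj_small ⟨a % 16, Nat.mod_lt _ (by norm_num)⟩ ⟨b % 16, Nat.mod_lt _ (by norm_num)⟩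
    (by simpa [φ_mod] using h)
  exact congrArg Fin.val this

theorem φ_zero : φ 0 = 0 := rfl
theorem φ_one : φ 1 = 1 := rfl

theorem exists_lt (x : K) : ∃ a, a ∈ l16 ∧ φ a = x := by
  obtain ⟨a, ha⟩ := φ_surj x
  exact ⟨a, List.mem_range.2 a.2, ha⟩

theorem exists_lt4 : ∀ x : K, x ^ 4 = x → ∃ a : Fin 4, φ a = x := by decide +kernel

theorem exists_l4 (x : K) (h : x ^ 4 = x) : ∃ a, a ∈ l4 ∧ φ a = x := by
  obtain ⟨a, ha⟩ := exists_lt4 x h
  exact ⟨a, by fin_cases a <;> decide, ha⟩

/-- The automorphism of order two. -/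
def cj (y : K) : K := y ^ 4

theorem φ_cj (a : ℕ) : φ (cN a) = cj (φ a) := by rw [cN, φ_mul, φ_mul, cj]; ring

theorem sqField : Classical.U.SqField K 4 :=
  Classical.U.sqField_of_fintype (by rw [TwE6Five.card_F16]; norm_num)

theorem two_eq_zero : (2 : K) = 0 := CharTwo.two_eq_zero

theorem five_ne : (5 : K) ≠ 0 := by
  rw [show (5 : K) = 2 + 2 + 1 by norm_num, two_eq_zero]
  simp

/-- The root of unity of the model. -/
def R0 : URoot5 K 4 where
  ω := TwE6Five.zeta
  pow_five := TwE6Five.zeta_pow_five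
  ne_one := by decide +kernel
  five := five_ne
  sq := sqField
  ω_q := rfl

theorem φ_wN : ∀ a : Fin 5, φ (wN a) = TwE6Five.zeta ^ (a : ℕ) := by decide +kernel

theorem φ_w (a : Fin 5) : φ (wN a) = R0.e a := φ_wN a

theorem s_eq_one : R0.s = 1 := by
  rw [URoot5.s, two_eq_zero]; simp

theorem neg_eq (x : K) : -x = x := rfl

/-- A bit-level matrix as a matrix over the field. -/
def toK (A : MN) : Matrix (Fin 5) (Fin 5) K := Matrix.of fun i j => φ (A i j)
/-- A bit-level two by two matrix as a matrix over the field. -/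
def toK2 (A : TN) : Matrix (Fin 2) (Fin 2) K := Matrix.of fun i j => φ (A i j)

theorem mem_l5 (i : Fin 5) : i ∈ l5 := by fin_cases i <;> decide
theorem mem_l2 (i : Fin 2) : i ∈ l2 := by fin_cases i <;> decide
theorem mem_lt4 (i : Fin 4) : i ∈ lt4 := by fin_cases i <;> decide

theorem toK_mul (A B : MN) : toK (mulN A B) = toK A * toK B := by
  ext i j
  simp [toK, mulN, φ_add, φ_mul, Matrix.mul_apply, Fin.sum_univ_five]

theorem toK2_mul (A B : TN) : toK2 (mul2 A B) = toK2 A * toK2 B := by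
  ext i j
  simp [toK2, mul2, φ_add, φ_mul, Matrix.mul_apply, Fin.sum_univ_two]

theorem toK_eq_of {A B : MN} (h : eqN A B = true) : toK A = toK B := by
  ext i j
  simp only [eqN, List.all_eq_true, beq_iff_eq] at h
  simp only [toK, Matrix.of_apply]
  rw [← φ_mod (A i j), h i (mem_l5 i) j (mem_l5 j), φ_mod]

theorem eqN_of {A B : MN} (h : toK A = toK B) : eqN A B = true := by
  simp only [eqN, List.all_eq_true, beq_iff_eq]
  exact fun i _ j _ => φ_inj (congrFun (congrFun h i) j)

theorem toK2_eq_of {A B : TN} (h : eq2 A B = true) : toK2 A = toK2 B := by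
  ext i j
  simp only [eq2, List.all_eq_true, beq_iff_eq] at h
  simp only [toK2, Matrix.of_apply]
  rw [← φ_mod (A i j), h i (mem_l2 i) j (mem_l2 j), φ_mod]

theorem toK_oneN : toK oneN = 1 := by
  ext i j
  simp only [toK, oneN, Matrix.of_apply, Matrix.one_apply]
  split <;> rfl

theorem toK2_one2 : toK2 one2 = 1 := by
  ext i j
  simp only [toK2, one2, Matrix.of_apply, Matrix.one_apply]
  split <;> rfl

theorem toK_scN (l : Fin 5) (A : MN) : toK (scN l A) = R0.e l • toK A := by
  ext i j; simp [toK, scN, φ_mul, φ_w]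

theorem toK_stN (A : MN) : toK (stN A) = ((toK A).map cj)ᵀ := by
  ext i j; simp [toK, stN, φ_cj]

theorem toK_dgN (f : Fin 5 → Fin 5) : toK (dgN f) = (R0.dG f : Matrix (Fin 5) (Fin 5) K) := by
  ext i j
  simp only [toK, dgN, Matrix.of_apply, Root5.val_dG, Matrix.diagonal_apply]
  split <;> simp [φ_w, φ_zero]

theorem toK_sN : toK sN = ((gS : GL (Fin 5) K) : Matrix (Fin 5) (Fin 5) K) := by
  ext i j
  simp only [toK, sN, Matrix.of_apply, val_gS]
  split <;> simp [φ_zero, φ_one, neg_eq]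

theorem toK_jN : toK jN = ((gJ : GL (Fin 5) K) : Matrix (Fin 5) (Fin 5) K) := by
  ext i j
  simp only [toK, jN, Matrix.of_apply, val_gJ]
  split <;> simp [φ_zero, φ_one]

theorem toK_qN : toK qN = (R0.gH : Matrix (Fin 5) (Fin 5) K) := by
  ext i j
  simp only [toK, qN, Matrix.of_apply, URoot5.val_gH, s_eq_one, φ_w, inv_one, one_mul]

/-- The elements of the centre of the unipotent radical of the centraliser of `J`. -/
def Zm (x z y : K) : Matrix (Fin 5) (Fin 5) K :=
  !![1, 0, 0, 0, 0;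
     0, 1 + x, y, y, x;
     0, cj y, 1 + z, z, cj y;
     0, cj y, z, 1 + z, cj y;
     0, x, y, y, 1 + x]

theorem toK_zN (x z y : ℕ) : toK (zN x z y) = Zm (φ x) (φ z) (φ y) := by
  ext i j
  fin_cases i <;> fin_cases j <;> simp [toK, zN, Zm, φ_add, φ_cj, φ_zero, φ_one]

theorem matM_toK (A : MN) : matM (toK A) = toK2 (imN A) := by
  ext i j
  fin_cases i <;> fin_cases j <;> simp [matM, toK, toK2, imN, φ_add, sub_eq_add_neg, neg_eq]

end Cfsg.Agent.SUFive.Symp.Four
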