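import Cfsg.Agent.SUFive.SympLocal
import Cfsg.Agent.SUFive.SympFixFree

/-!
In a proper overgroup an element centralising `J` and trivial on its `-1`-space is trivial.
-/

set_option autoImplicit false
set_option linter.unusedSectionVars false
set_option linter.style.haveILetI false

namespace Cfsg.Agent.SUFive.Symp

open Matrix Cfsg.Geo Cfsg.Agent.Classical.U
open scoped MatrixGroups Fin.CommRing Fin.NatCast

universe u

variable {F : Type u} [Field F] {q : ℕ}

theorem det_CT (R : Root5 F) {g : GL (Fin 5) F} (hg : g ∈ R.CT) :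
    (g : Matrix (Fin 5) (Fin 5) F).det = (g : Matrix (Fin 5) (Fin 5) F) 0 0 *
      ((g : Matrix (Fin 5) (Fin 5) F) 1 1 * (g : Matrix (Fin 5) (Fin 5) F) 4 4 -
        (g : Matrix (Fin 5) (Fin 5) F) 1 4 * (g : Matrix (Fin 5) (Fin 5) F) 4 1) *
      ((g : Matrix (Fin 5) (Fin 5) F) 2 2 * (g : Matrix (Fin 5) (Fin 5) F) 3 3 -
        (g : Matrix (Fin 5) (Fin 5) F) 2 3 * (g : Matrix (Fin 5) (Fin 5) F) 3 2) := by
  obtain ⟨a1, a2, a3, a4, a5, a6, a7, a8, a9, a10, a11, a12, a13, a14, a15, a16⟩ := R.CT_eqs hg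
  simp [Matrix.det_succ_row_zero, Fin.sum_univ_succ, Fin.succAbove, a1, a2, a3, a4, a5, a6, a7, a8,
    a9, a10, a11, a12, a13, a14, a15, a16]
  ring

theorem e_add_ne (R : Root5 F) (h2 : (2 : F) ≠ 0) (a b : Fin 5) : R.e a + R.e b ≠ 0 := fun h => by
  have h5 := R.pow_e a
  rw [eq_neg_of_add_eq_zero_left h, (show Odd 5 by decide).neg_pow, R.pow_e] at h5
  exact h2 (by linear_combination -h5)

namespace URoot5

variable (R : URoot5 F q)

theorem rP_hJ_ne (h2 : (2 : F) ≠ 0) (i j : Fin 3) :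
    (rP R.hJ : Matrix (Fin 3) (Fin 3) F) i j ≠ 0 := by
  have hs := R.s_ne
  have key : ∀ a b, R.s⁻¹ * R.e a + R.s⁻¹ * R.e b ≠ 0 := fun a b => by
    rw [← mul_add]; exact mul_ne_zero (inv_ne_zero hs) (e_add_ne _ h2 a b)
  have key1 : ∀ a, R.s⁻¹ * R.e a ≠ 0 := fun a => mul_ne_zero (inv_ne_zero hs) (R.e_ne a)
  rw [val_rP]
  show matP (R.gH : Matrix (Fin 5) (Fin 5) F) i j ≠ 0
  fin_cases i <;> fin_cases j <;> simp [matP, R.val_gH] <;> first | exact key _ _ | exact hs | exact key1 _ | exact ⟨hs, R.e_ne _⟩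

end URoot5

variable [Finite F] {p : ℕ} {R : URoot5 F q} {M : Subgroup (GL (Fin 5) F)}

/-- The elements of `C_M(J)` trivial on the `-1`-space. -/
def kerM (M : Subgroup (GL (Fin 5) F)) : Subgroup (CJ F) := M.subgroupOf (CJ F) ⊓ (rM (F := F)).ker

theorem mem_kerM {n : CJ F} : n ∈ kerM M ↔ (n : GL (Fin 5) F) ∈ M ∧ rM n = 1 := by
  rw [kerM, Subgroup.mem_inf, Subgroup.mem_subgroupOf, MonoidHom.mem_ker]

namespace Proper

variable (P : Proper p R M)
include P

theorem conj_mem_kerM {n t : CJ F} (hn : n ∈ kerM M) (ht : (t : GL (Fin 5) F) ∈ M) :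
    t * n * t⁻¹ ∈ kerM M :=
  mem_kerM.2 ⟨mul_mem (mul_mem ht (mem_kerM.1 hn).1) (inv_mem ht), by
    rw [map_mul, map_mul, (mem_kerM.1 hn).2, mul_one, map_inv, mul_inv_cancel]⟩

theorem commutator_mem_kerM {n t : CJ F} (hn : (n : GL (Fin 5) F) ∈ M)
    (ht : (t : GL (Fin 5) F) ∈ M) (h : rM n * rM t = rM t * rM n) :
    n * t * n⁻¹ * t⁻¹ ∈ kerM M := by
  refine mem_kerM.2 ⟨mul_mem (mul_mem (mul_mem hn ht) (inv_mem hn)) (inv_mem ht), ?_⟩
  simp only [map_mul, map_inv]
  rw [h, mul_assoc, mul_assoc, mul_inv_cancel_left, mul_inv_cancel]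

theorem commute_tJ_of_diag {n : CJ F} {k : F}
    (hM : (rM n : Matrix (Fin 2) (Fin 2) F) = k • 1) {d : Fin 3 → F}
    (hd : (rP n : Matrix (Fin 3) (Fin 3) F) = diagonal d) :
    Commute (n : GL (Fin 5) F) R.gT := by
  have h : n * R.tJ = R.tJ * n := by
    refine eq_of_blocks P.two ?_ ?_ <;> rw [map_mul, map_mul] <;> refine Units.ext ?_ <;>
      rw [Units.val_mul, Units.val_mul]
    · rw [hM, smul_mul_assoc, one_mul, mul_smul_comm, mul_one]
    · rw [hd, R.rP_tJ, diagonal_mul_diagonal, diagonal_mul_diagonal]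
      congr 1; funext i; exact mul_comm _ _
  exact congrArg Subtype.val h

/-- The shape of an element of `C_M(J, T)` scalar on the `-1`-space. -/
theorem shape {n : CJ F} (hn : (n : GL (Fin 5) F) ∈ M) (hT : Commute (n : GL (Fin 5) F) R.gT)
    {k : F} (hk : (rM n : Matrix (Fin 2) (Fin 2) F) = k • 1) :
    ∃ δ γ ε : F, (rP n : Matrix (Fin 3) (Fin 3) F) = diagonal ![δ, γ, ε] ∧
      (γ = k ∨ γ = -k) ∧ (ε = k ∨ ε = -k) ∧ δ * (k * γ) * (k * ε) = 1 := by
  obtain ⟨a1, a2, a3, a4, a5, a6, a7, a8, a9, a10, a11, a12, a13, a14, a15, a16⟩ :=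
    R.CT_eqs (R.mem_CT.2 hT)
  obtain ⟨-, -, -, -, a44, a41, -, -, -, -, a32, a33⟩ := CJ_eqs n.2
  have hd := P.con.det_eq hn
  rw [det_CT _ (R.mem_CT.2 hT), a44, a41, a32, a33] at hd
  have c1 := congrFun (congrFun hk 0) 0
  have c2 := congrFun (congrFun hk 1) 1
  simp [val_rM, matM] at c1 c2
  set G := ((n : GL (Fin 5) F) : Matrix (Fin 5) (Fin 5) F)
  refine ⟨G 0 0, G 1 1 + G 1 4, G 2 2 + G 2 3, ?_, ?_, ?_, ?_⟩
  · rw [val_rP]
    ext i j
    fin_cases i <;> fin_cases j <;>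
      simp [matP, G, a1, a2, a3, a4, a5, a6, a9, a10, a13, a14]
  · rcases mul_eq_zero.1 (P.mul_eq_zero_one hn hT (mem_CJ.1 n.2)) with e | e
    · exact Or.inr (by linear_combination 2 * e - c1)
    · exact Or.inl (by linear_combination 2 * e + c1)
  · rcases mul_eq_zero.1 (P.mul_eq_zero_two hn hT (mem_CJ.1 n.2)) with e | e
    · exact Or.inr (by linear_combination 2 * e - c2)
    · exact Or.inl (by linear_combination 2 * e + c2)
  · rw [show G 0 0 * (k * (G 1 1 + G 1 4)) * (k * (G 2 2 + G 2 3)) =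
        G 0 0 * ((G 1 1 - G 1 4) * (G 1 1 + G 1 4)) * ((G 2 2 - G 2 3) * (G 2 2 + G 2 3)) by rw [c1, c2]]
    linear_combination hd

/-- A fixed point of `T` in the kernel has order at most two. -/
theorem shape_ker {n : CJ F} (hn : n ∈ kerM M) (hT : Commute (n : GL (Fin 5) F) R.gT) :
    ∃ γ ε : F, (rP n : Matrix (Fin 3) (Fin 3) F) = diagonal ![γ * ε, γ, ε] ∧
      γ * γ = 1 ∧ ε * ε = 1 := by
  obtain ⟨δ, γ, ε, hd, hγ, hε, hdet⟩ := P.shape hn.1 hT (k := 1) (by
    rw [MonoidHom.mem_ker.1 hn.2, Units.val_one, one_smul])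
  rw [one_mul, one_mul] at hdet
  have g2 : γ * γ = 1 := by rcases hγ with rfl | rfl <;> ring
  have e2 : ε * ε = 1 := by rcases hε with rfl | rfl <;> ring
  refine ⟨γ, ε, ?_, g2, e2⟩
  rw [hd, show δ = γ * ε by linear_combination (γ * ε) * hdet - δ * ε * ε * g2 - δ * e2]

theorem sq_of_fix {n : CJ F} (hn : n ∈ kerM M) (hT : Commute (n : GL (Fin 5) F) R.gT) :
    n * n = 1 := by
  obtain ⟨γ, ε, hd, g2, e2⟩ := P.shape_ker hn hT
  refine eq_of_blocks P.two ?_ ?_
  · rw [map_mul, MonoidHom.mem_ker.1 hn.2, map_one, mul_one]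
  · rw [map_mul, map_one]
    refine Units.ext ?_
    rw [Units.val_mul, hd, diagonal_mul_diagonal, Units.val_one, ← diagonal_one]
    congr 1; funext i
    fin_cases i <;> simp [g2, e2, mul_mul_mul_comm]

/-- An element of the kernel commuting with the sign change on `e₀` is fixed by `T`. -/
theorem fix_of_commute_sign {ι n : CJ F}
    (hι : (rP ι : Matrix (Fin 3) (Fin 3) F) = diagonal ![1, -1, -1])
    (hn : n ∈ kerM M) (hc : rP n * rP ι = rP ι * rP n) : Commute (n : GL (Fin 5) F) R.gT := by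
  classical
  let CI : Subgroup (CJ F) :=
    M.subgroupOf (CJ F) ⊓ (Subgroup.centralizer {rP ι}).comap rP
  have hCI : ∀ {t : CJ F}, t ∈ CI ↔ (t : GL (Fin 5) F) ∈ M ∧ rP t * rP ι = rP ι * rP t := by
    intro t
    rw [Subgroup.mem_inf, Subgroup.mem_subgroupOf, Subgroup.mem_comap,
      Subgroup.mem_centralizer_singleton_iff]
  have zeros : ∀ t : CI, (rP t.1 : Matrix (Fin 3) (Fin 3) F) 0 1 = 0 ∧
      (rP t.1 : Matrix (Fin 3) (Fin 3) F) 0 2 = 0 ∧ (rP t.1 : Matrix (Fin 3) (Fin 3) F) 1 0 = 0 ∧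
      (rP t.1 : Matrix (Fin 3) (Fin 3) F) 2 0 = 0 := by
    intro t
    have e := fun i j => congrArg (fun m : GL (Fin 3) F => (m : Matrix (Fin 3) (Fin 3) F) i j)
      (hCI.1 t.2).2
    simp only [Units.val_mul, hι, mul_diagonal, diagonal_mul] at e
    have e01 := e 0 1; have e02 := e 0 2; have e10 := e 1 0; have e20 := e 2 0
    simp at e01 e02 e10 e20
    refine ⟨?_, ?_, ?_, ?_⟩ <;> refine (mul_eq_zero.1 (show (2 : F) * _ = 0 from ?_)).resolve_left P.two
    · linear_combination -e01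
    · linear_combination -e02
    · linear_combination e10
    · linear_combination e20
  let φ : CI →* GL (Fin 2) F := MonoidHom.toHomUnits (M := Matrix (Fin 2) (Fin 2) F)
    { toFun := fun t => matQ ((t.1 : GL (Fin 5) F) : Matrix (Fin 5) (Fin 5) F)
      map_one' := by ext i j; fin_cases i <;> fin_cases j <;> simp [matQ, Matrix.one_apply]
      map_mul' := fun a b => by
        obtain ⟨-, -, a10, a20⟩ := zeros a
        have h := matP_mul (a.1 : GL (Fin 5) F) b.1.2
        simp only [val_rP] at a10 a20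
        simp only [matP] at a10 a20
        simp at a10 a20
        ext i j
        fin_cases i <;> fin_cases j
        · simpa [matQ, matP, val_rP, Matrix.mul_apply, Fin.sum_univ_three, Fin.sum_univ_two, a10] using congrFun (congrFun h 1) 1
        · simpa [matQ, matP, val_rP, Matrix.mul_apply, Fin.sum_univ_three, Fin.sum_univ_two, a10] using congrFun (congrFun h 1) 2
        · simpa [matQ, matP, val_rP, Matrix.mul_apply, Fin.sum_univ_three, Fin.sum_univ_two, a20] using congrFun (congrFun h 2) 1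
        · simpa [matQ, matP, val_rP, Matrix.mul_apply, Fin.sum_univ_three, Fin.sum_univ_two, a20] using congrFun (congrFun h 2) 2 }
  have hφ : ∀ t, (φ t : Matrix (Fin 2) (Fin 2) F) =
      matQ ((t.1 : GL (Fin 5) F) : Matrix (Fin 5) (Fin 5) F) := fun t => rfl
  set H := φ.range with hH
  have hHle : H ≤ Cfsg.GU 2 F q := by
    rintro _ ⟨t, rfl⟩
    obtain ⟨z1, z2, -, -⟩ := zeros t
    obtain ⟨-, -, a3, a4, -⟩ := CJ_eqs t.1.2
    simp [val_rP, matP, a3, a4] at z1 z2
    refine matQ_mem_GU R.sq P.two t.1.2 (P.mem_GU (hCI.1 t.2).1) ?_ ?_ (hφ t)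
    · exact (mul_eq_zero.1 (show (2 : F) * _ = 0 by linear_combination z1)).resolve_left P.two
    · exact (mul_eq_zero.1 (show (2 : F) * _ = 0 by linear_combination z2)).resolve_left P.two
  have htJ : R.tJ ∈ CI := hCI.2 ⟨P.con.hT, Units.ext (by
    rw [Units.val_mul, Units.val_mul, R.rP_tJ, hι, diagonal_mul_diagonal, diagonal_mul_diagonal]
    congr 1; funext i; exact mul_comm _ _)⟩
  let x : CI := ⟨R.tJ, htJ⟩
  have hx : (φ x : Matrix (Fin 2) (Fin 2) F) = !![R.e 1, 0; 0, R.e 4] := by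
    rw [hφ]
    ext i j; fin_cases i <;> fin_cases j <;> simp [matQ, x, Root5.tJ, R.val_gT]
  -- diagonal on the plane means fixed by `T`
  have hfix : ∀ t : CI, t.1 ∈ kerM M → (φ t : Matrix (Fin 2) (Fin 2) F) 0 1 = 0 →
      (φ t : Matrix (Fin 2) (Fin 2) F) 1 0 = 0 → Commute (t.1 : GL (Fin 5) F) R.gT := by
    intro t ht h01 h10
    obtain ⟨z1, z2, z3, z4⟩ := zeros t
    rw [hφ] at h01 h10
    refine P.commute_tJ_of_diag (k := 1) (by rw [MonoidHom.mem_ker.1 ht.2, Units.val_one, one_smul])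
      (d := fun i => (rP t.1 : Matrix (Fin 3) (Fin 3) F) i i) ?_
    simp [matQ] at h01 h10
    simp [val_rP, matP] at z1 z2 z3 z4
    rw [val_rP]
    ext i j
    fin_cases i <;> fin_cases j <;> simp [matP, z1, z2, z3, z4, h01, h10]
  have hbad : ∀ t : CI, t.1 ∈ kerM M → ∀ {a b : F},
      (φ t : Matrix (Fin 2) (Fin 2) F) = !![a, 0; 0, b] → a * a = 1 ∧ b * b = 1 := by
    intro t ht a b hab
    obtain ⟨γ, ε, hd, g2, e2⟩ := P.shape_ker ht (hfix t ht (by rw [hab]; rfl) (by rw [hab]; rfl))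
    have p1 := congrFun (congrFun hd 1) 1
    have p2 := congrFun (congrFun hd 2) 2
    rw [hφ] at hab
    have q1 := congrFun (congrFun hab 0) 0
    have q2 := congrFun (congrFun hab 1) 1
    simp [val_rP, matP] at p1 p2
    simp [matQ] at q1 q2
    rw [← q1, ← q2, p1, p2]
    exact ⟨g2, e2⟩
  let nI : CI := ⟨n, hCI.2 ⟨hn.1, hc⟩⟩
  rcases plane_cases R.sq P.hp P.hc P.hq P.two R.pow_five R.ne_one hHle ⟨x, rfl⟩
      (by rw [hx, R.e_one]; rfl) with hm | hf | hb
  · rcases hm _ ⟨nI, rfl⟩ with ⟨h00, h11⟩ | ⟨h01, h10⟩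
    · exfalso
      have hd := (φ nI).det_ne_zero
      rw [det_fin_two, h00, h11, zero_mul, zero_sub, neg_ne_zero] at hd
      set c := nI * x * nI⁻¹ * x⁻¹ with hcdef
      have hck : c.1 ∈ kerM M := P.commutator_mem_kerM hn.1 P.con.hT (by
        rw [MonoidHom.mem_ker.1 hn.2, one_mul, mul_one])
      have hcv : φ c * (φ x * φ nI) = φ nI * φ x := by
        simp only [hcdef, map_mul, map_inv]; group
      have h3 : (φ c : Matrix (Fin 2) (Fin 2) F) = !![R.e 3, 0; 0, R.e 2] := by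
        have h' := congrArg Units.val hcv
        rw [Units.val_mul, Units.val_mul, Units.val_mul, hx] at h'
        have e00 := congrFun (congrFun h' 0) 0
        have e01 := congrFun (congrFun h' 0) 1
        have e10 := congrFun (congrFun h' 1) 0
        have e11 := congrFun (congrFun h' 1) 1
        simp [Matrix.mul_apply, Matrix.vecMul, dotProduct, Fin.sum_univ_two, h00, h11] at e00 e01 e10 e11
        have w1 : R.e 4 = R.e 1 * R.e 3 := R.e_add 1 3
        have w4 : R.e 1 = R.e 4 * R.e 2 := R.e_add 4 2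
        have ne1 := mul_ne_zero (R.e_ne 1) (left_ne_zero_of_mul hd)
        have ne4 := mul_ne_zero (R.e_ne 4) (right_ne_zero_of_mul hd)
        ext i j
        fin_cases i <;> fin_cases j <;> simp
        · exact mul_right_cancel₀ ne1 (by linear_combination e01 + (φ nI : Matrix (Fin 2) (Fin 2) F) 0 1 * w1)
        · rcases e00 with e | e | e <;> first | exact e | exact absurd e (R.e_ne 4) | exact absurd e (right_ne_zero_of_mul hd)
        · rcases e11 with e | e | e <;> first | exact e | exact absurd e (R.e_ne 1) | exact absurd e (left_ne_zero_of_mul hd)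
        · exact mul_right_cancel₀ ne4 (by linear_combination e10 + (φ nI : Matrix (Fin 2) (Fin 2) F) 1 0 * w4)
      have h33 := (hbad c hck h3).1
      rw [← R.e_add] at h33
      exact absurd (R.e_eq_one.1 h33) (by decide)
    · exact hfix nI hn h01 h10
  · obtain ⟨f⟩ := hf
    haveI := (alternatingGroup.isSimpleGroup (α := Fin 5) (by simp))
    haveI := f.isSimpleGroup
    set H' := H.map ProjGenLinGroup.mk
    let X : Subgroup CI := (kerM M).subgroupOf CI
    let π : CI →* H' := ((ProjGenLinGroup.mk.comp φ).codRestrict H') fun t => ⟨_, ⟨t, rfl⟩, rfl⟩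
    have hπ : Function.Surjective π := by
      rintro ⟨_, _, ⟨t, rfl⟩, rfl⟩
      exact ⟨t, rfl⟩
    have hXn : X.Normal := ⟨fun a ha t => P.conj_mem_kerM ha (hCI.1 t.2).1⟩
    rcases (hXn.map π hπ).eq_bot_or_eq_top with hbot | htop
    · have h1 : π nI = 1 := by
        rw [← Subgroup.mem_bot, ← hbot]
        exact Subgroup.mem_map_of_mem _ hn
      obtain ⟨a, -, ha⟩ := mk_eq_one_smul (A := φ nI) (congrArg Subtype.val h1)
      exact hfix nI hn (by simp [ha]) (by simp [ha])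
    · exfalso
      obtain ⟨m, hm, hmx⟩ : π x ∈ X.map π := by rw [htop]; exact Subgroup.mem_top _
      obtain ⟨a, ha0, ha⟩ := mk_smul_of_eq (congrArg Subtype.val hmx)
      obtain ⟨h1, h4⟩ := hbad m hm (a := a * R.e 1) (b := a * R.e 4) (by
        rw [ha, hx]
        ext i j; fin_cases i <;> fin_cases j <;> simp)
      refine R.e_sq_ne (show (1 : Fin 5) ≠ 4 by decide) (mul_left_cancel₀ (mul_ne_zero ha0 ha0) ?_)
      linear_combination h1 - h4
  · let N : Subgroup (GL (Fin 2) F) :=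
      ((kerM M).subgroupOf CI).map φ ⊓ ClassicalMax.suGL 2 F q
    by_cases hsc : ∀ A ∈ N, ∃ a : F, (A : Matrix (Fin 2) (Fin 2) F) = a • 1
    · set c := nI * x * nI⁻¹ * x⁻¹ with hcdef
      have hck : c.1 ∈ kerM M := P.commutator_mem_kerM hn.1 P.con.hT (by
        rw [MonoidHom.mem_ker.1 hn.2, one_mul, mul_one])
      obtain ⟨a, ha⟩ := hsc (φ c) ⟨⟨c, hck, rfl⟩, hHle ⟨c, rfl⟩, by
        show Matrix.GeneralLinearGroup.det (φ c) = 1
        simp only [hcdef, map_mul, map_inv]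
        rw [mul_right_comm (Matrix.GeneralLinearGroup.det (φ nI)), mul_inv_cancel, one_mul,
          mul_inv_cancel]⟩
      have hcv : φ nI * φ x = φ c * (φ x * φ nI) := by
        simp only [hcdef, map_mul, map_inv]; group
      have h' := congrArg Units.val hcv
      rw [Units.val_mul, Units.val_mul, Units.val_mul, ha, smul_mul_assoc, one_mul] at h'
      obtain ⟨h01, h10⟩ := diag_of_comm hx (R.e_sq_ne (by decide)) h'
      exact hfix nI hn h01 h10
    · exfalso
      push Not at hsc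
      obtain ⟨A, hA, hAs⟩ := hsc
      have hall := suGL_two_le_of_normalised R.sq P.four_le (N := N) inf_le_right
        (fun S hS A' hA' => by
          obtain ⟨⟨a, ha, rfl⟩, hAsu⟩ := hA'
          refine ⟨?_, ClassicalMax.suGL_conj_mem hS.1 hAsu⟩
          obtain ⟨c, hc, -, ⟨t, rfl⟩, e⟩ := hb S hS
          refine ⟨t * a * t⁻¹, P.conj_mem_kerM ha (hCI.1 t.2).1, ?_⟩
          rw [map_mul, map_mul, map_inv, mul_inv_eq_iff_eq_mul]
          refine Units.ext ?_
          simp only [Units.val_mul, e, smul_mul_assoc, mul_smul_comm, mul_assoc, Units.inv_mul,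
            mul_one])
        ⟨A, hA, fun ⟨a, ha⟩ => hAs a ha⟩
      obtain ⟨⟨m, hm, hme⟩, -⟩ := hall R.r1_xT_suGL
      have h11 := (hbad m hm (a := R.e 1) (b := R.e 4) (by rw [hme, R.r1_xT])).1
      rw [← R.e_add] at h11
      exact absurd (R.e_eq_one.1 h11) (by decide)

/-- An element of `C_M(J)` trivial on the `-1`-space of `J` is trivial. -/
theorem kerM_eq_bot : kerM M = ⊥ := by
  classical
  have hinj : ∀ {n : CJ F}, rM n = 1 → rP n = 1 → n = 1 := fun h1 h2 =>
    eq_of_blocks P.two (by rw [h1, map_one]) (by rw [h2, map_one])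
  have fixfree : ∀ (O : Subgroup (CJ F)), O ≤ kerM M →
      (∀ n ∈ O, R.tJ * n * R.tJ⁻¹ ∈ O) → (∀ n ∈ O, R.hJ * n * R.hJ⁻¹ ∈ O) →
      (∀ n ∈ O, Commute (n : GL (Fin 5) F) R.gT → n = 1) → O = ⊥ := by
    intro O hO ht hh hf
    have h := eq_bot_of_fixFree R.toRoot5 (gp := rP R.tJ) (hp := rP R.hJ) R.rP_tJ
      (R.rP_hJ_ne P.two) (N := O.map rP) ?_ ?_ ?_
    · rw [eq_bot_iff]
      intro n hn
      refine Subgroup.mem_bot.2 (hinj (MonoidHom.mem_ker.1 (hO hn).2) ?_)
      rw [← Subgroup.mem_bot, ← h]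
      exact Subgroup.mem_map_of_mem _ hn
    · rintro _ ⟨n, hn, rfl⟩
      exact ⟨_, ht n hn, by simp⟩
    · rintro _ ⟨n, hn, rfl⟩
      exact ⟨_, hh n hn, by simp⟩
    · rintro _ ⟨n, hn, rfl⟩ hcom
      have h1 : n * R.tJ = R.tJ * n := by
        refine eq_of_blocks P.two ?_ ?_
        · rw [map_mul, map_mul, MonoidHom.mem_ker.1 (hO hn).2, one_mul, mul_one]
        · rw [map_mul, map_mul, hcom]
      rw [hf n hn (congrArg Subtype.val h1), map_one]
  let C : Subgroup (CJ F) := Subgroup.centralizer {R.tJ}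
  let K : Subgroup (CJ F) := kerM M ⊓ C
  have hK : ∀ {n : CJ F}, n ∈ K ↔ n ∈ kerM M ∧ Commute (n : GL (Fin 5) F) R.gT := by
    intro n
    rw [Subgroup.mem_inf, Subgroup.mem_centralizer_singleton_iff]
    exact ⟨fun h => ⟨h.1, congrArg Subtype.val h.2⟩, fun h => ⟨h.1, Subtype.ext h.2.eq⟩⟩
  by_cases hK1 : ∀ n ∈ K, n = (1 : CJ F)
  · exact fixfree _ le_rfl (fun n hn => P.conj_mem_kerM hn P.con.hT)
      (fun n hn => P.conj_mem_kerM hn P.con.hH) fun n hn hc => hK1 n (hK.2 ⟨hn, hc⟩)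
  exfalso
  push Not at hK1
  obtain ⟨m, hm, hm1⟩ := hK1
  -- the sign change on `e₀`
  obtain ⟨ι, hι, hιd⟩ : ∃ ι ∈ K, (rP ι : Matrix (Fin 3) (Fin 3) F) = diagonal ![1, -1, -1] := by
    obtain ⟨γ, ε, hd, g2, e2⟩ := P.shape_ker (hK.1 hm).1 (hK.1 hm).2
    let S' : CJ F := ⟨gS, gS_mem_CJ⟩
    have hmS : S' * m * S'⁻¹ ∈ K :=
      hK.2 ⟨P.conj_mem_kerM (hK.1 hm).1 P.con.hS,
        R.mem_CT.1 (R.gS_conj_mem_CT (R.mem_CT.2 (hK.1 hm).2))⟩
    have hdS : (rP (S' * m * S'⁻¹) : Matrix (Fin 3) (Fin 3) F) = diagonal ![γ * ε, ε, γ] := by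
      obtain ⟨γ', ε', hd', -, -⟩ := P.shape_ker (hK.1 hmS).1 (hK.1 hmS).2
      have q0 := congrFun (congrFun hd 0) 0
      have q1 := congrFun (congrFun hd 1) 1
      have q2 := congrFun (congrFun hd 2) 2
      obtain ⟨-, -, -, -, -, -, -, -, -, -, a32, a33⟩ := CJ_eqs m.2
      obtain ⟨-, -, -, -, a44, a41, -⟩ := CJ_eqs m.2
      rw [hd']
      have r0 := congrFun (congrFun hd' 0) 0
      have r1 := congrFun (congrFun hd' 1) 1
      have r2 := congrFun (congrFun hd' 2) 2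
      simp only [val_rP] at r0 r1 r2
      rw [show ((S' * m * S'⁻¹ : CJ F) : GL (Fin 5) F) = gS * (m : GL (Fin 5) F) * gS⁻¹ from rfl]
        at r0 r1 r2
      simp [val_rP, matP] at q0 q1 q2
      simp [matP, gS_conj_apply, -Units.val_mul] at r0 r1 r2
      simp only [show (3 : Fin 5) * 2 = 1 from rfl, show (3 : Fin 5) * 3 = 4 from rfl,
        show (3 : Fin 5) * 4 = 2 from rfl, a32, a33, a44, a41] at r1 r2
      have hg : γ' = ε := by rw [← r1, ← q2]
      have he : ε' = γ := by rw [← r2, ← q1]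
      rw [hg, he, mul_comm ε γ]
    rcases mul_self_eq_one_iff.1 g2 with rfl | rfl <;>
      rcases mul_self_eq_one_iff.1 e2 with rfl | rfl
    · refine absurd (hinj (MonoidHom.mem_ker.1 (hK.1 hm).1.2) (Units.ext ?_)) hm1
      rw [hd, Units.val_one, ← diagonal_one]
      congr 1; funext i; fin_cases i <;> simp
    · refine ⟨m * (S' * m * S'⁻¹), mul_mem hm hmS, ?_⟩
      rw [map_mul, Units.val_mul, hd, hdS, diagonal_mul_diagonal]
      congr 1; funext i; fin_cases i <;> simp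
    · refine ⟨m * (S' * m * S'⁻¹), mul_mem hm hmS, ?_⟩
      rw [map_mul, Units.val_mul, hd, hdS, diagonal_mul_diagonal]
      congr 1; funext i; fin_cases i <;> simp
    · refine ⟨m, hm, ?_⟩
      rw [hd]
      congr 1; funext i; fin_cases i <;> simp
  have hsq : ∀ n ∈ K, n * n = (1 : CJ F) := fun n hn => P.sq_of_fix (hK.1 hn).1 (hK.1 hn).2
  have hcomm : ∀ a ∈ K, ∀ b ∈ K, a * b = b * (a : CJ F) := by
    intro a ha b hb
    have h1 := hsq _ (mul_mem ha hb)
    rw [mul_eq_one_iff_eq_inv, _root_.mul_inv_rev] at h1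
    rwa [← eq_inv_of_mul_eq_one_left (hsq a ha), ← eq_inv_of_mul_eq_one_left (hsq b hb)] at h1
  -- the fixed points are self-normalising
  have hnorm : ∀ n ∈ kerM M, (∀ k ∈ K, n * k * n⁻¹ ∈ K) → n ∈ K := by
    intro n hn hnK
    set g := R.tJ with hg
    set c := n * g * n⁻¹ * g⁻¹ with hc
    have hck : c ∈ kerM M := P.commutator_mem_kerM hn.1 P.con.hT (by
      rw [MonoidHom.mem_ker.1 hn.2, one_mul, mul_one])
    have hgK : ∀ k ∈ K, g * k = k * g := fun k hk =>
      Subtype.ext ((hK.1 hk).2.eq.symm)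
    -- the conjugate of `T` centralises the fixed points
    have hcι : c * ι = ι * c := by
      have hni : n⁻¹ * ι * n ∈ K := by
        have hfin : (K.map (MulAut.conj n).toMonoidHom) = K := by
          refine Subgroup.eq_of_le_of_card_ge (by rintro _ ⟨k, hk, rfl⟩; exact hnK k hk) ?_
          rw [Subgroup.card_map_of_injective (MulAut.conj n).injective]
        obtain ⟨k, hk, e⟩ := hfin.ge hι
        simp only [MulEquiv.coe_toMonoidHom, MulAut.conj_apply] at e
        rw [← e, show n⁻¹ * (n * k * n⁻¹) * n = k by group]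
        exact hk
      have h1 := hgK _ hni
      calc c * ι = n * g * n⁻¹ * (g⁻¹ * ι * g) * g⁻¹ := by rw [hc]; group
        _ = n * g * n⁻¹ * ι * g⁻¹ := by rw [mul_assoc g⁻¹, ← hgK ι hι, inv_mul_cancel_left]
        _ = n * (g * (n⁻¹ * ι * n)) * n⁻¹ * g⁻¹ := by group
        _ = ι * c := by rw [h1, hc]; group
    have hcK : c ∈ K := hK.2 ⟨hck, P.fix_of_commute_sign hιd hck (by rw [← map_mul, hcι, map_mul])⟩
    have hg5 : g ^ 5 = 1 := by
      refine Subtype.ext ?_
      rw [SubgroupClass.coe_pow]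
      refine Units.ext ?_
      show ((R.gT ^ 5 : GL (Fin 5) F) : Matrix (Fin 5) (Fin 5) F) = 1
      rw [Units.val_pow_eq_pow_val, Root5.gT, R.val_dG, diagonal_pow, ← diagonal_one]
      congr 1; funext i; simp [R.pow_e]
    have hc5 : (c * g) ^ 5 = 1 := by
      rw [hc, inv_mul_cancel_right, conj_pow, hg5, mul_one, mul_inv_cancel]
    rw [(show Commute c g from (hgK c hcK).symm).mul_pow, hg5, mul_one,
      show c ^ 5 = (c * c) * (c * c) * c by simp [pow_succ, mul_assoc], hsq c hcK, one_mul,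
      one_mul] at hc5
    refine hK.2 ⟨hn, congrArg Subtype.val (show n * g = g * n from ?_)⟩
    rw [hc, mul_inv_eq_one, mul_inv_eq_iff_eq_mul] at hc5
    exact hc5
  -- transfer
  let E := kerM M
  let K' : Subgroup E := K.subgroupOf E
  haveI : Fact (Nat.Prime 2) := ⟨Nat.prime_two⟩
  have hKp : IsPGroup 2 K' := fun a => ⟨1, by
    refine Subtype.ext (Subtype.ext ?_)
    rw [pow_one, sq]
    exact hsq _ a.2⟩
  obtain ⟨S, hS⟩ := hKp.exists_le_sylow
  have hNK : ∀ n : E, n ∈ Subgroup.normalizer (K' : Set E) → n ∈ K' := by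
    intro n hn
    exact hnorm n n.2 fun k hk =>
      (Subgroup.mem_normalizer_iff.1 hn ⟨k, (hK.1 hk).1⟩).1 hk
  have hSK : (S : Subgroup E) = K' := by
    by_contra hne
    have hlt : K'.subgroupOf S ≠ ⊤ := fun e => hne (le_antisymm (Subgroup.subgroupOf_eq_top.1 e) hS)
    haveI : Group.IsNilpotent S := S.2.isNilpotent
    have hlt' := Group.normalizerCondition_of_isNilpotent (K'.subgroupOf S) (lt_top_iff_ne_top.2 hlt)
    obtain ⟨s, hsn, hs⟩ := SetLike.exists_of_lt hlt'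
    refine hs (hNK s ?_)
    rw [Subgroup.mem_normalizer_iff] at hsn ⊢
    intro k
    constructor
    · intro hk
      exact (hsn ⟨k, hS hk⟩).1 hk
    · intro hk
      have hkS : k ∈ (S : Subgroup E) := by
        have := mul_mem (mul_mem (inv_mem s.2) (hS hk)) s.2
        simpa [mul_assoc] using this
      exact (hsn ⟨k, hkS⟩).2 hk
  have hNC : Subgroup.normalizer ((S : Subgroup E) : Set E) ≤
      Subgroup.centralizer ((S : Subgroup E) : Set E) := by
    rw [hSK]
    intro n hn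
    refine Subgroup.mem_centralizer_iff.2 fun k hk => Subtype.ext ?_
    exact hcomm _ hk _ (hNK n hn)
  haveI : IsMulCommutative (S : Subgroup E) := ⟨⟨fun a b => Subtype.ext (Subtype.ext (by
    have ha : a.1 ∈ K' := hSK ▸ a.2
    have hb : b.1 ∈ K' := hSK ▸ b.2
    exact hcomm _ ha _ hb))⟩⟩
  set τ := MonoidHom.transferSylow S hNC
  have hcompl := MonoidHom.ker_transferSylow_isComplement' S hNC
  have hodd : ∀ n : E, n ∈ τ.ker → Odd (orderOf n) := by
    intro n hn
    rw [Nat.odd_iff, ← Nat.two_dvd_ne_zero]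
    intro h2
    have h1 := h2.trans (Subgroup.orderOf_dvd_natCard _ hn)
    have hidx := hcompl.index_eq_card
    have := S.not_dvd_index
    rw [hidx] at this
    exact this h1
  have hker : ∀ n : E, Odd (orderOf n) → n ∈ τ.ker := by
    intro n hn
    rw [MonoidHom.mem_ker, ← orderOf_eq_one_iff]
    have h1 := orderOf_map_dvd τ n
    obtain ⟨k, hk⟩ := IsPGroup.iff_orderOf.1 S.2 (τ n)
    rw [hk] at h1
    rcases k with _ | k
    · rw [hk, pow_zero]
    · exact absurd ((dvd_pow_self 2 k.succ_ne_zero).trans h1) (by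
        rw [Nat.two_dvd_ne_zero, ← Nat.odd_iff]; exact hn)
  let O : Subgroup (CJ F) := τ.ker.map E.subtype
  have hconj : ∀ t : CJ F, (t : GL (Fin 5) F) ∈ M → ∀ n ∈ O, t * n * t⁻¹ ∈ O := by
    rintro t ht _ ⟨n, hn, rfl⟩
    refine ⟨⟨t * n * t⁻¹, P.conj_mem_kerM n.2 ht⟩, hker _ ?_, rfl⟩
    rw [Subgroup.orderOf_mk,
      show orderOf (t * (n : CJ F) * t⁻¹) = orderOf (n : CJ F) from MulEquiv.orderOf_eq (MulAut.conj t) _,
      Subgroup.orderOf_coe]
    exact hodd n hn
  have hO : O = ⊥ := by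
    refine fixfree O (Subgroup.map_subtype_le _) (hconj _ P.con.hT) (hconj _ P.con.hH) ?_
    rintro _ ⟨n, hn, rfl⟩ hc
    have h2 : n * n = 1 := Subtype.ext (P.sq_of_fix n.2 hc)
    have h3 := orderOf_dvd_of_pow_eq_one (show n ^ 2 = 1 by rw [sq, h2])
    rcases (Nat.dvd_prime Nat.prime_two).1 h3 with h | h
    · rw [orderOf_eq_one_iff.1 h, map_one]
    · exact absurd (hodd n hn) (by rw [h]; decide)
  have hτ : τ.ker = ⊥ := (Subgroup.map_eq_bot_iff_of_injective _ E.subtype_injective).1 hO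
  have htop : (S : Subgroup E) = ⊤ := by
    have := hcompl
    rw [show (MonoidHom.transferSylow S hNC).ker = ⊥ from hτ] at this
    exact Subgroup.isComplement'_bot_left.1 this
  -- the conjugate of the sign change is diagonal
  have hιE : R.hJ * ι * R.hJ⁻¹ ∈ E := P.conj_mem_kerM (hK.1 hι).1 P.con.hH
  have hιK : R.hJ * ι * R.hJ⁻¹ ∈ K := by
    have : (⟨_, hιE⟩ : E) ∈ K' := hSK ▸ htop ▸ Subgroup.mem_top _
    exact this
  obtain ⟨γ, ε, hd, -, -⟩ := P.shape_ker (hK.1 hιK).1 (hK.1 hιK).2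
  have h := congrArg (fun m : GL (Fin 3) F => (m : Matrix (Fin 3) (Fin 3) F))
    (show rP R.hJ * rP ι = rP (R.hJ * ι * R.hJ⁻¹) * rP R.hJ by
      rw [← map_mul, ← map_mul, inv_mul_cancel_right])
  rw [Units.val_mul, Units.val_mul, hd, hιd] at h
  have e0 := congrFun (congrFun h 0) 0
  have e1 := congrFun (congrFun h 0) 1
  rw [mul_diagonal, diagonal_mul] at e0 e1
  simp at e0 e1
  have k0 : γ * ε = 1 := mul_right_cancel₀ (R.rP_hJ_ne P.two 0 0) (by linear_combination -e0)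
  rw [k0, one_mul] at e1
  exact R.rP_hJ_ne P.two 0 1
    ((mul_eq_zero.1 (show (2 : F) * _ = 0 by linear_combination -e1)).resolve_left P.two)

end Proper

end Cfsg.Agent.SUFive.Symp
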