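import Cfsg.Agent.SUFive.SympUnit
import Cfsg.Agent.MaxSub.CSixFive.Plane
import Cfsg.Agent.MaxSub.Dickson.Finite
import Cfsg.Agent.Classical.ExcTwo
import Cfsg.Agent.Classical.UTwo

/-!
Subgroups of `GU₂(q)` containing `diag(ω, ω⁻¹)` with `ω` of order five, and normalised subgroups of `SU₂(q)`.
-/

set_option autoImplicit false
set_option linter.unusedSectionVars false
set_option linter.style.haveILetI false

namespace Cfsg.Agent.SUFive.Symp

open Matrix MulAction Cfsg.Agent.MaxSub Cfsg.Agent.Classical.U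
open scoped MatrixGroups OnePoint commutatorElement Cfsg.Agent.MaxSub.Dickson

universe u

/-- A perfect group has no proper subgroup containing all commutators. -/
theorem eq_top_of_commutators {G : Type*} [Group G] (hG : commutator G = ⊤) (M : Subgroup G)
    (h : ∀ a b : G, ⁅a, b⁆ ∈ M) : M = ⊤ := by
  rw [eq_top_iff, ← hG, commutator_def, Subgroup.commutator_le]
  exact fun a _ b _ => h a b

/-- A perfect group has no proper subgroup of index at most two. -/
theorem eq_top_of_index_le_two {G : Type*} [Group G] (hG : commutator G = ⊤) (M : Subgroup G)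
    (h0 : M.index ≠ 0) (h2 : M.index ≤ 2) : M = ⊤ := by
  rcases (by omega : M.index = 1 ∨ M.index = 2) with h | h
  · exact Subgroup.index_eq_one.1 h
  · refine eq_top_of_commutators hG M fun a b => ?_
    rw [commutatorElement_def, Subgroup.mul_mem_iff_of_index_two h, Subgroup.mul_mem_iff_of_index_two h,
      Subgroup.mul_mem_iff_of_index_two h, inv_mem_iff, inv_mem_iff]
    tauto

variable {F : Type u} [Field F] {q : ℕ}

/-- `SU₂` as a group of matrices. -/
def suGLEquiv (n : ℕ) (F : Type u) [Field F] (q : ℕ) : Cfsg.SU n F q ≃* ClassicalMax.suGL n F q where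
  toFun g := ⟨Matrix.SpecialLinearGroup.toGL g.1, g.2, GeoClasses.mem_specialLinear_iff.2 g.1.2⟩
  invFun g := ⟨⟨((g : GL (Fin n) F) : Matrix (Fin n) (Fin n) F),
    GeoClasses.mem_specialLinear_iff.1 g.2.2⟩, g.2.1⟩
  left_inv _ := rfl
  right_inv _ := Subtype.ext (Units.ext rfl)
  map_mul' a b := Subtype.ext (map_mul Matrix.SpecialLinearGroup.toGL a.1 b.1)

/-- What is needed of `SU₂(q)`: its order, and that it is perfect with simple quotient by the scalars. -/
theorem suGL_two_facts (hF : SqField F q) (h4 : 4 ≤ q) :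
    Nat.card (ClassicalMax.suGL 2 F q) = q * (q - 1) * (q + 1) ∧
      commutator (ClassicalMax.suGL 2 F q) = ⊤ ∧
      ∀ M : Subgroup (ClassicalMax.suGL 2 F q), M.Normal →
        M ≤ Subgroup.center (ClassicalMax.suGL 2 F q) ∨ M = ⊤ := by
  classical
  obtain ⟨p, k, hp, hcp, hpk⟩ := hF.exists_char
  haveI : Fact p.Prime := ⟨hp⟩
  have hk : k ≠ 0 := fun h => by rw [h, pow_zero] at hpk; omega
  have hcK : Nat.card (GaloisField p k) = q := by rw [GaloisField.card p k hk, hpk]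
  haveI : Fintype (GaloisField p k) := Fintype.ofFinite _
  obtain ⟨e₀⟩ := SU_two_equiv hF hcK
  let ψ : ClassicalMax.suGL 2 F q ≃* SL(2, GaloisField p k) := (suGLEquiv 2 F q).symm.trans e₀
  have hperf := (Cfsg.Agent.Classical.Exc.isPerfect_SL_two (F := GaloisField p k) (by omega)).commutator_eq_top
  have hP : commutator (ClassicalMax.suGL 2 F q) = ⊤ := by
    have h := congrArg (Subgroup.map ψ.symm.toMonoidHom) hperf
    rw [commutator_def, Subgroup.map_commutator, Subgroup.map_top_of_surjective _ ψ.symm.surjective,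
      ← commutator_def] at h
    exact h
  refine ⟨?_, hP, fun M hM => ?_⟩
  · rw [Nat.card_congr ψ.toEquiv, Linear.card_SL_two, ← Nat.card_eq_fintype_card, hcK]
  · have hsimp : IsSimpleGroup (Matrix.ProjectiveSpecialLinearGroup (Fin 2) (GaloisField p k)) :=
      Linear.isSimpleGroup_PSL_fin 2 le_rfl (fun _ => by omega)
    have hMn : (M.map ψ.toMonoidHom).Normal := hM.map _ ψ.surjective
    have hπn := hMn.map (QuotientGroup.mk' (Subgroup.center _)) (QuotientGroup.mk'_surjective _)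
    rcases hsimp.eq_bot_or_eq_top_of_normal _ hπn with hb | ht
    · refine Or.inl fun g hg => Subgroup.mem_center_iff.2 fun x => ψ.injective ?_
      have h1 : ψ g ∈ Subgroup.center _ := by
        rw [← QuotientGroup.eq_one_iff, ← Subgroup.mem_bot, ← hb]
        exact ⟨ψ g, ⟨g, hg, rfl⟩, rfl⟩
      rw [map_mul, map_mul]
      exact Subgroup.mem_center_iff.1 h1 (ψ x)
    · refine Or.inr (eq_top_of_commutators hP M fun a b => ?_)
      have hMc : ∀ x : ClassicalMax.suGL 2 F q, ∃ m ∈ M, ∃ z ∈ Subgroup.center (ClassicalMax.suGL 2 F q),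
          x = m * z := by
        intro x
        obtain ⟨y, ⟨m, hm, rfl⟩, hy⟩ :=
          (ht ▸ Subgroup.mem_top (QuotientGroup.mk' _ (ψ x)) : _ ∈ (M.map ψ.toMonoidHom).map _)
        refine ⟨m, hm, m⁻¹ * x, Subgroup.mem_center_iff.2 fun t => ψ.injective ?_, by group⟩
        have h1 : ψ (m⁻¹ * x) ∈ Subgroup.center _ := by
          rw [map_mul, map_inv, ← QuotientGroup.eq]
          exact hy
        rw [map_mul, map_mul ψ (m⁻¹ * x)]
        exact Subgroup.mem_center_iff.1 h1 (ψ t)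
      obtain ⟨m, hm, z, hz, rfl⟩ := hMc a
      obtain ⟨m', hm', z', hz', rfl⟩ := hMc b
      haveI := hM
      rw [← QuotientGroup.eq_one_iff, ← QuotientGroup.mk'_apply, map_commutatorElement,
        commutatorElement_eq_one_iff_commute, map_mul, map_mul]
      have e : ∀ y ∈ M, QuotientGroup.mk' M y = 1 := fun y hy => (QuotientGroup.eq_one_iff y).2 hy
      rw [e m hm, e m' hm', one_mul, one_mul]
      exact Commute.map (Subgroup.mem_center_iff.1 hz' z) _

/-! ### matrices -/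

/-- The unitary conditions on a two by two matrix. -/
theorem gu_two_entries (hF : SqField F q) {g : GL (Fin 2) F} (hg : g ∈ Cfsg.GU 2 F q) :
    (g : Matrix (Fin 2) (Fin 2) F) 0 0 * (g : Matrix (Fin 2) (Fin 2) F) 0 1 ^ q +
        (g : Matrix (Fin 2) (Fin 2) F) 1 0 * (g : Matrix (Fin 2) (Fin 2) F) 1 1 ^ q = 0 := by
  have h := congrFun (congrFun ((Elusive25.mem_GU_iff_gram hF g).1 hg) 0) 1
  simpa [Matrix.mul_apply, Fin.sum_univ_two, Forms.sqConj_apply] using h

/-- Upper triangular unitary matrices are diagonal. -/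
theorem gu_two_upper (hF : SqField F q) {g : GL (Fin 2) F} (hg : g ∈ Cfsg.GU 2 F q)
    (h : (g : Matrix (Fin 2) (Fin 2) F) 1 0 = 0) : (g : Matrix (Fin 2) (Fin 2) F) 0 1 = 0 := by
  have hd := g.det_ne_zero
  rw [Matrix.det_fin_two, h, mul_zero, sub_zero] at hd
  have h0 := gu_two_entries hF hg
  rw [h, zero_mul, add_zero] at h0
  exact eq_zero_of_pow_eq_zero ((mul_eq_zero.1 h0).resolve_left (left_ne_zero_of_mul hd))

/-- Lower triangular unitary matrices are diagonal. -/
theorem gu_two_lower (hF : SqField F q) {g : GL (Fin 2) F} (hg : g ∈ Cfsg.GU 2 F q)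
    (h : (g : Matrix (Fin 2) (Fin 2) F) 0 1 = 0) : (g : Matrix (Fin 2) (Fin 2) F) 1 0 = 0 := by
  have hd := g.det_ne_zero
  rw [Matrix.det_fin_two, h, zero_mul, sub_zero] at hd
  have h0 := gu_two_entries hF hg
  rw [h, zero_pow hF.q_ne_zero, mul_zero, zero_add] at h0
  exact (mul_eq_zero.1 h0).resolve_right (pow_ne_zero _ (right_ne_zero_of_mul hd))

theorem exists_smul_of_mk_eq {g h : GL (Fin 2) F} (e : ProjGenLinGroup.mk g = ProjGenLinGroup.mk h) :
    ∃ c : F, c ≠ 0 ∧ (h : Matrix (Fin 2) (Fin 2) F) = c • (g : Matrix (Fin 2) (Fin 2) F) := by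
  obtain ⟨u, hu⟩ := ProjGenLinGroup.mk_eq_mk_iff.1 e
  refine ⟨u, u.ne_zero, ?_⟩
  rw [← hu, Units.val_mul, GeneralLinearGroup.coe_scalar, Matrix.scalar_apply,
    ← Matrix.smul_one_eq_diagonal, Matrix.mul_smul, mul_one]

/-- Carrying one split torus element to another up to scalars forces a monomial shape. -/
theorem monomial_of_conj {h x y : GL (Fin 2) F} {a b c d : F}
    (hx : (x : Matrix (Fin 2) (Fin 2) F) = !![a, 0; 0, b]) (hy : (y : Matrix (Fin 2) (Fin 2) F) = !![c, 0; 0, d])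
    (hab : a ≠ b) (hcd : c ≠ d)
    (e : ProjGenLinGroup.mk h * ProjGenLinGroup.mk x = ProjGenLinGroup.mk y * ProjGenLinGroup.mk h) :
    ((h : Matrix (Fin 2) (Fin 2) F) 0 0 = 0 ∧ (h : Matrix (Fin 2) (Fin 2) F) 1 1 = 0) ∨
      ((h : Matrix (Fin 2) (Fin 2) F) 0 1 = 0 ∧ (h : Matrix (Fin 2) (Fin 2) F) 1 0 = 0) := by
  rw [← map_mul, ← map_mul] at e
  obtain ⟨k, hk, he⟩ := exists_smul_of_mk_eq e.symm
  rw [Units.val_mul, Units.val_mul, hx, hy] at he
  set A := (h : Matrix (Fin 2) (Fin 2) F)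
  have e00 : A 0 0 * (a - k * c) = 0 := by
    have := congrFun (congrFun he 0) 0
    simp [Matrix.mul_apply, Fin.sum_univ_two, Matrix.vecMul, dotProduct] at this
    linear_combination this
  have e11 : A 1 1 * (b - k * d) = 0 := by
    have := congrFun (congrFun he 1) 1
    simp [Matrix.mul_apply, Fin.sum_univ_two, Matrix.vecMul, dotProduct] at this
    linear_combination this
  have e01 : A 0 1 * (b - k * c) = 0 := by
    have := congrFun (congrFun he 0) 1
    simp [Matrix.mul_apply, Fin.sum_univ_two, Matrix.vecMul, dotProduct] at this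
    linear_combination this
  have e10 : A 1 0 * (a - k * d) = 0 := by
    have := congrFun (congrFun he 1) 0
    simp [Matrix.mul_apply, Fin.sum_univ_two, Matrix.vecMul, dotProduct] at this
    linear_combination this
  simp only [mul_eq_zero, sub_eq_zero] at e00 e11 e01 e10
  have hk' : k * c ≠ k * d := fun t => hcd (mul_left_cancel₀ hk t)
  grind

/-- Only scalars centralise `SU₂(q)`. -/
theorem scalar_of_commute_suGL (hF : SqField F q) (h3 : 3 ≤ q + 1) {n : GL (Fin 2) F}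
    (hn : ∀ g ∈ ClassicalMax.suGL 2 F q, Commute g n) :
    ∃ c : F, (n : Matrix (Fin 2) (Fin 2) F) = c • 1 := by
  classical
  obtain ⟨hfin, -⟩ := id hF
  obtain ⟨a, ha, ha2⟩ : ∃ a : F, a ^ (q + 1) = 1 ∧ a * a ≠ 1 := by
    by_contra hcon
    push Not at hcon
    have hle : Nat.card {x : F // x ^ (q + 1) = 1} ≤ Nat.card ({1, -1} : Finset F) :=
      Nat.card_le_card_of_injective (fun x => ⟨x.1, by
        rcases mul_self_eq_one_iff.1 (hcon x.1 x.2) with h | h <;> simp [h]⟩)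
        fun x y h => Subtype.ext (congrArg Subtype.val h :)
    rw [hF.card_norm_one, Nat.card_eq_fintype_card, Fintype.card_coe] at hle
    have := (Finset.card_le_two (a := (1 : F)) (b := -1))
    omega
  have ha0 : a ≠ 0 := fun h => by simp [h] at ha
  have hd : ((Matrix.GeneralLinearGroup.mkOfDetNeZero !![a, 0; 0, a⁻¹] (by simp [ha0])) : GL (Fin 2) F) ∈
      ClassicalMax.suGL 2 F q := by
    refine ⟨Elusive25.mem_GU_diag hF (d := ![a, a⁻¹]) ?_ ?_, GeoClasses.mem_specialLinear_iff.2 ?_⟩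
    · ext i j; fin_cases i <;> fin_cases j <;> simp
    · intro i; fin_cases i <;> simp [ha, inv_pow]
    · simp [ha0]
  have hJ : ((Matrix.GeneralLinearGroup.mkOfDetNeZero !![(0 : F), 1; -1, 0] (by simp)) : GL (Fin 2) F) ∈
      ClassicalMax.suGL 2 F q := by
    refine ⟨(Elusive25.mem_GU_iff_gram hF _).2 ?_, GeoClasses.mem_specialLinear_iff.2 ?_⟩
    · ext i j; fin_cases i <;> fin_cases j <;>
        simp [Matrix.mul_apply, Fin.sum_univ_two, Forms.sqConj_apply, hF.neg_pow, hF.q_ne_zero]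
    · simp
  have h1 := congrArg (Units.val) (hn _ hd).eq
  have h2 := congrArg (Units.val) (hn _ hJ).eq
  rw [Units.val_mul, Units.val_mul] at h1 h2
  have hne : a ≠ a⁻¹ := fun h => ha2 (by nth_rw 2 [h]; exact mul_inv_cancel₀ ha0)
  have e01 := congrFun (congrFun h1 0) 1
  have e10 := congrFun (congrFun h1 1) 0
  have f01 := congrFun (congrFun h2 0) 1
  simp [Matrix.mul_apply, Fin.sum_univ_two] at e01 e10 f01
  have n01 : (n : Matrix (Fin 2) (Fin 2) F) 0 1 = 0 := by
    by_contra h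
    exact hne (mul_right_cancel₀ h (e01.trans (mul_comm _ _)))
  have n10 : (n : Matrix (Fin 2) (Fin 2) F) 1 0 = 0 := by
    by_contra h
    exact hne.symm (mul_right_cancel₀ h (e10.trans (mul_comm _ _)))
  refine ⟨(n : Matrix (Fin 2) (Fin 2) F) 0 0, ?_⟩
  ext i j; fin_cases i <;> fin_cases j <;> simp [n01, n10, f01]

/-- A non-scalar subgroup of `SU₂(q)` normalised by `SU₂(q)` is all of it. -/
theorem suGL_two_le_of_normalised (hF : SqField F q) (h4 : 4 ≤ q) {N : Subgroup (GL (Fin 2) F)}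
    (hN : N ≤ ClassicalMax.suGL 2 F q)
    (hn : ∀ g ∈ ClassicalMax.suGL 2 F q, ∀ n ∈ N, g * n * g⁻¹ ∈ N)
    (hs : ∃ n ∈ N, ¬ ∃ c : F, (n : Matrix (Fin 2) (Fin 2) F) = c • 1) :
    ClassicalMax.suGL 2 F q ≤ N := by
  obtain ⟨-, -, hnor⟩ := suGL_two_facts hF h4
  have hNn : (N.subgroupOf (ClassicalMax.suGL 2 F q)).Normal := by
    refine ⟨fun n hn' g => ?_⟩
    rw [Subgroup.mem_subgroupOf] at hn' ⊢
    exact hn _ g.2 _ hn'
  rcases hnor _ hNn with h | h
  · obtain ⟨n, hnN, hns⟩ := hs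
    refine absurd (scalar_of_commute_suGL hF (by omega) fun g hg => ?_) hns
    have := Subgroup.mem_center_iff.1 (h (Subgroup.mem_subgroupOf.2 hnN :
      (⟨n, hN hnN⟩ : ClassicalMax.suGL 2 F q) ∈ _)) ⟨g, hg⟩
    exact congrArg Subtype.val this
  · exact Subgroup.subgroupOf_eq_top.1 h

/-! ### the trichotomy -/

/-- Subgroups of `GU₂(q)` with at least half the projective order meet every class of `SU₂(q)` mod scalars. -/
theorem suGL_of_card (hF : SqField F q) (h2 : (2 : F) ≠ 0) (h4 : 4 ≤ q) (H : Subgroup (GL (Fin 2) F))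
    (hH : H ≤ Cfsg.GU 2 F q)
    (hc : q * (q - 1) * (q + 1) ≤ 2 * Nat.card (H.map ProjGenLinGroup.mk)) :
    ∀ S ∈ ClassicalMax.suGL 2 F q,
      ∃ c : F, c ≠ 0 ∧ ∃ h ∈ H, (h : Matrix (Fin 2) (Fin 2) F) = c • (S : Matrix (Fin 2) (Fin 2) F) := by
  classical
  obtain ⟨hfin, hcF⟩ := id hF
  haveI : Fintype F := Fintype.ofFinite F
  obtain ⟨hsu, hperf, -⟩ := suGL_two_facts hF h4
  obtain ⟨p, k, hp, hcp, hpk⟩ := hF.exists_char
  have hp2 : p ≠ 2 := fun h => h2 (by
    subst h; exact_mod_cast CharP.cast_eq_zero F 2)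
  have hodd : Odd q := hpk ▸ (hp.odd_of_ne_two hp2).pow
  obtain ⟨m, hm⟩ := hodd
  have hrc : ringChar F ≠ 2 := by rwa [ringChar.eq F p]
  set mk : GL (Fin 2) F →* PGL(2, F) := ProjGenLinGroup.mk with hmk
  set π := mk.comp (ClassicalMax.suGL 2 F q).subtype with hπ
  set f := mk.comp H.subtype with hf
  set χ : H →* Fˣ := ((powMonoidHom (m + 1)).comp Matrix.GeneralLinearGroup.det).comp H.subtype with hχ
  have hdet : ∀ h : H, ((Matrix.GeneralLinearGroup.det (h : GL (Fin 2) F) : Fˣ) : F) ^ (q + 1) = 1 :=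
    fun h => Elusive25.det_norm_GU hF (hH h.2)
  -- the character has at most two values
  have hidx : χ.ker.index ≤ 2 := by
    rw [Subgroup.index_ker]
    refine le_trans (Subgroup.card_le_of_le (K := rootsOfUnity 2 F) ?_) ?_
    · rintro _ ⟨h, rfl⟩
      rw [mem_rootsOfUnity]
      refine Units.ext ?_
      rw [Units.val_pow_eq_pow_val, Units.val_one]
      show (((Matrix.GeneralLinearGroup.det (h : GL (Fin 2) F) : Fˣ) ^ (m + 1) : Fˣ) : F) ^ 2 = 1
      rw [Units.val_pow_eq_pow_val, ← pow_mul, show (m + 1) * 2 = q + 1 by omega, hdet]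
    · exact card_rootsOfUnity F 2
  -- its kernel lands in the image of `SU₂`
  have hker : χ.ker.map f ≤ (H.map mk) ⊓ π.range := by
    rintro _ ⟨h, hh, rfl⟩
    refine ⟨⟨h, h.2, rfl⟩, ?_⟩
    have hδ : ((Matrix.GeneralLinearGroup.det (h : GL (Fin 2) F) : Fˣ) : F) ^ (m + 1) = 1 := by
      simpa [hχ] using congrArg (Units.val) (MonoidHom.mem_ker.1 hh)
    set δ := ((Matrix.GeneralLinearGroup.det (h : GL (Fin 2) F) : Fˣ) : F)
    obtain ⟨ν, hν⟩ : IsSquare δ := by
      rw [FiniteField.isSquare_iff hrc (Units.ne_zero _),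
        show Fintype.card F / 2 = (m + 1) * (q - 1) by
          rw [← Nat.card_eq_fintype_card, hcF, hm, Nat.add_sub_cancel,
            show (2 * m + 1) ^ 2 = 2 * ((m + 1) * (2 * m)) + 1 by ring]
          omega,
        pow_mul, hδ, one_pow]
    have hν0 : ν ≠ 0 := fun h0 => by
      rw [h0, mul_zero] at hν; exact (Units.ne_zero _) hν
    have hνn : ν ^ (q + 1) = 1 := by
      rw [show q + 1 = 2 * (m + 1) by omega, pow_mul, pow_two, ← hν, hδ]
    let s : GL (Fin 2) F := GeneralLinearGroup.scalar (Fin 2) (Units.mk0 ν⁻¹ (inv_ne_zero hν0))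
    have hsval : (s : Matrix (Fin 2) (Fin 2) F) = Matrix.diagonal fun _ => ν⁻¹ := by
      simp [s, Matrix.scalar_apply]
    refine ⟨⟨(h : GL (Fin 2) F) * s, mul_mem (hH h.2) (Elusive25.mem_GU_diag hF hsval
      fun _ => by rw [inv_pow, hνn, inv_one]), GeoClasses.mem_specialLinear_iff.2 ?_⟩, ?_⟩
    · rw [Units.val_mul, Matrix.det_mul, hsval, Matrix.det_diagonal,
        ← Matrix.GeneralLinearGroup.val_det_apply]
      change δ * _ = 1
      rw [Fin.prod_univ_two, hν]
      field_simp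
    · show mk ((h : GL (Fin 2) F) * s) = mk (h : GL (Fin 2) F)
      exact (ProjGenLinGroup.mk_eq_mk_iff.2 ⟨_, rfl⟩).symm
  have hH2 : Nat.card (H.map mk) ≤ 2 * Nat.card (χ.ker.map f) := by
    have hr : f.range = H.map mk := by rw [hf, MonoidHom.range_comp, Subgroup.range_subtype]
    have h1 : (χ.ker.map f.rangeRestrict).index ≤ 2 :=
      (Nat.le_of_dvd (Nat.pos_of_ne_zero Subgroup.index_ne_zero_of_finite)
        (Subgroup.index_map_dvd _ f.rangeRestrict_surjective)).trans hidx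
    have h3 := (χ.ker.map f.rangeRestrict).index_mul_card
    have h4' : Nat.card (χ.ker.map f.rangeRestrict) = Nat.card (χ.ker.map f) :=
      (Subgroup.card_map_of_injective f.range.subtype_injective).symm.trans (by
        rw [Subgroup.map_map, f.subtype_comp_rangeRestrict])
    rw [← hr, ← h3, h4']
    exact Nat.mul_le_mul_right _ h1
  -- `±1` lie in the kernel of `π`
  have hπ2 : 2 * Nat.card π.range ≤ q * (q - 1) * (q + 1) := by
    rw [← hsu, ← Subgroup.index_ker π, ← π.ker.index_mul_card, mul_comm 2]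
    refine Nat.mul_le_mul_left _ ?_
    have hneg : (⟨-1, Elusive25.mem_GU_diag hF (d := fun _ => -1)
        (by simp [← Matrix.diagonal_neg]) (fun _ => (Even.neg_one_pow ⟨m + 1, by omega⟩)),
        GeoClasses.mem_specialLinear_iff.2 (by simp [Matrix.det_neg])⟩ :
        ClassicalMax.suGL 2 F q) ∈ π.ker := by
      rw [MonoidHom.mem_ker, ← map_one π]
      refine ProjGenLinGroup.mk_eq_mk_iff.2 ⟨-1, Units.ext ?_⟩
      simp [Matrix.scalar_apply, ← Matrix.diagonal_neg]
    refine Finite.one_lt_card_iff_nontrivial.2 (π.ker.nontrivial_iff_exists_ne_one.2 ⟨_, hneg, ?_⟩)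
    intro h
    have := congrFun (congrFun (congrArg (fun x : ClassicalMax.suGL 2 F q =>
      ((x : GL (Fin 2) F) : Matrix (Fin 2) (Fin 2) F)) h) 0) 0
    simp at this
    exact h2 (by linear_combination -this)
  have hM : (H.map mk).comap π = ⊤ := by
    refine eq_top_of_index_le_two hperf _ Subgroup.index_ne_zero_of_finite ?_
    rw [Subgroup.index_comap]
    have e : (H.map mk).relIndex π.range * Nat.card ((H.map mk) ⊓ π.range : Subgroup PGL(2, F)) =
        Nat.card π.range := by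
      rw [← Subgroup.inf_relIndex_right, Subgroup.relIndex,
        ← Nat.card_congr (Subgroup.subgroupOfEquivOfLe inf_le_right).toEquiv, Subgroup.index_mul_card]
    have := Subgroup.card_le_of_le hker
    by_contra hcon
    have : 3 * Nat.card ((H.map mk) ⊓ π.range : Subgroup PGL(2, F)) ≤ Nat.card π.range :=
      e ▸ Nat.mul_le_mul_right _ (by omega)
    have := (Nat.card_pos (α := ((H.map mk) ⊓ π.range : Subgroup PGL(2, F))))
    omega
  intro S hS
  obtain ⟨h, hh, he⟩ := (hM ▸ Subgroup.mem_top _ : (⟨S, hS⟩ : ClassicalMax.suGL 2 F q) ∈ (H.map mk).comap π)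
  obtain ⟨c, hc0, hcS⟩ := exists_smul_of_mk_eq (g := S) (h := h) he.symm
  exact ⟨c, hc0, h, hh, hcS⟩

/-- The trichotomy. -/
theorem plane_cases_inv [Finite F] {p : ℕ} [Fact p.Prime] [CharP F p] (hF : SqField F q) (h2 : (2 : F) ≠ 0)
    (hq : (q = p ∧ p % 5 = 4) ∨ (q = p ^ 2 ∧ (p % 5 = 2 ∨ p % 5 = 3)))
    {w : F} (hw : w ^ 5 = 1) (hw1 : w ≠ 1) (H : Subgroup (GL (Fin 2) F)) (hH : H ≤ Cfsg.GU 2 F q)
    {x : GL (Fin 2) F} (hxH : x ∈ H) (hx : (x : Matrix (Fin 2) (Fin 2) F) = !![w, 0; 0, w⁻¹]) :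
    (∀ h ∈ H, ((h : Matrix (Fin 2) (Fin 2) F) 0 0 = 0 ∧ (h : Matrix (Fin 2) (Fin 2) F) 1 1 = 0) ∨
        ((h : Matrix (Fin 2) (Fin 2) F) 0 1 = 0 ∧ (h : Matrix (Fin 2) (Fin 2) F) 1 0 = 0)) ∨
      Nonempty ((H.map ProjGenLinGroup.mk) ≃* alternatingGroup (Fin 5)) ∨
      (∀ S ∈ ClassicalMax.suGL 2 F q,
        ∃ c : F, c ≠ 0 ∧ ∃ h ∈ H, (h : Matrix (Fin 2) (Fin 2) F) = c • (S : Matrix (Fin 2) (Fin 2) F)) := by
  classical
  haveI : Fintype F := Fintype.ofFinite F
  have hpr : p.Prime := Fact.out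
  have hp2 : p ≠ 2 := fun h => h2 (by subst h; exact_mod_cast CharP.cast_eq_zero F 2)
  have hp3 : 3 ≤ p := by have := hpr.two_le; omega
  have hq4 : 4 ≤ q := by
    rcases hq with ⟨rfl, h⟩ | ⟨rfl, -⟩
    · omega
    · nlinarith
  have hw0 : w ≠ 0 := fun h => by simp [h] at hw
  have hww : w ≠ w⁻¹ := by
    intro h
    have h' : w ^ 2 = 1 := by rw [sq]; nth_rw 2 [h]; exact mul_inv_cancel₀ hw0
    exact hw1 (by linear_combination hw - (w ^ 3 + w) * h')
  set mk : GL (Fin 2) F →* PGL(2, F) := ProjGenLinGroup.mk with hmk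
  have hmx : mk x ∈ H.map mk := ⟨x, hxH, rfl⟩
  set X : H.map mk := ⟨mk x, hmx⟩ with hX
  have hX5 : orderOf X = 5 := by
    rw [hX, Subgroup.orderOf_mk]
    haveI : Fact (Nat.Prime 5) := ⟨by norm_num⟩
    refine orderOf_eq_prime ?_ ?_
    · rw [← map_pow, ← map_one mk]
      refine congrArg mk (Units.ext ?_)
      rw [Units.val_pow_eq_pow_val, hx,
        show (!![w, 0; 0, w⁻¹] : Matrix (Fin 2) (Fin 2) F) = Matrix.diagonal ![w, w⁻¹] by
          ext i j; fin_cases i <;> fin_cases j <;> simp,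
        Matrix.diagonal_pow, Units.val_one, ← Matrix.diagonal_one]
      congr 1
      funext i; fin_cases i <;> simp [hw, inv_pow]
    · intro h
      obtain ⟨c, -, hc⟩ := exists_smul_of_mk_eq (h.trans (map_one mk).symm).symm
      rw [hx, Units.val_one] at hc
      have e0 := congrFun (congrFun hc 0) 0
      have e1 := congrFun (congrFun hc 1) 1
      simp at e0 e1
      exact hww (e0.trans e1.symm)
  have hxi : ((x⁻¹ : GL (Fin 2) F) : Matrix (Fin 2) (Fin 2) F) = !![w⁻¹, 0; 0, w] := by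
    refine Units.inv_eq_of_mul_eq_one_right ?_
    rw [hx]
    ext i j; fin_cases i <;> fin_cases j <;> simp [hw0]
  have hmono : (∀ G : H.map mk, G * X = X * G ∨ G * X = X⁻¹ * G) →
      ∀ h ∈ H, ((h : Matrix (Fin 2) (Fin 2) F) 0 0 = 0 ∧ (h : Matrix (Fin 2) (Fin 2) F) 1 1 = 0) ∨
        ((h : Matrix (Fin 2) (Fin 2) F) 0 1 = 0 ∧ (h : Matrix (Fin 2) (Fin 2) F) 1 0 = 0) := by
    intro hG h hh
    rcases hG ⟨mk h, h, hh, rfl⟩ with e | e
    · exact monomial_of_conj hx hx hww hww (congrArg Subtype.val e)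
    · refine monomial_of_conj (y := x⁻¹) hx hxi hww hww.symm ?_
      rw [map_inv]
      exact congrArg Subtype.val e
  have h5 : 5 ∣ Nat.card (H.map mk) := hX5 ▸ _root_.orderOf_dvd_natCard X
  have hbig : ∀ F₀ : Subfield F, 4 ≤ Nat.card F₀ →
      5 ∣ Nat.card F₀ * (Nat.card F₀ - 1) * (Nat.card F₀ + 1) →
      q * (q - 1) * (q + 1) ≤ Nat.card F₀ * (Nat.card F₀ - 1) * (Nat.card F₀ + 1) := by
    intro F₀ h4 hd
    obtain ⟨r, hr, hc⟩ := Dickson.card_subfield_pow F₀
    obtain ⟨k, hk⟩ : ∃ k, q = p ^ k := by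
      rcases hq with ⟨rfl, -⟩ | ⟨rfl, -⟩
      · exact ⟨1, (pow_one _).symm⟩
      · exact ⟨2, rfl⟩
    have hdiv : Nat.card F₀ ∣ p ^ (k * 2) := by
      rw [pow_mul, ← hk, ← hF.2, Nat.card_eq_fintype_card (α := F), hc]
      exact dvd_pow_self _ (by omega)
    obtain ⟨j, -, hj⟩ := (Nat.dvd_prime_pow hpr).1 hdiv
    have hle : q ≤ Nat.card F₀ := by
      rcases j with _ | _ | j
      · rw [hj] at h4; simp at h4
      · rw [zero_add, pow_one] at hj
        rcases hq with ⟨rfl, -⟩ | ⟨rfl, hm⟩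
        · exact hj.ge
        · exfalso
          rw [hj] at hd
          rcases (Nat.Prime.dvd_mul (by norm_num : Nat.Prime 5)).1 hd with h | h
          · rcases (Nat.Prime.dvd_mul (by norm_num : Nat.Prime 5)).1 h with h | h <;> omega
          · omega
      · rw [hj]
        rcases hq with ⟨rfl, -⟩ | ⟨rfl, -⟩
        · exact le_trans (by nlinarith) (Nat.pow_le_pow_right (by omega) (show 2 ≤ j + 1 + 1 by omega))
        · exact Nat.pow_le_pow_right (by omega) (by omega)
    gcongr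
  have hconj : ∀ (h₀ : PGL(2, F)), Nat.card ((H.map mk).map (MulAut.conj h₀⁻¹).toMonoidHom) =
      Nat.card (H.map mk) := fun h₀ => Subgroup.card_map_of_injective (MulAut.conj h₀⁻¹).injective
  rcases Dickson.classifyF (K := AlgebraicClosure F) (p := p) (H.map mk) with
    ⟨a, b, m, -, hc, -, -, -⟩ | ⟨a, b, m, n, -, -, -, -, -, -, ⟨e⟩⟩ | ⟨z, hz, -⟩ |
    ⟨-, hcard, -⟩ | ⟨-, hcard, -⟩ | ⟨-, -, hiso⟩ | ⟨F₀, h₀, h4, he⟩ | ⟨F₀, h₀, h4, -, he⟩
  · refine Or.inl (hmono fun G => Or.inl ?_)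
    obtain ⟨z, hz⟩ := hc.exists_generator
    obtain ⟨i, hi⟩ := hz G
    obtain ⟨j, hj⟩ := hz X
    rw [← hi, ← hj]
    exact ((Commute.refl z).zpow_zpow i j).eq
  · refine Or.inl (hmono fun G => ?_)
    obtain ⟨i, hi⟩ := CSixFive.Plane.dihedral_five ((e.orderOf_eq X).trans hX5)
    rcases hg : e G with j | j
    · left
      apply e.injective
      simp [hg, hi, add_comm]
    · right
      apply e.injective
      simp [hg, hi]
  · refine Or.inl fun h hh => Or.inr ?_
    have h1 : mk x • z = z := hz _ hmx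
    have h3 : mk h • z = z := hz _ ⟨h, hh, rfl⟩
    rw [hmk, ProjGenLinGroup.mk_smul] at h1 h3
    induction z using OnePoint.rec with
    | infty =>
      rw [OnePoint.smul_infty_eq_self_iff] at h3
      exact ⟨gu_two_upper hF (hH hh) h3, h3⟩
    | coe t =>
      rw [OnePoint.smul_some_eq_ite, hx] at h1
      simp [hw0] at h1
      have ht : t = 0 := by
        by_contra ht
        field_simp at h1
        apply hww
        field_simp
        linear_combination h1
      subst ht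
      rw [OnePoint.smul_some_eq_ite] at h3
      have hd := h.det_ne_zero
      have h01 : (h : Matrix (Fin 2) (Fin 2) F) 0 1 = 0 := by
        split_ifs at h3 with hc
        · exact absurd h3 (OnePoint.infty_ne_coe _)
        have h3' := OnePoint.coe_injective h3
        simp only [mul_zero, zero_add] at h3' hc
        exact (div_eq_zero_iff.1 h3').resolve_right hc
      exact ⟨h01, gu_two_lower hF (hH hh) h01⟩
  · exact (CSixFive.Plane.not_twelve_five X hX5 (Or.inl hcard)).elim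
  · exact (CSixFive.Plane.not_twelve_five X hX5 (Or.inr hcard)).elim
  · exact Or.inr (Or.inl hiso)
  · refine Or.inr (Or.inr (suGL_of_card hF h2 hq4 H hH ?_))
    have e := hconj h₀
    rw [he, Dickson.card_subPGL_range] at e
    rw [← hmk, ← e]
    have := hbig F₀ h4 (e ▸ h5)
    omega
  · refine Or.inr (Or.inr (suGL_of_card hF h2 hq4 H hH ?_))
    have e := hconj h₀
    rw [he] at e
    have e2 := Dickson.card_subPSL_range F₀
    rw [e] at e2
    rw [← hmk]
    refine le_trans (hbig F₀ h4 (e2 ▸ h5.mul_left _)) (e2 ▸ ?_)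
    exact Nat.mul_le_mul_right _ (Nat.le_of_dvd two_pos (Nat.gcd_dvd_left _ _))

/-- The trichotomy, the inverse written as a fourth power. -/
theorem plane_cases [Finite F] {p : ℕ} (hF : SqField F q) (hp : p.Prime) (hc : CharP F p)
    (hq : (q = p ∧ p % 5 = 4) ∨ (q = p ^ 2 ∧ (p % 5 = 2 ∨ p % 5 = 3))) (h2 : (2 : F) ≠ 0)
    {w : F} (hw : w ^ 5 = 1) (hw1 : w ≠ 1) {H : Subgroup (GL (Fin 2) F)} (hH : H ≤ Cfsg.GU 2 F q)
    {x : GL (Fin 2) F} (hx : x ∈ H) (hxv : (x : Matrix (Fin 2) (Fin 2) F) = !![w, 0; 0, w ^ 4]) :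
    (∀ h ∈ H, ((h : Matrix (Fin 2) (Fin 2) F) 0 0 = 0 ∧ (h : Matrix (Fin 2) (Fin 2) F) 1 1 = 0) ∨
        ((h : Matrix (Fin 2) (Fin 2) F) 0 1 = 0 ∧ (h : Matrix (Fin 2) (Fin 2) F) 1 0 = 0)) ∨
      Nonempty ((H.map ProjGenLinGroup.mk) ≃* alternatingGroup (Fin 5)) ∨
      (∀ S ∈ ClassicalMax.suGL 2 F q,
        ∃ c : F, c ≠ 0 ∧ ∃ h ∈ H, (h : Matrix (Fin 2) (Fin 2) F) = c • (S : Matrix (Fin 2) (Fin 2) F)) := by
  haveI := Fact.mk hp
  refine plane_cases_inv hF h2 hq hw hw1 H hH hx ?_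
  rw [hxv, eq_inv_of_mul_eq_one_left (show w ^ 4 * w = 1 by rw [← pow_succ, hw])]

end Cfsg.Agent.SUFive.Symp
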