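import Cfsg.Agent.SUFive.SympParts
import Cfsg.Agent.SUFive.SympPlane
import Cfsg.Agent.SUFive.SympFull

/-!
An element of a proper overgroup commuting with `T` and `J` is monomial on each block.
-/

set_option autoImplicit false
set_option linter.unusedSectionVars false
set_option linter.style.haveILetI false

namespace Cfsg.Agent.SUFive.Symp

open Matrix Cfsg.Geo Cfsg.Agent.Classical.U
open scoped MatrixGroups Fin.CommRing Fin.NatCast

universe u

variable {F : Type u} [Field F] {q : ℕ}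

/-- A subgroup of `GL₂` covering `SU₂` up to scalars. -/
def Covers (q : ℕ) (H : Subgroup (GL (Fin 2) F)) : Prop :=
  ∀ S ∈ ClassicalMax.suGL 2 F q, ∃ c : F, c ≠ 0 ∧ ∃ h ∈ H,
    (h : Matrix (Fin 2) (Fin 2) F) = c • (S : Matrix (Fin 2) (Fin 2) F)

/-- A proper overgroup of the standard normaliser, in odd characteristic. -/
structure Proper (p : ℕ) (R : URoot5 F q) (M : Subgroup (GL (Fin 5) F)) : Prop where
  hp : p.Prime
  hc : CharP F p
  hq : (q = p ∧ p % 5 = 4) ∨ (q = p ^ 2 ∧ (p % 5 = 2 ∨ p % 5 = 3))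
  two : (2 : F) ≠ 0
  con : R.Contains M
  nfull : ¬ ClassicalMax.suGL 5 F q ≤ M

theorem mk_smul_of_eq {A B : GL (Fin 2) F}
    (h : ProjGenLinGroup.mk A = ProjGenLinGroup.mk B) :
    ∃ c : F, c ≠ 0 ∧ (A : Matrix (Fin 2) (Fin 2) F) = c • (B : Matrix (Fin 2) (Fin 2) F) := by
  obtain ⟨u, hu⟩ := ProjGenLinGroup.mk_eq_mk_iff.1 h.symm
  refine ⟨u, u.ne_zero, ?_⟩
  rw [← hu, Units.val_mul, GeneralLinearGroup.coe_scalar]
  ext i j
  simp [Matrix.mul_apply, Matrix.diagonal, mul_comm]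

theorem mk_eq_one_smul {A : GL (Fin 2) F} (h : ProjGenLinGroup.mk A = 1) :
    ∃ c : F, c ≠ 0 ∧ (A : Matrix (Fin 2) (Fin 2) F) = c • 1 := by
  obtain ⟨c, hc, e⟩ := mk_smul_of_eq (A := A) (B := 1) (by rw [h, map_one])
  exact ⟨c, hc, by rw [e, Units.val_one]⟩

/-- Commutation up to a scalar with a diagonal matrix forces a diagonal matrix. -/
theorem diag_of_comm {A X : GL (Fin 2) F} {u v c : F}
    (hX : (X : Matrix (Fin 2) (Fin 2) F) = !![u, 0; 0, v]) (huv : u * u ≠ v * v)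
    (h : (A : Matrix (Fin 2) (Fin 2) F) * (X : Matrix (Fin 2) (Fin 2) F) =
      c • ((X : Matrix (Fin 2) (Fin 2) F) * (A : Matrix (Fin 2) (Fin 2) F))) :
    (A : Matrix (Fin 2) (Fin 2) F) 0 1 = 0 ∧ (A : Matrix (Fin 2) (Fin 2) F) 1 0 = 0 := by
  have hd := A.det_ne_zero
  rw [det_fin_two] at hd
  have hdX := X.det_ne_zero
  rw [hX, det_fin_two_of] at hdX
  have hu : u ≠ 0 := fun e => hdX (by rw [e]; ring)
  have hv : v ≠ 0 := fun e => hdX (by rw [e]; ring)
  rw [hX] at h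
  have e00 := congrFun (congrFun h 0) 0
  have e01 := congrFun (congrFun h 0) 1
  have e10 := congrFun (congrFun h 1) 0
  have e11 := congrFun (congrFun h 1) 1
  simp [Matrix.mul_apply, Matrix.vecMul, dotProduct, Fin.sum_univ_two] at e00 e01 e10 e11
  by_cases hc : c = 1
  · subst hc
    have huv' : u ≠ v := fun e => huv (by rw [e])
    constructor
    · exact (mul_eq_zero.1 (show (A : Matrix (Fin 2) (Fin 2) F) 0 1 * (u - v) = 0 by
        linear_combination -e01)).resolve_right (sub_ne_zero.2 huv')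
    · exact (mul_eq_zero.1 (show (A : Matrix (Fin 2) (Fin 2) F) 1 0 * (u - v) = 0 by
        linear_combination e10)).resolve_right (sub_ne_zero.2 huv')
  · exfalso
    have hc' : (1 : F) - c ≠ 0 := sub_ne_zero.2 (Ne.symm hc)
    have a00 : (A : Matrix (Fin 2) (Fin 2) F) 0 0 = 0 :=
      (mul_eq_zero.1 (show (A : Matrix (Fin 2) (Fin 2) F) 0 0 * (u * (1 - c)) = 0 by
        linear_combination e00)).resolve_right (mul_ne_zero hu hc')
    rw [a00, zero_mul, zero_sub, neg_ne_zero] at hd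
    have k1 : v = c * u := mul_left_cancel₀ (left_ne_zero_of_mul hd) (by linear_combination e01)
    have k2 : u = c * v := mul_left_cancel₀ (right_ne_zero_of_mul hd) (by linear_combination e10)
    exact huv (by linear_combination u * k2 - v * k1)

namespace URoot5

variable (R : URoot5 F q)

theorem e_sq_ne {a b : Fin 5} (h : a ≠ b) : R.e a * R.e a ≠ R.e b * R.e b := by
  rw [← R.e_add, ← R.e_add]
  exact fun e => h ((by decide : ∀ a b : Fin 5, a + a = b + b → a = b) a b (R.e_inj e))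

theorem r1_xT_suGL : R.r1 R.xT ∈ ClassicalMax.suGL 2 F q := by
  refine ⟨R.r1_mem_GU R.sq R.xT R.gX_suGL.1, GeoClasses.mem_specialLinear_iff.2 ?_⟩
  rw [R.r1_xT, det_fin_two_of, mul_zero, sub_zero, ← R.e_add]
  exact R.e_zero

/-- An element commuting with `SU₂` up to scalars is scalar. -/
theorem scalar_of_comm (R : URoot5 F q) (h2 : (2 : F) ≠ 0) {A : GL (Fin 2) F}
    (h : ∀ S ∈ ClassicalMax.suGL 2 F q, ∃ c : F,
      (A : Matrix (Fin 2) (Fin 2) F) * (S : Matrix (Fin 2) (Fin 2) F) =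
        c • ((S : Matrix (Fin 2) (Fin 2) F) * (A : Matrix (Fin 2) (Fin 2) F))) :
    ∃ a : F, (A : Matrix (Fin 2) (Fin 2) F) = a • 1 := by
  obtain ⟨c, hc⟩ := h _ R.r1_xT_suGL
  obtain ⟨a01, a10⟩ := diag_of_comm R.r1_xT (R.e_sq_ne (by decide)) hc
  obtain ⟨S, hS, hne⟩ := exists_generic R.sq h2
  obtain ⟨k, hk⟩ := h S hS
  have hd := A.det_ne_zero
  rw [det_fin_two, a01, zero_mul, sub_zero] at hd
  have e00 := congrFun (congrFun hk 0) 0
  have e01 := congrFun (congrFun hk 0) 1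
  simp [Matrix.mul_apply, Fin.sum_univ_two, a01, a10] at e00 e01
  have hk1 : k = 1 := mul_right_cancel₀ (mul_ne_zero (hne 0 0) (left_ne_zero_of_mul hd))
    (by linear_combination -e00)
  subst hk1
  refine ⟨(A : Matrix (Fin 2) (Fin 2) F) 0 0, ?_⟩
  have h11 : (A : Matrix (Fin 2) (Fin 2) F) 1 1 = (A : Matrix (Fin 2) (Fin 2) F) 0 0 :=
    mul_left_cancel₀ (hne 0 1) (by linear_combination -e01)
  ext i j
  fin_cases i <;> fin_cases j <;> simp [a01, a10, h11]

end URoot5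

theorem det_blk23 (A : Matrix (Fin 2) (Fin 2) F) : (blk23 A).det = A.det := by
  simp [blk23, Matrix.det_succ_row_zero, Fin.sum_univ_succ, Fin.succAbove]

theorem two_valued_rule : ∀ f : Fin 5 → Bool,
    (∀ j, f (j + 1) = f (j - 1) ↔ f (j + 2) = f (j - 2)) → ∀ i, f i = f 0 := by
  decide +kernel

theorem gA_pow_conj_apply (g : GL (Fin 5) F) (k : ℕ) (i j : Fin 5) :
    ((gA ^ k * g * (gA ^ k)⁻¹ : GL (Fin 5) F) : Matrix (Fin 5) (Fin 5) F) i j =
      (g : Matrix (Fin 5) (Fin 5) F) (i - k) (j - k) := by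
  induction k generalizing i j with
  | zero => simp
  | succ k ih =>
    rw [show gA ^ (k + 1) * g * (gA ^ (k + 1))⁻¹ = gA * (gA ^ k * g * (gA ^ k)⁻¹) * gA⁻¹ by
      rw [pow_succ' gA k]; group]
    set B := gA ^ k * g * (gA ^ k)⁻¹ with hB
    have h := congrArg (fun x : GL (Fin 5) F => (x : Matrix (Fin 5) (Fin 5) F) i (j - 1))
      (inv_mul_cancel_right (gA * B : GL (Fin 5) F) gA)
    simp only [Units.val_mul, mul_gA_apply, gA_mul_apply, sub_add_cancel] at h
    rw [Units.val_mul, Units.val_mul, h, ih, Nat.cast_succ]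
    congr 1 <;> ring

namespace Proper

variable {p : ℕ} {R : URoot5 F q} {M : Subgroup (GL (Fin 5) F)} (P : Proper p R M)
include P

theorem four_le : 4 ≤ q := by
  have := P.hp.two_le
  rcases P.hq with ⟨rfl, h⟩ | ⟨rfl, -⟩
  · omega
  · rw [sq]; exact Nat.mul_le_mul this this

theorem mem_GU {g : GL (Fin 5) F} (hg : g ∈ M) : g ∈ Cfsg.GU 5 F q := (P.con.le hg).1

theorem gS_conj_mem {g : GL (Fin 5) F} (hg : g ∈ M) : gS * g * gS⁻¹ ∈ M :=
  mul_mem (mul_mem P.con.hS hg) (inv_mem P.con.hS)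

theorem gA_conj_mem {g : GL (Fin 5) F} (hg : g ∈ M) (k : ℕ) : gA ^ k * g * (gA ^ k)⁻¹ ∈ M :=
  mul_mem (mul_mem (pow_mem P.con.hA k) hg) (inv_mem (pow_mem P.con.hA k))

variable [Finite F]

theorem covers_four (h : Covers q ((M.subgroupOf R.CT).map R.r1)) :
    Covers q ((M.subgroupOf R.CT).map R.r4) := by
  intro S hS
  obtain ⟨c, hc, -, ⟨d, hd, rfl⟩, e⟩ := h S hS
  refine ⟨c, hc, _, ⟨⟨_, R.gS_conj_mem_CT d.2⟩, P.gS_conj_mem hd, rfl⟩, ?_⟩
  rw [R.gS_conj_r4 d.2, ← R.val_r1, e]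

/-- With the first block covering `SU₂`, scalar on the first block forces scalar on the second. -/
theorem scalar_four (h : Covers q ((M.subgroupOf R.CT).map R.r1)) {d : R.CT}
    (hd : (d : GL (Fin 5) F) ∈ M) {a : F} (ha : (R.r1 d : Matrix (Fin 2) (Fin 2) F) = a • 1) :
    ∃ b : F, (R.r4 d : Matrix (Fin 2) (Fin 2) F) = b • 1 := by
  by_contra hns
  apply P.nfull
  let N : Subgroup (GL (Fin 2) F) := ClassicalMax.suGL 2 F q ⊓ M.comap emb23
  have h4 := P.covers_four h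
  have key : ∀ k ∈ M.subgroupOf R.CT, R.r1 (d * k * d⁻¹ * k⁻¹) = 1 ∧
      R.r0 (d * k * d⁻¹ * k⁻¹) = 1 := by
    intro k _
    refine ⟨?_, ?_⟩
    · have hc : R.r1 d * R.r1 k = R.r1 k * R.r1 d :=
        Units.ext (by rw [Units.val_mul, Units.val_mul, ha]; simp)
      simp only [map_mul, map_inv]
      rw [hc, mul_assoc, mul_assoc, mul_inv_cancel_left, mul_inv_cancel]
    · have e1 := R.r0.map_mul d d⁻¹
      have e2 := R.r0.map_mul k k⁻¹
      rw [mul_inv_cancel, map_one] at e1 e2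
      simp only [map_mul]
      linear_combination (-(R.r0 k * R.r0 k⁻¹)) * e1 - e2
  have hN : ∀ S ∈ ClassicalMax.suGL 2 F q, ∀ n ∈ N, S * n * S⁻¹ ∈ N := by
    rintro S hS n ⟨hn, hnM⟩
    refine ⟨ClassicalMax.suGL_conj_mem hS.1 hn, ?_⟩
    obtain ⟨c, hc, -, ⟨k, hk, rfl⟩, e⟩ := h4 S hS
    have heq : k * ⟨emb23 n, R.emb23_mem_CT n⟩ * k⁻¹ =
        ⟨emb23 (S * n * S⁻¹), R.emb23_mem_CT _⟩ := by
      refine R.eq_of_blocks_T ?_ ?_ ?_
      · rw [map_mul, map_mul, map_inv, (R.blocks_emb23 n).1, (R.blocks_emb23 _).1, mul_one,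
          mul_inv_cancel]
      · rw [map_mul, map_mul, map_inv, (R.blocks_emb23 n).2.1, (R.blocks_emb23 _).2.1,
          mul_inv_eq_iff_eq_mul]
        refine Units.ext ?_
        simp only [Units.val_mul, e, smul_mul_assoc, mul_smul_comm, mul_assoc, Units.inv_mul,
          mul_one]
      · have e1 := R.r0.map_mul k k⁻¹
        rw [mul_inv_cancel, map_one] at e1
        rw [map_mul, map_mul, (R.blocks_emb23 n).2.2, (R.blocks_emb23 _).2.2, mul_one, ← e1]
    have := congrArg Subtype.val heq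
    show emb23 (S * n * S⁻¹) ∈ M
    rw [← show _ = emb23 (S * n * S⁻¹) from this]
    exact mul_mem (mul_mem hk hnM) (inv_mem hk)
  have hns' : ∃ n ∈ N, ¬ ∃ c : F, (n : Matrix (Fin 2) (Fin 2) F) = c • 1 := by
    by_contra hall
    push Not at hall
    refine hns (R.scalar_of_comm P.two fun S hS => ?_)
    obtain ⟨c, hc, -, ⟨k, hk, rfl⟩, e⟩ := h4 S hS
    obtain ⟨h1, h0⟩ := key k hk
    set m := d * k * d⁻¹ * k⁻¹ with hm
    have hmM : (m : GL (Fin 5) F) ∈ M :=
      mul_mem (mul_mem (mul_mem hd hk) (inv_mem hd)) (inv_mem hk)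
    have hmN : R.r4 m ∈ N := by
      refine ⟨⟨R.r4_mem_GU R.sq m (P.mem_GU hmM), ?_⟩, ?_⟩
      · show Matrix.GeneralLinearGroup.det (R.r4 m) = 1
        simp only [hm, map_mul, map_inv]
        rw [mul_right_comm (Matrix.GeneralLinearGroup.det (R.r4 d)), mul_inv_cancel, one_mul,
          mul_inv_cancel]
      · show emb23 (R.r4 m) ∈ M
        rw [← R.emb23_of_blocks h1 h0]
        exact hmM
    obtain ⟨t, ht⟩ := hall _ hmN
    refine ⟨t, ?_⟩
    have hdk : R.r4 d * R.r4 k = R.r4 m * (R.r4 k * R.r4 d) := by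
      simp only [hm, map_mul, map_inv]; group
    have hh := congrArg Units.val hdk
    rw [Units.val_mul, Units.val_mul, Units.val_mul, e, ht] at hh
    simp only [mul_smul_comm, smul_mul_assoc, one_mul, smul_comm t c] at hh
    exact smul_right_injective _ hc hh
  have hall := suGL_two_le_of_normalised R.sq P.four_le inf_le_left hN hns'
  refine R.suGL_le_of_plane (le_trans (by norm_num) P.four_le) P.con fun g hg hpat => ?_
  have hgT : g ∈ R.CT := by
    refine R.mem_CT.2 (R.commute_dG_iff.2 fun i j hij => ?_)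
    rw [hpat i j ?_, if_neg (fun e => hij (by rw [e]))]
    revert hij; revert i j; decide
  have hb1 : R.r1 ⟨g, hgT⟩ = 1 := by
    refine Units.ext ?_
    rw [R.val_r1, Units.val_one]
    ext i j
    fin_cases i <;> fin_cases j <;> simp [Root5.mat1] <;>
      (rw [hpat _ _ (by decide)]; simp)
  have hb0 : R.r0 ⟨g, hgT⟩ = 1 := by
    show (g : Matrix (Fin 5) (Fin 5) F) 0 0 = 1
    rw [hpat _ _ (by decide)]; simp
  have hge := R.emb23_of_blocks hb1 hb0
  have hin : R.r4 ⟨g, hgT⟩ ∈ ClassicalMax.suGL 2 F q := by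
    refine ⟨R.r4_mem_GU R.sq _ hg.1, GeoClasses.mem_specialLinear_iff.2 ?_⟩
    have hd := GeoClasses.mem_specialLinear_iff.1 hg.2
    rwa [show g = emb23 (R.r4 ⟨g, hgT⟩) from hge, val_emb23, det_blk23] at hd
  rw [show g = emb23 (R.r4 ⟨g, hgT⟩) from hge]
  exact (hall hin).2

theorem scalar_one (h : Covers q ((M.subgroupOf R.CT).map R.r1)) {d : R.CT}
    (hd : (d : GL (Fin 5) F) ∈ M) {b : F} (hb : (R.r4 d : Matrix (Fin 2) (Fin 2) F) = b • 1) :
    ∃ a : F, (R.r1 d : Matrix (Fin 2) (Fin 2) F) = a • 1 := by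
  have e := fun i j => congrFun (congrFun hb i) j
  have b00 := e 0 0; have b01 := e 0 1; have b10 := e 1 0; have b11 := e 1 1
  simp [R.val_r4, Root5.mat4] at b00 b01 b10 b11
  obtain ⟨a, ha⟩ := P.scalar_four h (d := ⟨_, R.gS_conj_mem_CT d.2⟩) (P.gS_conj_mem hd) (a := b) (by
    rw [R.gS_conj_r1 d.2]
    ext i j
    fin_cases i <;> fin_cases j <;> simp [b00, b01, b10, b11])
  exact ⟨a, by rw [R.val_r1, ← R.gS_conj_r4 d.2, ha]⟩

/-- The first block never covers `SU₂`. -/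
theorem not_covers : ¬ Covers q ((M.subgroupOf R.CT).map R.r1) := by
  intro h
  classical
  haveI : Finite (GL (Fin 5) F) := inferInstance
  -- an element acting on the first block as a sign change
  obtain ⟨S, hS⟩ : IsUnit (!![0, 1; -1, 0] : Matrix (Fin 2) (Fin 2) F) := by
    rw [Matrix.isUnit_iff_isUnit_det, det_fin_two_of]; simp
  have hSm : S ∈ ClassicalMax.suGL 2 F q := by
    refine ⟨mem_GU_two R.sq fun a b => ?_, GeoClasses.mem_specialLinear_iff.2 (by
      rw [hS, det_fin_two_of]; ring)⟩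
    rw [hS]
    fin_cases a <;> fin_cases b <;> simp [R.sq.q_ne_zero, R.sq.neg_pow]
  obtain ⟨c, hc, -, ⟨k, hk, rfl⟩, e⟩ := h S hSm
  set d := k * R.jT with hd
  have hdM : (d : GL (Fin 5) F) ∈ M := mul_mem hk P.con.hJ
  have hd1 : (R.r1 d : Matrix (Fin 2) (Fin 2) F) = !![c, 0; 0, -c] := by
    rw [hd, map_mul, Units.val_mul, e, hS, R.r1_jT]
    ext i j; fin_cases i <;> fin_cases j <;> simp [Matrix.mul_apply]
  -- it is diagonal
  have hcom : R.r1 (d * R.xT * d⁻¹ * R.xT⁻¹) = 1 := by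
    have hc' : R.r1 d * R.r1 R.xT = R.r1 R.xT * R.r1 d := by
      refine Units.ext ?_
      rw [Units.val_mul, Units.val_mul, hd1, R.r1_xT]
      ext i j; fin_cases i <;> fin_cases j <;> simp [Matrix.mul_apply, mul_comm]
    simp only [map_mul, map_inv]
    rw [hc', mul_assoc, mul_assoc, mul_inv_cancel_left, mul_inv_cancel]
  obtain ⟨b, hb⟩ := P.scalar_four h
    (show ((d * R.xT * d⁻¹ * R.xT⁻¹ : R.CT) : GL (Fin 5) F) ∈ M from
      mul_mem (mul_mem (mul_mem hdM P.con.hX) (inv_mem hdM)) (inv_mem P.con.hX))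
    (a := 1) (by rw [hcom, Units.val_one, one_smul])
  have h4 : R.r4 d * R.r4 R.xT = R.r4 (d * R.xT * d⁻¹ * R.xT⁻¹) * (R.r4 R.xT * R.r4 d) := by
    simp only [map_mul, map_inv]; group
  have h4' := congrArg Units.val h4
  rw [Units.val_mul, Units.val_mul, Units.val_mul, hb, smul_mul_assoc, one_mul] at h4'
  obtain ⟨q01, q10⟩ := diag_of_comm R.r4_xT (R.e_sq_ne (by decide)) h4'
  set v : Fin 5 → F := fun i => ((d : GL (Fin 5) F) : Matrix (Fin 5) (Fin 5) F) i i with hv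
  have hdiag : ((d : GL (Fin 5) F) : Matrix (Fin 5) (Fin 5) F) = diagonal v := by
    obtain ⟨a1, a2, a3, a4, a5, a6, a7, a8, a9, a10, a11, a12, a13, a14, a15, a16⟩ := R.CT_eqs d.2
    have p01 := congrFun (congrFun hd1 0) 1
    have p10 := congrFun (congrFun hd1 1) 0
    simp [R.val_r1, Root5.mat1] at p01 p10
    simp [R.val_r4, Root5.mat4] at q01 q10
    ext i j
    fin_cases i <;> fin_cases j <;>
      simp [hv, diagonal, a1, a2, a3, a4, a5, a6, a7, a8, a9, a10, a11, a12, a13, a14, a15, a16,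
        p01, p10, q01, q10]
  have h14 : v 1 = c ∧ v 4 = -c := by
    have p00 := congrFun (congrFun hd1 0) 0
    have p11 := congrFun (congrFun hd1 1) 1
    simp [R.val_r1, Root5.mat1] at p00 p11
    exact ⟨p00, p11⟩
  -- the least power which is scalar
  have hex : ∃ n : ℕ, 0 < n ∧ ∀ i, v i ^ n = v 0 ^ n := by
    refine ⟨orderOf (d : GL (Fin 5) F), orderOf_pos _, fun i => ?_⟩
    have h1 := congrArg Units.val (pow_orderOf_eq_one (d : GL (Fin 5) F))
    rw [Units.val_pow_eq_pow_val, hdiag, diagonal_pow, Units.val_one, ← diagonal_one] at h1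
    have h2 := congrFun (Matrix.diagonal_injective h1)
    simp only [Pi.pow_apply] at h2
    rw [h2 i, h2 0]
  obtain ⟨hn0, hn⟩ := Nat.find_spec hex
  set n := Nat.find hex
  rcases Nat.even_or_odd' n with ⟨m, hm | hm⟩
  swap
  · have h1 := (hn 1).trans (hn 4).symm
    rw [h14.1, h14.2, hm, (show Odd (2 * m + 1) from ⟨m, rfl⟩).neg_pow] at h1
    exact P.two ((mul_eq_zero.1 (show (2 : F) * c ^ (2 * m + 1) = 0 by
      linear_combination h1)).resolve_right (pow_ne_zero _ hc))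
  set w : Fin 5 → F := fun i => v i ^ m with hw
  have hsq : ∀ i, w i = w 0 ∨ w i = -w 0 := fun i => by
    refine sq_eq_sq_iff_eq_or_eq_neg.1 ?_
    rw [hw]; simp only [← pow_mul, mul_comm m 2, ← hm]
    exact hn i
  have hne : ¬ ∀ i, w i = w 0 := fun hall =>
    Nat.find_min hex (m := m) (by omega) ⟨by omega, hall⟩
  have hwM : ∀ k : ℕ, ((gA ^ k * (d : GL (Fin 5) F) ^ m * (gA ^ k)⁻¹ : GL (Fin 5) F)) ∈ M :=
    fun k => P.gA_conj_mem (pow_mem hdM m) k
  have hwdiag : ((d : GL (Fin 5) F) ^ m : GL (Fin 5) F) = ((d ^ m : R.CT) : GL (Fin 5) F) := rfl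
  have hrule : ∀ j, w (j + 1) = w (j - 1) ↔ w (j + 2) = w (j - 2) := by
    intro j
    set k : ℕ := ((-j : Fin 5) : ℕ)
    set E := gA ^ k * (d : GL (Fin 5) F) ^ m * (gA ^ k)⁻¹ with hE
    have hEv : ∀ a b, (E : Matrix (Fin 5) (Fin 5) F) a b = if a = b then w (a + j) else 0 := by
      intro a b
      rw [hE, gA_pow_conj_apply, Units.val_pow_eq_pow_val, hdiag, diagonal_pow, diagonal_apply,
        Fin.cast_val_eq_self, sub_neg_eq_add, sub_neg_eq_add]
      simp only [add_left_inj, Pi.pow_apply]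
      rfl
    have hET : E ∈ R.CT := R.mem_CT.2 (R.commute_dG_iff.2 fun a b hab => by
      rw [hEv, if_neg (fun e => hab (by rw [e]))])
    have k1 : (1 : Fin 5) + j = j + 1 := add_comm _ _
    have k4 : (4 : Fin 5) + j = j - 1 := (by decide : ∀ j : Fin 5, 4 + j = j - 1) j
    have k2 : (2 : Fin 5) + j = j + 2 := add_comm _ _
    have k3 : (3 : Fin 5) + j = j - 2 := (by decide : ∀ j : Fin 5, 3 + j = j - 2) j
    constructor
    · intro he
      obtain ⟨b, hb⟩ := P.scalar_four h (d := ⟨E, hET⟩) (hwM k) (a := w (j + 1)) (by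
        rw [R.val_r1]
        ext a b
        fin_cases a <;> fin_cases b <;> simp [Root5.mat1, hEv, k1, k4, ← he])
      have e0 := congrFun (congrFun hb 0) 0
      have e1 := congrFun (congrFun hb 1) 1
      simp [R.val_r4, Root5.mat4, hEv, k2, k3] at e0 e1
      rw [e0, e1]
    · intro he
      obtain ⟨b, hb⟩ := P.scalar_one h (d := ⟨E, hET⟩) (hwM k) (b := w (j + 2)) (by
        rw [R.val_r4]
        ext a b
        fin_cases a <;> fin_cases b <;> simp [Root5.mat4, hEv, k2, k3, ← he])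
      have e0 := congrFun (congrFun hb 0) 0
      have e1 := congrFun (congrFun hb 1) 1
      simp [R.val_r1, Root5.mat1, hEv, k1, k4] at e0 e1
      rw [e0, e1]
  let f : Fin 5 → Bool := fun i => decide (w i = w 0)
  have hf : ∀ a b, f a = f b ↔ w a = w b := by
    intro a b
    simp only [f, decide_eq_decide]
    refine ⟨fun hab => ?_, fun hab => by rw [hab]⟩
    by_cases ha : w a = w 0
    · rw [ha, hab.1 ha]
    · have hb : w b ≠ w 0 := fun e => ha (hab.2 e)
      rw [(hsq a).resolve_left ha, (hsq b).resolve_left hb]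
  refine hne fun i => (hf i 0).1 (two_valued_rule f (fun j => ?_) i)
  rw [hf, hf]
  exact hrule j

/-- The first monomiality. -/
theorem mul_eq_zero_one {g : GL (Fin 5) F} (hg : g ∈ M) (hT : Commute g R.gT)
    (hgJ : Commute g gJ) :
    (g : Matrix (Fin 5) (Fin 5) F) 1 1 * (g : Matrix (Fin 5) (Fin 5) F) 1 4 = 0 := by
  classical
  obtain ⟨-, -, -, -, j44, j41, -, -, -, -, -, -⟩ := CJ_eqs (mem_CJ.2 hgJ)
  let gC : R.CT := ⟨g, R.mem_CT.2 hT⟩
  set H := (M.subgroupOf R.CT).map R.r1 with hH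
  have hHle : H ≤ Cfsg.GU 2 F q := by
    rintro _ ⟨d, hd, rfl⟩
    exact R.r1_mem_GU R.sq d (P.mem_GU hd)
  have hxH : R.r1 R.xT ∈ H := ⟨_, P.con.hX, rfl⟩
  have hgH : R.r1 gC ∈ H := ⟨gC, hg, rfl⟩
  have hjH : R.r1 R.jT ∈ H := ⟨_, P.con.hJ, rfl⟩
  have hx : (R.r1 R.xT : Matrix (Fin 2) (Fin 2) F) = !![R.ω, 0; 0, R.ω ^ 4] := by
    rw [R.r1_xT, R.e_one]; rfl
  rcases plane_cases R.sq P.hp P.hc P.hq P.two R.pow_five R.ne_one hHle hxH hx with hm | hf | hb
  · rcases hm _ hgH with ⟨e, -⟩ | ⟨e, -⟩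
    · simp [R.val_r1, Root5.mat1, gC] at e; rw [e, zero_mul]
    · simp [R.val_r1, Root5.mat1, gC] at e; rw [e, mul_zero]
  · obtain ⟨f⟩ := hf
    set H' := H.map ProjGenLinGroup.mk
    let G' : H' := ⟨_, Subgroup.mem_map_of_mem ProjGenLinGroup.mk hgH⟩
    let J' : H' := ⟨_, Subgroup.mem_map_of_mem ProjGenLinGroup.mk hjH⟩
    have hcm : G' * J' = J' * G' := by
      refine Subtype.ext ?_
      show ProjGenLinGroup.mk (R.r1 gC) * ProjGenLinGroup.mk (R.r1 R.jT) = _ * _
      rw [← map_mul, ← map_mul, ← map_mul, ← map_mul,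
        show gC * R.jT = R.jT * gC from Subtype.ext hgJ.eq]
    have hJJ : J' * J' = 1 := by
      refine Subtype.ext ?_
      show ProjGenLinGroup.mk (R.r1 R.jT) * ProjGenLinGroup.mk (R.r1 R.jT) = 1
      rw [← map_mul, ← map_mul, show R.jT * R.jT = 1 from Subtype.ext gJ_sq, map_one, map_one]
    have hJ1 : J' ≠ 1 := fun e => by
      obtain ⟨c, -, hc⟩ := mk_eq_one_smul (A := R.r1 R.jT) (congrArg Subtype.val e)
      have h01 := congrFun (congrFun hc 0) 1
      rw [R.r1_jT] at h01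
      simp at h01
    have hGG : G' * G' = 1 := by
      apply f.injective
      rw [map_mul, map_one]
      refine (MaxSub.CSixFive.Plane.a5_centraliser_involution (f J') (f G') ?_ ?_).resolve_left ?_
      · rw [← map_mul, ← map_mul, hcm]
      · rw [← map_mul, hJJ, map_one]
      · simpa using hJ1
    obtain ⟨c, -, e⟩ := mk_eq_one_smul (A := R.r1 gC * R.r1 gC) (by
      rw [map_mul]; exact congrArg Subtype.val hGG)
    rw [Units.val_mul, R.val_r1] at e
    have h01 := congrFun (congrFun e 0) 1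
    simp [Root5.mat1, Matrix.mul_apply, gC, j44] at h01
    exact mul_left_cancel₀ P.two (by linear_combination h01)
  · exact absurd hb P.not_covers

/-- The second monomiality. -/
theorem mul_eq_zero_two {g : GL (Fin 5) F} (hg : g ∈ M) (hT : Commute g R.gT)
    (hgJ : Commute g gJ) :
    (g : Matrix (Fin 5) (Fin 5) F) 2 2 * (g : Matrix (Fin 5) (Fin 5) F) 2 3 = 0 := by
  have hh : Commute (gS * g * gS⁻¹) gJ :=
    mem_CJ.1 (mul_mem (mul_mem gS_mem_CJ (mem_CJ.2 hgJ)) (inv_mem gS_mem_CJ))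
  have h := P.mul_eq_zero_one (P.gS_conj_mem hg)
    (R.mem_CT.1 (R.gS_conj_mem_CT (R.mem_CT.2 hT))) hh
  obtain ⟨-, -, -, -, -, -, -, -, -, -, a11, a12⟩ := CJ_eqs (mem_CJ.2 hgJ)
  rw [gS_conj_apply, gS_conj_apply] at h
  simp only [show (3 : Fin 5) * 1 = 3 from rfl, show (3 : Fin 5) * 4 = 2 from rfl, a11, a12] at h
  exact h

end Proper

end Cfsg.Agent.SUFive.Symp
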