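import Cfsg.Agent.SUFive.SympReduce
import Cfsg.Agent.SUFive.SympFour

/-!
Clause seven of the `SU₅` list: the normaliser of `5^{1+2}` is maximal.
-/

set_option autoImplicit false

namespace Cfsg.Agent.SUFive

open Cfsg.Geo
open scoped MatrixGroups Fin.CommRing Fin.NatCast

universe u

/-- Clause seven of the `SU₅` list. -/
theorem suGL_symplecticType_maximal_five {F : Type u} [Field F] [Fintype F] (q : ℕ)
    (hF : Fintype.card F = q ^ 2) :
    ∀ (p : ℕ) (R : Subgroup (Matrix.GeneralLinearGroup (Fin 5) F)), p.Prime → CharP F p →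
      ((q = p ∧ p % 5 = 4) ∨ (q = p ^ 2 ∧ (p % 5 = 2 ∨ p % 5 = 3))) →
      Cfsg.Geo.IsSymplecticTypeGroup 5 R →
      Cfsg.Geo.ActsAbsolutelyIrreducibly (Cfsg.Geo.matrixSet R) →
      R ≤ Cfsg.Geo.similarityGroup (Cfsg.hermForm 5 F q) → Nat.card R = 125 →
      Nat.card (Subgroup.center R) = 5 →
      Cfsg.Geo.IsMaximalIn (Cfsg.GU 5 F q ⊓ Cfsg.Geo.specialLinear (Fin 5) F)
        (Cfsg.Geo.subgroupNormalizer R ⊓ (Cfsg.GU 5 F q ⊓ Cfsg.Geo.specialLinear (Fin 5) F)) :=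
  suGL_symplecticType_maximal_five_of_four q hF fun R _ hM => Symp.four_local R hM

end Cfsg.Agent.SUFive
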