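import Cfsg.Agent.SUFive.SympCentral
import Cfsg.Agent.SUFive.SympFinal
import Cfsg.Agent.SUFive.SympConj

/-!
The core of clause seven of the `SU₅` list in odd characteristic, and the reduction of the clause
to the case of sixteen elements.
-/

set_option autoImplicit false
set_option linter.unusedSectionVars false
set_option linter.style.haveILetI false

namespace Cfsg.Agent.SUFive.Symp

open Matrix Cfsg.Geo Cfsg.Agent.Classical.U
open scoped MatrixGroups Fin.CommRing Fin.NatCast

universe u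

variable {F : Type u} [Field F] [Finite F] {q p : ℕ}

/-- In odd characteristic an overgroup contains `SU₅` or normalises `5^{1+2}`. -/
theorem core_odd (hp : p.Prime) (hc : CharP F p)
    (hq : (q = p ∧ p % 5 = 4) ∨ (q = p ^ 2 ∧ (p % 5 = 2 ∨ p % 5 = 3))) (h2 : p ≠ 2) :
    SympCore F q := by
  intro R M hM
  by_cases hfull : ClassicalMax.suGL 5 F q ≤ M
  · exact Or.inl hfull
  · have two : (2 : F) ≠ 0 := fun h => by
      have h' : ((2 : ℕ) : F) = 0 := by exact_mod_cast h
      exact h2 ((Nat.prime_dvd_prime_iff_eq hp Nat.prime_two).1 ((CharP.cast_eq_zero_iff F p 2).1 h'))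
    have P : Proper p R M := ⟨hp, hc, hq, two, hM, hfull⟩
    exact Or.inr (le_normalizer_of_local R hM (fun u hu hJ h => P.involution_eq hu hJ h)
      fun N hN hn hodd n hnN => P.odd_normal_scalar hN hn hodd hnN)

/-- The case of sixteen elements is the only one left. -/
theorem core_of_four
    (h4 : ∀ (R : URoot5 F 4) (M : Subgroup (GL (Fin 5) F)), R.Contains M →
      ClassicalMax.suGL 5 F 4 ≤ M ∨
      ((∀ u ∈ M, Commute u gJ → u * u = 1 → u = 1 ∨ u = gJ) ∧
        ∀ N : Subgroup (GL (Fin 5) F), N ≤ M ⊓ CJ F →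
          (∀ g ∈ M, g ∈ CJ F → ∀ n ∈ N, g * n * g⁻¹ ∈ N) → Odd (Nat.card N) →
          ∀ n ∈ N, ∃ c : F, (n : Matrix (Fin 5) (Fin 5) F) = c • 1))
    (hp : p.Prime) (hc : CharP F p)
    (hq : (q = p ∧ p % 5 = 4) ∨ (q = p ^ 2 ∧ (p % 5 = 2 ∨ p % 5 = 3))) :
    SympCore F q := by
  by_cases h2 : p = 2
  · subst h2
    obtain rfl : q = 4 := by
      rcases hq with ⟨-, h⟩ | ⟨e, -⟩
      · norm_num at h
      · rw [e]; norm_num
    intro R M hM
    exact (h4 R M hM).imp_right fun h => le_normalizer_of_local R hM h.1 h.2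
  · exact core_odd hp hc hq h2

end Cfsg.Agent.SUFive.Symp
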