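import Cfsg.Agent.SUFive.SympUnit

/-!
The blocks of the centralisers of `J` and of `T` inside the unitary group.
-/

set_option autoImplicit false
set_option linter.unusedSectionVars false

namespace Cfsg.Agent.SUFive.Symp

open Matrix Cfsg.Geo Cfsg.Agent.Classical.U
open scoped MatrixGroups Fin.CommRing Fin.NatCast

universe u

variable {F : Type u} [Field F] {q : ℕ}

theorem sum_cols {n : ℕ} (hF : SqField F q) {g : GL (Fin n) F} (hg : g ∈ Cfsg.GU n F q)
    (a b : Fin n) :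
    ∑ i, (g : Matrix (Fin n) (Fin n) F) i a * (g : Matrix (Fin n) (Fin n) F) i b ^ q =
      if a = b then 1 else 0 := by
  rw [Elusive25.mem_GU_iff_gram hF] at hg
  have h := congrFun (congrFun hg a) b
  simpa only [Matrix.mul_apply, Matrix.transpose_apply, Matrix.map_apply, Forms.sqConj_apply,
    Matrix.one_apply] using h

theorem mem_GU_two (hF : SqField F q) {m : GL (Fin 2) F}
    (h : ∀ a b, (m : Matrix (Fin 2) (Fin 2) F) 0 a * (m : Matrix (Fin 2) (Fin 2) F) 0 b ^ q +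
      (m : Matrix (Fin 2) (Fin 2) F) 1 a * (m : Matrix (Fin 2) (Fin 2) F) 1 b ^ q =
        if a = b then 1 else 0) : m ∈ Cfsg.GU 2 F q := by
  rw [Elusive25.mem_GU_iff_gram hF]
  ext a b
  simp only [Matrix.mul_apply, Matrix.transpose_apply, Matrix.map_apply, Forms.sqConj_apply,
    Matrix.one_apply, Fin.sum_univ_two, h]

theorem q_map_two (hF : SqField F q) : (2 : F) ^ q = 2 := by
  rw [show (2 : F) = 1 + 1 by norm_num, hF.add_pow, one_pow]

/-- The block on the `-1`-space of `J` is unitary. -/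
theorem rM_mem_GU (hF : SqField F q) (h2 : (2 : F) ≠ 0) (g : CJ F)
    (hg : (g : GL (Fin 5) F) ∈ Cfsg.GU 5 F q) : rM g ∈ Cfsg.GU 2 F q := by
  obtain ⟨a1, a2, a3, a4, a5, a6, a7, a8, a9, a10, a11, a12⟩ := CJ_eqs g.2
  refine mem_GU_two hF fun a b => ?_
  simp only [val_rM]
  have h := fun a b => sum_cols hF hg a b
  simp only [Fin.sum_univ_five, a1, a2, a3, a4, a5, a6, a7, a8, a9, a10, a11, a12] at h
  have h11 := h 1 1; have h14 := h 1 4; have h41 := h 4 1; have h44 := h 4 4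
  have h12 := h 1 2; have h13 := h 1 3; have h42 := h 4 2; have h43 := h 4 3
  have h21 := h 2 1; have h24 := h 2 4; have h31 := h 3 1; have h34 := h 3 4
  have h22 := h 2 2; have h23 := h 2 3; have h32 := h 3 2; have h33 := h 3 3
  simp [a1, a2, a3, a4, a5, a6, a7, a8, a9, a10, a11, a12] at h11 h14 h41 h44 h12 h13 h42 h43 h21 h24 h31 h34 h22 h23 h32 h33
  fin_cases a <;> fin_cases b <;> simp [matM, hF.sub_pow, h2]
  · refine mul_left_cancel₀ h2 ?_; linear_combination h11 - h14 - h41 + h44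
  · refine mul_left_cancel₀ h2 ?_; linear_combination h12 - h13 - h42 + h43
  · refine mul_left_cancel₀ h2 ?_; linear_combination h21 - h24 - h31 + h34
  · refine mul_left_cancel₀ h2 ?_; linear_combination h22 - h23 - h32 + h33

/-- The block on the plane `e₁ + e₄, e₂ + e₃`. -/
def matQ (g : Matrix (Fin 5) (Fin 5) F) : Matrix (Fin 2) (Fin 2) F :=
  !![g 1 1 + g 1 4, g 1 2 + g 1 3; g 2 1 + g 2 4, g 2 2 + g 2 3]

/-- That block is unitary when the element fixes the line of `e₀`. -/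
theorem matQ_mem_GU (hF : SqField F q) (h2 : (2 : F) ≠ 0) {g : GL (Fin 5) F} (hc : g ∈ CJ F)
    (hg : g ∈ Cfsg.GU 5 F q) (h01 : (g : Matrix (Fin 5) (Fin 5) F) 0 1 = 0)
    (h02 : (g : Matrix (Fin 5) (Fin 5) F) 0 2 = 0) {m : GL (Fin 2) F}
    (hm : (m : Matrix (Fin 2) (Fin 2) F) = matQ (g : Matrix (Fin 5) (Fin 5) F)) :
    m ∈ Cfsg.GU 2 F q := by
  obtain ⟨a1, a2, a3, a4, a5, a6, a7, a8, a9, a10, a11, a12⟩ := CJ_eqs hc
  refine mem_GU_two hF fun a b => ?_
  simp only [hm]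
  have h := fun a b => sum_cols hF hg a b
  simp only [Fin.sum_univ_five] at h
  have h11 := h 1 1; have h14 := h 1 4; have h41 := h 4 1; have h44 := h 4 4
  have h12 := h 1 2; have h13 := h 1 3; have h42 := h 4 2; have h43 := h 4 3
  have h21 := h 2 1; have h24 := h 2 4; have h31 := h 3 1; have h34 := h 3 4
  have h22 := h 2 2; have h23 := h 2 3; have h32 := h 3 2; have h33 := h 3 3
  simp [a1, a2, a3, a4, a5, a6, a7, a8, a9, a10, a11, a12, h01, h02, hF.q_ne_zero] at h11 h14 h41 h44 h12 h13 h42 h43 h21 h24 h31 h34 h22 h23 h32 h33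
  fin_cases a <;> fin_cases b <;> simp [matQ, hF.add_pow, h2]
  · refine mul_left_cancel₀ h2 ?_; linear_combination h11 + h14 + h41 + h44
  · refine mul_left_cancel₀ h2 ?_; linear_combination h12 + h13 + h42 + h43
  · refine mul_left_cancel₀ h2 ?_; linear_combination h21 + h24 + h31 + h34
  · refine mul_left_cancel₀ h2 ?_; linear_combination h22 + h23 + h32 + h33

namespace Root5

variable (R : Root5 F)

/-- The blocks on `e₁, e₄` and on `e₂, e₃` are unitary. -/
theorem r1_mem_GU (hF : SqField F q) (g : R.CT) (hg : (g : GL (Fin 5) F) ∈ Cfsg.GU 5 F q) :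
    R.r1 g ∈ Cfsg.GU 2 F q := by
  obtain ⟨a1, a2, a3, a4, a5, a6, a7, a8, a9, a10, a11, a12, a13, a14, a15, a16⟩ := R.CT_eqs g.2
  refine mem_GU_two hF fun a b => ?_
  have h := sum_cols hF hg (if a = 0 then 1 else 4) (if b = 0 then 1 else 4)
  simp only [R.val_r1, Fin.sum_univ_five] at h ⊢
  fin_cases a <;> fin_cases b <;>
    simp [mat1, a1, a2, a3, a4, a9, a10, a11, a12, a13, a14, a15, a16, hF.q_ne_zero] at h ⊢ <;>
    linear_combination h

theorem r4_mem_GU (hF : SqField F q) (g : R.CT) (hg : (g : GL (Fin 5) F) ∈ Cfsg.GU 5 F q) :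
    R.r4 g ∈ Cfsg.GU 2 F q := by
  obtain ⟨a1, a2, a3, a4, a5, a6, a7, a8, a9, a10, a11, a12, a13, a14, a15, a16⟩ := R.CT_eqs g.2
  refine mem_GU_two hF fun a b => ?_
  have h := sum_cols hF hg (if a = 0 then 2 else 3) (if b = 0 then 2 else 3)
  simp only [R.val_r4, Fin.sum_univ_five] at h ⊢
  fin_cases a <;> fin_cases b <;>
    simp [mat4, a1, a2, a3, a4, a9, a10, a11, a12, a13, a14, a15, a16, hF.q_ne_zero] at h ⊢ <;>
    linear_combination h

/-- The exchange of the two blocks by `S`. -/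
theorem gS_conj_r4 {g : GL (Fin 5) F} (hg : g ∈ R.CT) :
    (R.r4 ⟨gS * g * gS⁻¹, R.gS_conj_mem_CT hg⟩ : Matrix (Fin 2) (Fin 2) F) =
      mat1 (g : Matrix (Fin 5) (Fin 5) F) := by
  rw [R.val_r4]
  ext i j
  fin_cases i <;> fin_cases j <;> simp [mat1, mat4, gS_conj_apply] <;>
    (congr 1 <;> decide)

theorem gS_conj_r1 {g : GL (Fin 5) F} (hg : g ∈ R.CT) :
    (R.r1 ⟨gS * g * gS⁻¹, R.gS_conj_mem_CT hg⟩ : Matrix (Fin 2) (Fin 2) F) =
      !![(g : Matrix (Fin 5) (Fin 5) F) 3 3, (g : Matrix (Fin 5) (Fin 5) F) 3 2;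
        (g : Matrix (Fin 5) (Fin 5) F) 2 3, (g : Matrix (Fin 5) (Fin 5) F) 2 2] := by
  rw [R.val_r1]
  ext i j
  fin_cases i <;> fin_cases j <;> simp [mat1, gS_conj_apply] <;> (congr 1 <;> decide)

end Root5

/-- The block diagonal matrix `1, 1, A, 1` on `e₂, e₃`. -/
def blk23 (A : Matrix (Fin 2) (Fin 2) F) : Matrix (Fin 5) (Fin 5) F :=
  !![1, 0, 0, 0, 0; 0, 1, 0, 0, 0; 0, 0, A 0 0, A 0 1, 0; 0, 0, A 1 0, A 1 1, 0; 0, 0, 0, 0, 1]

/-- `GL₂` acting on `e₂, e₃`. -/
def emb23 : GL (Fin 2) F →* GL (Fin 5) F :=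
  MonoidHom.toHomUnits
    { toFun := fun A => blk23 (A : Matrix (Fin 2) (Fin 2) F)
      map_one' := by
        ext i j; fin_cases i <;> fin_cases j <;> simp [blk23]
      map_mul' := fun A B => by
        ext i j
        fin_cases i <;> fin_cases j <;>
          simp [blk23, Matrix.mul_apply, Fin.sum_univ_five, Fin.sum_univ_two] }

theorem val_emb23 (A : GL (Fin 2) F) :
    (emb23 A : Matrix (Fin 5) (Fin 5) F) = blk23 (A : Matrix (Fin 2) (Fin 2) F) := rfl

namespace Root5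

variable (R : Root5 F)

theorem emb23_mem_CT (A : GL (Fin 2) F) : emb23 A ∈ R.CT := by
  refine R.mem_CT.2 (R.commute_dG_iff.2 fun i j h => ?_)
  rw [val_emb23]
  fin_cases i <;> fin_cases j <;> first | (exfalso; exact h (by decide)) | simp [blk23]

theorem blocks_emb23 (A : GL (Fin 2) F) :
    R.r1 ⟨emb23 A, R.emb23_mem_CT A⟩ = 1 ∧ R.r4 ⟨emb23 A, R.emb23_mem_CT A⟩ = A ∧
      R.r0 ⟨emb23 A, R.emb23_mem_CT A⟩ = 1 := by
  refine ⟨Units.ext ?_, Units.ext ?_, ?_⟩
  · rw [R.val_r1, Units.val_one]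
    ext i j; fin_cases i <;> fin_cases j <;> simp [mat1, val_emb23, blk23]
  · rw [R.val_r4]
    ext i j; fin_cases i <;> fin_cases j <;> simp [mat4, val_emb23, blk23]
  · show (emb23 A : Matrix (Fin 5) (Fin 5) F) 0 0 = 1
    simp [val_emb23, blk23]

theorem emb23_of_blocks {g : R.CT} (h1 : R.r1 g = 1) (h0 : R.r0 g = 1) :
    (g : GL (Fin 5) F) = emb23 (R.r4 g) :=
  congrArg Subtype.val (R.eq_of_blocks_T (g := g) (h := ⟨_, R.emb23_mem_CT (R.r4 g)⟩)
    (h1.trans (R.blocks_emb23 _).1.symm) (R.blocks_emb23 _).2.1.symm (h0.trans (R.blocks_emb23 _).2.2.symm))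

end Root5

/-- An element of `SU₂` with all entries non-zero, not a scalar multiple of a sign change. -/
theorem exists_generic (hF : SqField F q) (h2 : (2 : F) ≠ 0) :
    ∃ S ∈ ClassicalMax.suGL 2 F q, ∀ i j, (S : Matrix (Fin 2) (Fin 2) F) i j ≠ 0 := by
  obtain ⟨α, hα⟩ := hF.exists_norm (c := (2 : F)) (q_map_two hF)
  obtain ⟨β, hβ⟩ := hF.exists_norm (c := (-1 : F)) (by rw [hF.neg_pow, one_pow])
  have hα' : α * α ^ q = 2 := by rw [← pow_succ']; exact hα
  have hβ' : β * β ^ q = -1 := by rw [← pow_succ']; exact hβ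
  have hdet : Matrix.det (!![α, β; -β ^ q, α ^ q] : Matrix (Fin 2) (Fin 2) F) = 1 := by
    rw [det_fin_two_of]; linear_combination hα' + hβ'
  have hu : IsUnit (!![α, β; -β ^ q, α ^ q] : Matrix (Fin 2) (Fin 2) F) := by
    rw [Matrix.isUnit_iff_isUnit_det, hdet]; exact isUnit_one
  obtain ⟨S, hS⟩ := hu
  refine ⟨S, ⟨mem_GU_two hF fun a b => ?_, GeoClasses.mem_specialLinear_iff.2 (by rw [hS, hdet])⟩,
    fun i j => ?_⟩
  · rw [hS]
    fin_cases a <;> fin_cases b <;> simp [hF.neg_pow, hF.pow_pow]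
    · linear_combination hα' + hβ'
    · ring
    · ring
    · linear_combination hα' + hβ'
  · have ha0 : α ≠ 0 := fun e => h2 (by rw [← hα', e, zero_mul])
    have hb0 : β ≠ 0 := fun e => one_ne_zero (α := F) (by rw [e, zero_mul] at hβ'; linear_combination hβ')
    rw [hS]
    fin_cases i <;> fin_cases j <;> simp [ha0, hb0]

end Cfsg.Agent.SUFive.Symp
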