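import Cfsg.Agent.SUFive.SympOdd

/-!
Clause seven of the `SU₅` list, reduced to the field of sixteen elements.
-/

set_option autoImplicit false

namespace Cfsg.Agent.SUFive

open Cfsg.Geo
open scoped MatrixGroups Fin.CommRing Fin.NatCast

universe u

/-- Clause seven, given the local analysis over sixteen elements. -/
theorem suGL_symplecticType_maximal_five_of_four {F : Type u} [Field F] [Fintype F] (q : ℕ)
    (hF : Fintype.card F = q ^ 2)
    (h4 : ∀ (R : Symp.URoot5 F 4) (M : Subgroup (GL (Fin 5) F)), R.Contains M →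
      ClassicalMax.suGL 5 F 4 ≤ M ∨
      ((∀ u ∈ M, Commute u Symp.gJ → u * u = 1 → u = 1 ∨ u = Symp.gJ) ∧
        ∀ N : Subgroup (GL (Fin 5) F), N ≤ M ⊓ Symp.CJ F →
          (∀ g ∈ M, g ∈ Symp.CJ F → ∀ n ∈ N, g * n * g⁻¹ ∈ N) → Odd (Nat.card N) →
          ∀ n ∈ N, ∃ c : F, (n : Matrix (Fin 5) (Fin 5) F) = c • 1)) :
    ∀ (p : ℕ) (R : Subgroup (Matrix.GeneralLinearGroup (Fin 5) F)), p.Prime → CharP F p →
      ((q = p ∧ p % 5 = 4) ∨ (q = p ^ 2 ∧ (p % 5 = 2 ∨ p % 5 = 3))) →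
      Cfsg.Geo.IsSymplecticTypeGroup 5 R →
      Cfsg.Geo.ActsAbsolutelyIrreducibly (Cfsg.Geo.matrixSet R) →
      R ≤ Cfsg.Geo.similarityGroup (Cfsg.hermForm 5 F q) → Nat.card R = 125 →
      Nat.card (Subgroup.center R) = 5 →
      Cfsg.Geo.IsMaximalIn (Cfsg.GU 5 F q ⊓ Cfsg.Geo.specialLinear (Fin 5) F)
        (Cfsg.Geo.subgroupNormalizer R ⊓ (Cfsg.GU 5 F q ⊓ Cfsg.Geo.specialLinear (Fin 5) F)) :=
  Symp.suGL_symplecticType_five_of_core q hF fun _ hp hc hq => Symp.core_of_four h4 hp hc hq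

end Cfsg.Agent.SUFive
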